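import Cfsg.Statements.S6001
import Cfsg.Agent.Lib.Elusive.ExtraTwoFour
import Cfsg.Agent.Lib.Three.Extraspecial
import Cfsg.Agent.S2587
import Cfsg.Agent.Lib.Classical.Unitary
import Cfsg.Agent.Lib.UnitaryConj

set_option autoImplicit false
open scoped MatrixGroups
open Cfsg

namespace Cfsg.Agent.S6001

open Matrix
open Cfsg.Agent.Lib.Elusive.TwoSix
open Cfsg.Agent.Lib.UnitaryConj (qHom tstar tstar_mul tstar_smul tstar_one tstar_add tstar_tstar mem_GU_iff)

universe v

section linear

variable {F : Type v} [Field F]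

local notation "G4" => GL (Fin 4) F
local notation "M4" => Matrix (Fin 4) (Fin 4) F

theorem conj_pow_one {g x : G4} {r : ℕ} (h : x ^ r = 1) : (g⁻¹ * x * g) ^ r = 1 := by
  rw [show g⁻¹ * x * g = g⁻¹ * x * g⁻¹⁻¹ by rw [inv_inv], conj_pow, h]; simp

theorem conj_nonscalar {g x : G4} (hx : ∀ c : F, (x : M4) ≠ c • 1) (c : F) :
    ((g⁻¹ * x * g : G4) : M4) ≠ c • 1 := by
  intro hc
  apply hx c
  have : x = g * (g⁻¹ * x * g) * g⁻¹ := by group
  rw [this, Units.val_mul, Units.val_mul g, hc, Matrix.mul_smul, mul_one, Matrix.smul_mul, Units.mul_inv]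

theorem trace_zero_of_anti (h2 : (2 : F) ≠ 0) (v : G4) {M : M4} (h : (v : M4) * M = -(M * v)) :
    M.trace = 0 := by
  have e : (v : M4) * M * ((v⁻¹ : G4) : M4) = -M := by
    rw [h, neg_mul, mul_assoc, Units.mul_inv, mul_one]
  have := congrArg Matrix.trace e
  rw [Matrix.trace_mul_cycle, Units.inv_mul, one_mul, Matrix.trace_neg] at this
  have h' : (2 : F) * M.trace = 0 := by linear_combination this
  exact (mul_eq_zero.1 h').resolve_left h2

/-- A function with values in a finite type, up to a permutation of the indices. -/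
theorem exists_perm_of_counts {γ : Type*} [DecidableEq γ] (f f' : Fin 4 → γ)
    (h : ∀ c, (Finset.univ.filter fun i => f i = c).card = (Finset.univ.filter fun i => f' i = c).card) :
    ∃ σ : Equiv.Perm (Fin 4), f ∘ σ = f' := by
  let e : ∀ c, {i // f' i = c} ≃ {i // f i = c} := fun c =>
    Fintype.equivOfCardEq (by rw [Fintype.card_subtype, Fintype.card_subtype, h c])
  exact ⟨Equiv.ofFiberEquiv e, funext fun i => Equiv.ofFiberEquiv_map e i⟩

theorem gl_conj_of_diag {x w : G4} {d d' : Fin 4 → F} (P Q : G4)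
    (hP : (x : M4) * P = P * Matrix.diagonal d) (hQ : (w : M4) * Q = Q * Matrix.diagonal d')
    (σ : Equiv.Perm (Fin 4)) (hσ : d ∘ σ = d') : IsConj x w := by
  obtain ⟨P', hP'⟩ := Cfsg.Agent.Lib.Three.diag_perm P hP σ
  rw [hσ] at hP'
  rw [isConj_iff]
  refine ⟨Q * P'⁻¹, ?_⟩
  rw [mul_inv_eq_iff_eq_mul]
  apply Units.ext
  simp only [Units.val_mul]
  calc (Q : M4) * ((P'⁻¹ : G4) : M4) * (x : M4)
      = (Q : M4) * ((P'⁻¹ : G4) : M4) * ((x : M4) * P') * ((P'⁻¹ : G4) : M4) := by
        simp only [mul_assoc, Units.mul_inv, mul_one]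
    _ = (Q : M4) * Matrix.diagonal d' * ((P'⁻¹ : G4) : M4) := by
        rw [hP', mul_assoc (Q : M4), ← mul_assoc ((P'⁻¹ : G4) : M4), Units.inv_mul, one_mul]
    _ = (w : M4) * ((Q : M4) * ((P'⁻¹ : G4) : M4)) := by rw [← hQ, mul_assoc]

theorem trace_of_diag {M : M4} {d : Fin 4 → F} (P : G4) (hP : M * (P : M4) = (P : M4) * Matrix.diagonal d) :
    M.trace = ∑ i, d i ∧ M.det = ∏ i, d i := by
  have e : M = (P : M4) * Matrix.diagonal d * ((P⁻¹ : G4) : M4) := by
    rw [← hP, mul_assoc, Units.mul_inv, mul_one]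
  constructor
  · rw [e, Matrix.trace_mul_cycle, Units.inv_mul, one_mul, Matrix.trace_diagonal]
  · have := congrArg Matrix.det hP
    rw [Matrix.det_mul, Matrix.det_mul, Matrix.det_diagonal, mul_comm M.det] at this
    exact mul_left_cancel₀ ((Matrix.isUnit_iff_isUnit_det _).1 P.isUnit).ne_zero this

/-- `1 + u` for `u² = -1`. -/
noncomputable def tr' (h2 : (2 : F) ≠ 0) (u : GL (Fin 4) F) (hu : u * u = -1) : GL (Fin 4) F where
  val := 1 + (u : Matrix (Fin 4) (Fin 4) F)
  inv := (2⁻¹ : F) • (1 - (u : Matrix (Fin 4) (Fin 4) F))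
  val_inv := by
    have e : (u : M4) * u = -1 := by rw [← Units.val_mul, hu, Units.val_neg, Units.val_one]
    rw [Matrix.mul_smul, show (1 + (u : M4)) * (1 - (u : M4)) = (2 : F) • (1 : M4) by
      rw [add_mul, one_mul, mul_sub, mul_one, e, two_smul]; abel, smul_smul, inv_mul_cancel₀ h2, one_smul]
  inv_val := by
    have e : (u : M4) * u = -1 := by rw [← Units.val_mul, hu, Units.val_neg, Units.val_one]
    rw [Matrix.smul_mul, show (1 - (u : M4)) * (1 + (u : M4)) = (2 : F) • (1 : M4) by
      rw [sub_mul, one_mul, mul_add, mul_one, e, two_smul]; abel, smul_smul, inv_mul_cancel₀ h2, one_smul]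

theorem tr'_comm (h2 : (2 : F) ≠ 0) {u w : G4} (hu : u * u = -1) (hc : u * w = w * u) :
    SemiconjBy (tr' h2 u hu) w w := by
  apply Units.ext
  show (1 + (u : M4)) * (w : M4) = (w : M4) * (1 + (u : M4))
  rw [add_mul, mul_add, one_mul, mul_one, ← Units.val_mul, hc, Units.val_mul]

theorem tr'_anti (h2 : (2 : F) ≠ 0) {u w w' : G4} (hu : u * u = -1) (hc : u * w = -(w * u))
    (he : u * w = w') : SemiconjBy (tr' h2 u hu) w w' := by
  subst he
  apply Units.ext
  show (1 + (u : M4)) * (w : M4) = ((u * w : G4) : M4) * (1 + (u : M4))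
  have e : (u : M4) * u = -1 := by rw [← Units.val_mul, hu, Units.val_neg, Units.val_one]
  have hc' : (w : M4) * u = -((u : M4) * w) := by
    rw [← Units.val_mul u w, hc, Units.val_neg, neg_neg, Units.val_mul]
  rw [add_mul, mul_add, one_mul, mul_one, Units.val_mul, mul_assoc (u : M4), hc', mul_neg, ← mul_assoc, e,
    neg_mul, one_mul, neg_neg, add_comm]

theorem mem_normalizer_of_conj [Finite F] {R : Subgroup (GL (Fin 4) F)} {g : G4}
    (hg : ∀ w ∈ R, g * w * g⁻¹ ∈ R) : g ∈ Subgroup.normalizer (R : Set G4) := by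
  have key : R.map (MulAut.conj g).toMonoidHom ≤ R := by
    rintro _ ⟨w, hw, rfl⟩; exact hg w hw
  have heq := Subgroup.eq_of_le_of_card_ge key (le_of_eq
    (Nat.card_congr (R.equivMapOfInjective _ (MulAut.conj g).injective).toEquiv))
  rw [Subgroup.mem_normalizer_iff]
  intro w
  refine ⟨fun hw => hg w hw, fun hw => ?_⟩
  obtain ⟨v, hv, e⟩ := (SetLike.ext_iff.1 heq _).2 hw
  rw [← (MulAut.conj g).injective e]; exact hv

theorem scalar_mem_normalizer [Finite F] {R : Subgroup (GL (Fin 4) F)} {g : G4} {c : F}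
    (hg : (g : M4) = c • 1) : g ∈ Subgroup.normalizer (R : Set G4) :=
  mem_normalizer_of_conj fun w hw => by
    rw [show g * w = w * g from Units.ext (by
      rw [Units.val_mul, Units.val_mul, hg, Matrix.smul_mul, Matrix.mul_smul, one_mul, mul_one]), mul_inv_cancel_right]
    exact hw

theorem tr'_normal [Finite F] {R : Subgroup (GL (Fin 4) F)} (h : Four R) {u : G4} (huR : u ∈ R) (hu : u * u = -1) :
    tr' h.two_ne u hu ∈ Subgroup.normalizer (R : Set G4) := by
  refine mem_normalizer_of_conj fun w hw => ?_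
  rcases h.comm u huR w hw with hc | hc
  · rw [show tr' h.two_ne u hu * w = w * tr' h.two_ne u hu from tr'_comm h.two_ne hu hc, mul_inv_cancel_right]
    exact hw
  · rw [show tr' h.two_ne u hu * w = u * w * tr' h.two_ne u hu from tr'_anti h.two_ne hu hc rfl,
      mul_inv_cancel_right]
    exact mul_mem huR hw

end linear

section normal

variable {F : Type v} [Field F] [Finite F] {R : Subgroup (GL (Fin 4) F)}

local notation "G4" => GL (Fin 4) F
local notation "M4" => Matrix (Fin 4) (Fin 4) F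

theorem conj_mem {y : G4} (hy : y ∈ Subgroup.normalizer (R : Set G4)) {u : G4} (hu : u ∈ R) :
    y * u * y⁻¹ ∈ R := (Subgroup.mem_normalizer_iff.1 hy u).1 hu

theorem fixed_modEq {y : G4} (hy : y ∈ Subgroup.normalizer (R : Set G4)) {r : ℕ} [Fact r.Prime]
    (hyr : y ^ r = 1) (P : G4 → Prop) (hP : ∀ u, P (y * u * y⁻¹) ↔ P u) :
    Nat.card {u : R // P u ∧ y * u = u * y} ≡ Nat.card {u : R // P u} [MOD r] := by
  classical
  let X := {u : R // P u}
  haveI := Fintype.ofFinite X
  let f : X → X := fun u => ⟨⟨y * u.1 * y⁻¹, conj_mem hy u.1.2⟩, (hP _).2 u.2⟩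
  have hf : Function.Bijective f := Finite.injective_iff_bijective.1 fun u w h => by
    have h' : y * (u.1 : G4) * y⁻¹ = y * (w.1 : G4) * y⁻¹ := congrArg (fun z : X => (z.1 : G4)) h
    exact Subtype.ext (Subtype.ext (mul_left_cancel (mul_right_cancel h')))
  let σ : Equiv.Perm X := Equiv.ofBijective f hf
  have hσ : ∀ (k : ℕ) (u : X), (((σ ^ k) u).1 : G4) = y ^ k * u.1 * (y ^ k)⁻¹ := by
    intro k
    induction k with
    | zero => intro u; simp
    | succ k ih =>
      intro u
      rw [pow_succ', Equiv.Perm.mul_apply]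
      show y * (((σ ^ k) u).1 : G4) * y⁻¹ = _
      rw [ih, pow_succ']; group
  have hσr : σ ^ r ^ 1 = 1 := by
    rw [pow_one]; ext u : 3
    rw [hσ, hyr]; simp
  have := Equiv.Perm.card_compl_support_modEq hσr
  rw [← Nat.card_eq_fintype_card] at this
  refine Nat.ModEq.trans (Nat.ModEq.symm ?_) this
  apply Eq.subst (motive := fun n => σ.supportᶜ.card ≡ n [MOD r]) ?_ (Nat.ModEq.refl _)
  rw [← Fintype.card_coe, ← Nat.card_eq_fintype_card]
  refine (Nat.card_congr ?_)
  refine (Equiv.subtypeEquivRight (fun u => ?_)).trans (Equiv.subtypeSubtypeEquivSubtypeInter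
    (fun u : R => P u) (fun u : R => y * u = u * y))
  rw [Finset.mem_compl, Equiv.Perm.mem_support, not_not, Subtype.ext_iff, Subtype.ext_iff]
  show y * (u.1 : G4) * y⁻¹ = _ ↔ _
  rw [mul_inv_eq_iff_eq_mul]

/-- A commutator of an element of odd order with a member of `R` is central only when trivial. -/
theorem conj_central (h : Four R) {y u t : G4} {r : ℕ} (hr : Nat.Coprime r 4) (hyr : y ^ r = 1)
    (ht : t = 1 ∨ t = -1 ∨ t = h.z ∨ t = -h.z) (he : y * u * y⁻¹ = t * u) : t = 1 := by
  have htc := h.central_comm ht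
  have hk : ∀ k : ℕ, y ^ k * u * (y ^ k)⁻¹ = t ^ k * u := by
    intro k
    induction k with
    | zero => simp
    | succ k ih =>
      calc y ^ (k + 1) * u * (y ^ (k + 1))⁻¹ = y * (y ^ k * u * (y ^ k)⁻¹) * y⁻¹ := by rw [pow_succ']; group
        _ = t ^ k * (y * u * y⁻¹) := by
          rw [ih, ← mul_assoc y, ((show Commute t y from htc y).pow_left k).eq.symm]; group
        _ = _ := by rw [he, pow_succ, mul_assoc]
  have h1 := hk r
  rw [hyr, one_mul, inv_one, mul_one, eq_comm, mul_eq_right] at h1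
  have hz2 := h.z_sq
  have h4 : t ^ 4 = 1 := by
    rw [show t ^ 4 = t * t * (t * t) by simp only [pow_succ, pow_zero, one_mul, mul_assoc]]
    rcases ht with rfl | rfl | rfl | rfl <;> simp [hz2]
  rw [← orderOf_eq_one_iff]
  exact Nat.eq_one_of_dvd_coprimes hr (orderOf_dvd_of_pow_eq_one h1) (orderOf_dvd_of_pow_eq_one h4)

theorem twirl (h : Four R) [Fintype R] (M : M4) :
    ∑ u : R, ((u : G4) : M4) * M * (((u : G4)⁻¹ : G4) : M4) = (16 * M.trace) • (1 : M4) := by
  classical
  set T : M4 := ∑ u : R, ((u : G4) : M4) * M * (((u : G4)⁻¹ : G4) : M4) with hT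
  obtain ⟨c, hc⟩ := h.scalar T fun v hv => by
    have e : ((v : M4) * T) * ((v⁻¹ : G4) : M4) = T := by
      rw [hT, Finset.mul_sum, Finset.sum_mul]
      refine Fintype.sum_equiv (Equiv.mulLeft (⟨v, hv⟩ : R)) _ _ fun u => ?_
      simp [_root_.mul_inv_rev, mul_assoc]
    conv_lhs => rw [← e, mul_assoc, Units.inv_mul, mul_one]
  have htr : T.trace = 64 * M.trace := by
    rw [hT, Matrix.trace_sum]
    simp only [Matrix.trace_mul_cycle, ← Units.val_mul, inv_mul_cancel, Units.val_one, one_mul]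
    rw [Finset.sum_const, Finset.card_univ, ← Nat.card_eq_fintype_card, h.card, nsmul_eq_mul]
    norm_num
  rw [hc, Matrix.trace_smul, Matrix.trace_one, smul_eq_mul] at htr
  rw [hc]
  congr 1
  have h4 : (4 : F) ≠ 0 := by
    have := mul_ne_zero h.two_ne h.two_ne
    norm_num at this
    exact this
  apply mul_right_cancel₀ h4
  simp only [Fintype.card_fin, Nat.cast_ofNat] at htr
  linear_combination htr

theorem trace_eq_zero (h : Four R) {u : G4} (hu : u ∈ R) (hn : ¬ (u = 1 ∨ u = -1 ∨ u = h.z ∨ u = -h.z)) :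
    (u : M4).trace = 0 := by
  obtain ⟨w, hw, hwu⟩ := h.exists_anti hu hn
  exact trace_zero_of_anti h.two_ne w (by rw [← Units.val_mul, hwu, Units.val_neg, Units.val_mul])

theorem trace_identity (h : Four R) {y : G4} (hy : y ∈ Subgroup.normalizer (R : Set G4))
    {r : ℕ} (hr : Nat.Coprime r 4) (hyr : y ^ r = 1) :
    4 * (y : M4).trace * ((y⁻¹ : G4) : M4).trace = (Nat.card {u : R // y * u = u * y} : F) := by
  classical
  haveI := Fintype.ofFinite R
  have key : ∑ u : R, ((y * u * y⁻¹ * (u : G4)⁻¹ : G4) : M4) =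
      (16 * ((y⁻¹ : G4) : M4).trace) • (y : M4) := by
    have e := congrArg (fun M : M4 => (y : M4) * M) (twirl h ((y⁻¹ : G4) : M4))
    simp only [Finset.mul_sum, Matrix.mul_smul, Matrix.mul_one] at e
    rw [← e]
    refine Finset.sum_congr rfl fun u _ => ?_
    simp only [Units.val_mul, mul_assoc]
  have ht := congrArg Matrix.trace key
  rw [Matrix.trace_sum, Matrix.trace_smul, smul_eq_mul] at ht
  have hterm : ∀ u : R, ((y * u * y⁻¹ * (u : G4)⁻¹ : G4) : M4).trace =
      if y * u = (u : G4) * y then (4 : F) else 0 := by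
    intro u
    split_ifs with hc
    · rw [hc, mul_inv_cancel_right, mul_inv_cancel, Units.val_one, Matrix.trace_one]; simp
    · refine trace_eq_zero h (mul_mem (conj_mem hy u.2) (inv_mem u.2)) fun hn => hc ?_
      have e1 := conj_central h (u := (u : G4)) hr hyr hn (by group)
      rw [mul_inv_eq_one, mul_inv_eq_iff_eq_mul] at e1
      exact e1
  rw [Finset.sum_congr rfl fun u _ => hterm u, Finset.sum_ite, Finset.sum_const_zero, add_zero,
    Finset.sum_const, nsmul_eq_mul, ← Fintype.card_subtype, ← Nat.card_eq_fintype_card] at ht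
  have h4 : (4 : F) ≠ 0 := by
    have := mul_ne_zero h.two_ne h.two_ne
    norm_num at this
    exact this
  apply mul_right_cancel₀ h4
  linear_combination -ht

/-- The centraliser of `y` in `R`, as a subgroup of `R`. -/
def cen (R : Subgroup (GL (Fin 4) F)) (y : GL (Fin 4) F) : Subgroup R :=
  (Subgroup.centralizer ({y} : Set (GL (Fin 4) F))).subgroupOf R

omit [Finite F] in
theorem mem_cen {y : G4} {u : R} : u ∈ cen R y ↔ y * (u : G4) = u * y := by
  rw [cen, Subgroup.mem_subgroupOf, Subgroup.mem_centralizer_singleton_iff, eq_comm]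

omit [Finite F] in
theorem card_cen (y : G4) : Nat.card (cen R y) = Nat.card {u : R // y * u = u * y} :=
  Nat.card_congr (Equiv.subtypeEquivRight fun _ => mem_cen)

theorem card_fixed (h : Four R) {y : G4} (hy : y ∈ Subgroup.normalizer (R : Set G4)) {r : ℕ} [Fact r.Prime]
    (hyr : y ^ r = 1) (hns : ∀ c : F, (y : M4) ≠ c • 1) :
    ∃ k, k ≤ 3 ∧ Nat.card (cen R y) = 4 * 2 ^ k ∧ 4 * 2 ^ k ≡ 64 [MOD r] := by
  classical
  haveI : Finite R := Nat.finite_of_card_ne_zero (by rw [h.card]; norm_num)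
  haveI := Fintype.ofFinite (cen R y)
  have hdvd : Nat.card (cen R y) ∣ 2 ^ 6 := by
    have := (cen R y).card_subgroup_dvd_card
    rw [h.card] at this
    rw [show (2 : ℕ) ^ 6 = 64 from rfl]
    exact this
  have hne : Nat.card (cen R y) ≠ 64 := by
    intro e
    have : cen R y = ⊤ := Subgroup.eq_top_of_card_eq _ (by rw [e, h.card])
    obtain ⟨c, hc'⟩ := h.scalar (y : M4) fun u hu => congrArg Units.val
      (mem_cen.1 (this ▸ Subgroup.mem_top (⟨u, hu⟩ : R)))
    exact hns c hc'
  have h4 : 4 ≤ Nat.card (cen R y) := by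
    rw [Nat.card_eq_fintype_card]
    let m : Bool × Bool → cen R y := fun k => ⟨⟨Frame.zc h k, Frame.zc_mem h k⟩, mem_cen.2 (Frame.zc_comm h k y).symm⟩
    have hm : Function.Injective m := fun k k' e =>
      Frame.zc_injective h (congrArg (fun w : cen R y => ((w : R) : G4)) e)
    simpa using Fintype.card_le_of_injective m hm
  have hall := fixed_modEq hy hyr (fun _ => True) (fun _ => Iff.rfl)
  rw [Nat.card_congr (Equiv.subtypeEquivRight fun u : R =>
      (by simp : (True ∧ y * u = u * y) ↔ y * (u : G4) = u * y)),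
    Nat.card_congr (Equiv.subtypeUnivEquiv fun _ => trivial), h.card, ← card_cen] at hall
  obtain ⟨k, hk, hk'⟩ := (Nat.dvd_prime_pow Nat.prime_two (m := 6)).1 hdvd
  rw [hk'] at h4 hne hall
  have hk2 : 2 ≤ k := by
    by_contra hlt
    interval_cases k <;> norm_num at h4
  have hk5 : k ≤ 5 := by
    by_contra hlt
    have : k = 6 := by omega
    subst this
    norm_num at hne
  obtain ⟨l, rfl⟩ := Nat.exists_eq_add_of_le hk2
  refine ⟨l, by omega, by rw [hk', pow_add]; norm_num, ?_⟩
  rw [pow_add] at hall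
  norm_num at hall
  exact hall

/-- A subgroup of index at most two whose elements commute forces an element to commute with them. -/
theorem no_abelian (h : Four R) (T : Subgroup R) (hT : ∀ a ∈ T, ∀ b ∈ T, a * b = b * a)
    (hcard : 32 ≤ Nat.card T) : False := by
  classical
  haveI : Finite R := Nat.finite_of_card_ne_zero (by rw [h.card]; norm_num)
  have hTne : T ≠ ⊤ := by
    intro e
    obtain ⟨s⟩ := h.exists_frame
    have := hT ⟨s.a, s.ha⟩ (e ▸ Subgroup.mem_top _) ⟨s.b, s.hb⟩ (e ▸ Subgroup.mem_top _)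
    have e' := congrArg Subtype.val this
    simp only [Subgroup.coe_mul] at e'
    have h' := s.ba
    rw [← e'] at h'
    exact ne_neg_self h.two_ne _ h'
  obtain ⟨v, hv⟩ : ∃ v : R, v ∉ T := by
    by_contra hc; push Not at hc
    exact hTne (eq_top_iff.2 fun x _ => hc x)
  let K : Subgroup R := T ⊓ Subgroup.centralizer ({v} : Set R)
  have hidx : T.index ≤ 2 := by
    have := T.card_mul_index
    rw [h.card] at this
    have := Nat.mul_le_mul_right T.index hcard
    omega
  have hidx2 : T.index = 2 := by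
    have : T.index ≠ 1 := fun e => hTne (Subgroup.index_eq_one.1 e)
    have := T.index_ne_zero_of_finite
    omega
  have hcentral : ∀ k ∈ K, ∀ x : R, k * x = x * k := by
    intro k hk x
    have hkv : k * v = v * k := (Subgroup.mem_centralizer_singleton_iff.1 (Subgroup.mem_inf.1 hk).2)
    by_cases hx : x ∈ T
    · exact hT k hk.1 x hx
    · have hvx : v⁻¹ * x ∈ T := (Subgroup.mul_mem_iff_of_index_two hidx2).2
        (iff_of_false (fun e => hv (inv_mem_iff.1 e)) hx)
      have e2 := hT k hk.1 _ hvx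
      calc k * x = k * v * (v⁻¹ * x) := by group
        _ = v * (k * (v⁻¹ * x)) := by rw [hkv, mul_assoc]
        _ = x * k := by rw [e2]; group
  have h16 : 16 ≤ Nat.card K := by
    -- any two elements of `T` moved by `v` differ by an element of `K`
    have hs : ∀ a b : R, a ∈ T → b ∈ T → a * v ≠ v * a → b * v ≠ v * b → a⁻¹ * b ∈ K := by
      intro a b ha hb hav hbv
      refine Subgroup.mem_inf.2 ⟨mul_mem (inv_mem ha) hb, Subgroup.mem_centralizer_singleton_iff.2 ?_⟩
      have ea : (a : G4) * v = -(v * a) := (h.comm a a.2 v v.2).resolve_left fun e => hav (Subtype.ext e)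
      have eb : (b : G4) * v = -(v * b) := (h.comm b b.2 v v.2).resolve_left fun e => hbv (Subtype.ext e)
      apply Subtype.ext
      simp only [Subgroup.coe_mul, Subgroup.coe_inv]
      have ea' : (a : G4)⁻¹ * v = -(v * (a : G4)⁻¹) := by
        rw [inv_mul_eq_iff_eq_mul, mul_neg, ← mul_assoc, ea, neg_mul, neg_neg, mul_inv_cancel_right]
      rw [mul_assoc, eb, mul_neg, ← mul_assoc, ea', neg_mul, neg_neg, mul_assoc]
    have h1 := (K.subgroupOf T).card_mul_index
    have hi : (K.subgroupOf T).index ≤ 2 := by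
      rw [Subgroup.index_eq_card]
      haveI : Finite (T ⧸ K.subgroupOf T) := inferInstance
      by_contra hgt
      push Not at hgt
      haveI := Fintype.ofFinite (T ⧸ K.subgroupOf T)
      rw [Nat.card_eq_fintype_card, Fintype.two_lt_card_iff] at hgt
      obtain ⟨A, B, C, hAB, hAC, hBC⟩ := hgt
      obtain ⟨a, rfl⟩ := QuotientGroup.mk_surjective A
      obtain ⟨b, rfl⟩ := QuotientGroup.mk_surjective B
      obtain ⟨c, rfl⟩ := QuotientGroup.mk_surjective C
      have hd : ∀ s t : T, ((s : R) * v = v * s ∧ (t : R) * v = v * t) ∨ ((s : R) * v ≠ v * s ∧ (t : R) * v ≠ v * t) →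
          (s : T ⧸ K.subgroupOf T) = t := by
        intro s t hst
        rw [QuotientGroup.eq, Subgroup.mem_subgroupOf, Subgroup.coe_mul, Subgroup.coe_inv]
        rcases hst with ⟨e1, e2⟩ | ⟨e1, e2⟩
        · exact mul_mem (inv_mem (show (s : R) ∈ K from ⟨s.2, Subgroup.mem_centralizer_singleton_iff.2 e1⟩))
            ⟨t.2, Subgroup.mem_centralizer_singleton_iff.2 e2⟩
        · exact hs s t s.2 t.2 e1 e2
      by_cases p1 : (a : R) * v = v * a <;> by_cases p2 : (b : R) * v = v * b <;>
        by_cases p3 : (c : R) * v = v * c <;>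
        first
          | exact hAB (hd a b (by tauto))
          | exact hAC (hd a c (by tauto))
          | exact hBC (hd b c (by tauto))
    have h1' : Nat.card K * (K.subgroupOf T).index = Nat.card T := by
      rw [← h1, Nat.card_congr (Subgroup.subgroupOfEquivOfLe (inf_le_left : K ≤ T)).toEquiv]
    have := Nat.mul_le_mul_left (Nat.card K) hi
    omega
  haveI := Fintype.ofFinite K
  have h4 : Fintype.card K ≤ 4 := by
    have : ∀ k : K, ((k : R) : G4) ∈ ({1, -1, h.z, -h.z} : Finset G4) := fun k => by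
      simpa using h.central _ (k : R).2 fun x hx => congrArg Subtype.val (hcentral k k.2 ⟨x, hx⟩)
    refine le_trans ?_ (Finset.card_le_four (a := (1 : G4)) (b := -1) (c := h.z) (d := -h.z))
    rw [← Fintype.card_coe]
    exact Fintype.card_le_of_injective (fun k => ⟨((k : R) : G4), this k⟩)
      (fun a b e => Subtype.ext (Subtype.ext (congrArg Subtype.val e :)))
  rw [Nat.card_eq_fintype_card] at h16
  omega

/-- The sign of a commutator. -/
noncomputable def sgn (u v : GL (Fin 4) F) : F := by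
  classical exact if u * v = v * u then 1 else -1

theorem sgn_spec (h : Four R) {u v : G4} (hu : u ∈ R) (hv : v ∈ R) :
    ((u * v : G4) : M4) = sgn u v • ((v * u : G4) : M4) := by
  classical
  unfold sgn
  split_ifs with e
  · rw [e, one_smul]
  · rw [(h.comm u hu v hv).resolve_left e, neg_one_smul, Units.val_neg]

theorem sgn_unique (h : Four R) {u v : G4} (hu : u ∈ R) (hv : v ∈ R) {c : F}
    (hc : ((u * v : G4) : M4) = c • ((v * u : G4) : M4)) : c = sgn u v := by
  have e := (hc.symm.trans (sgn_spec h hu hv))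
  have := congrArg (fun M : M4 => M * (((v * u)⁻¹ : G4) : M4)) e
  simp only [Matrix.smul_mul, Units.mul_inv] at this
  have := congrFun (congrFun this 0) 0
  simpa using this

theorem sgn_mul_left (h : Four R) {u v w : G4} (hu : u ∈ R) (hv : v ∈ R) (hw : w ∈ R) :
    sgn (u * v) w = sgn u w * sgn v w := by
  refine (sgn_unique h (mul_mem hu hv) hw ?_).symm
  have e1 := sgn_spec h hu hw
  have e2 := sgn_spec h hv hw
  simp only [Units.val_mul] at e1 e2 ⊢
  rw [mul_assoc, e2, Matrix.mul_smul, ← mul_assoc, e1, Matrix.smul_mul, smul_smul, mul_comm, mul_assoc]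

theorem sgn_mul_right (h : Four R) {u v w : G4} (hu : u ∈ R) (hv : v ∈ R) (hw : w ∈ R) :
    sgn u (v * w) = sgn u v * sgn u w := by
  refine (sgn_unique h hu (mul_mem hv hw) ?_).symm
  have e1 := sgn_spec h hu hv
  have e2 := sgn_spec h hu hw
  simp only [Units.val_mul] at e1 e2 ⊢
  rw [← mul_assoc, e1, Matrix.smul_mul, mul_assoc, e2, Matrix.mul_smul, smul_smul, ← mul_assoc]

/-- A transvection of order three does not normalise `R` in characteristic three. -/
theorem no_transvection [CharP F 3] (h : Four R) (s : Frame R) {y : G4}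
    (hy : y ∈ Subgroup.normalizer (R : Set G4)) (hy3 : y ^ 3 = 1) (hns : ∀ c : F, (y : M4) ≠ c • 1)
    {φ : (Fin 4 → F) → F} {e : Fin 4 → F} (he : e ≠ 0) (hφ : ∀ v, (y : M4) *ᵥ v = v + φ v • e)
    (hN : ((y : M4) - 1) * ((y : M4) - 1) = 0) : False := by
  classical
  haveI : Fact (Nat.Prime 3) := ⟨Nat.prime_three⟩
  haveI : Finite R := Nat.finite_of_card_ne_zero (by rw [h.card]; norm_num)
  have hr : Nat.Coprime 3 4 := by decide
  obtain ⟨v0, hv0⟩ : ∃ v0, φ v0 ≠ 0 := by
    by_contra hc; push Not at hc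
    apply hns 1
    refine Matrix.toLin'.injective (LinearMap.ext fun v => ?_)
    rw [Matrix.toLin'_apply, Matrix.toLin'_apply, hφ, hc, zero_smul, add_zero, one_smul, Matrix.one_mulVec]
  -- elements commuting with `y` fix the line
  have hline : ∀ u : G4, y * u = u * y → ∃ l : F, (u : M4) *ᵥ e = l • e := by
    intro u hu
    have := congrArg (fun g : G4 => (g : M4) *ᵥ v0) hu
    simp only [Units.val_mul, ← Matrix.mulVec_mulVec, hφ, Matrix.mulVec_add, Matrix.mulVec_smul] at this
    have h' := add_left_cancel this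
    refine ⟨φ ((u : M4) *ᵥ v0) / φ v0, ?_⟩
    rw [div_eq_inv_mul, mul_smul, h', smul_smul, inv_mul_cancel₀ hv0, one_smul]
  obtain ⟨k, hk3, hk, hmod⟩ := card_fixed h hy hy3 hns
  by_cases hab : ∀ u ∈ cen R y, ∀ w ∈ cen R y, u * w = w * u
  swap
  · push Not at hab
    obtain ⟨u, hu, w, hw, huw⟩ := hab
    obtain ⟨l, hl⟩ := hline u (mem_cen.1 hu)
    obtain ⟨m, hm⟩ := hline w (mem_cen.1 hw)
    have hanti := (h.comm u u.2 w w.2).resolve_left fun e' => huw (Subtype.ext e')
    have h1 := congrArg (fun g : G4 => (g : M4) *ᵥ e) hanti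
    simp only [Units.val_mul, Units.val_neg, Matrix.neg_mulVec, ← Matrix.mulVec_mulVec, hl, hm,
      Matrix.mulVec_smul] at h1
    rw [smul_smul, smul_smul, mul_comm l m, eq_neg_iff_add_eq_zero, ← two_smul F, smul_smul, smul_eq_zero] at h1
    have hne : ∀ (g : G4) (c : F), (g : M4) *ᵥ e = c • e → c ≠ 0 := fun g c hg hc => by
      apply he
      have := congrArg (fun v => ((g⁻¹ : G4) : M4) *ᵥ v) hg
      simp only [Matrix.mulVec_mulVec, Units.inv_mul, Matrix.one_mulVec, hc, zero_smul, Matrix.mulVec_zero] at this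
      exact this
    rcases h1 with h1 | h1
    · exact mul_ne_zero h.two_ne (mul_ne_zero (hne _ _ hm) (hne _ _ hl)) h1
    · exact he h1
  have hk02 : k = 0 ∨ k = 2 := by
    interval_cases k <;> first | (left; rfl) | (right; rfl) | (exfalso; revert hmod; decide)
  rcases hk02 with rfl | rfl
  · -- fixed point free
    norm_num at hk
    have hfix : ∀ u ∈ R, y * u = u * y → u = 1 ∨ u = -1 ∨ u = h.z ∨ u = -h.z := by
      intro u hu huy
      haveI := Fintype.ofFinite (cen R y)
      let m : Bool × Bool → cen R y := fun k =>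
        ⟨⟨Frame.zc h k, Frame.zc_mem h k⟩, mem_cen.2 (Frame.zc_comm h k y).symm⟩
      have hm : Function.Bijective m := (Fintype.bijective_iff_injective_and_card _).2
        ⟨fun k k' e' => Frame.zc_injective h (congrArg (fun w : cen R y => ((w : R) : G4)) e'),
          by rw [← Nat.card_eq_fintype_card (α := cen R y), hk]; simp⟩
      obtain ⟨⟨k1, k2⟩, hkk⟩ := hm.2 ⟨⟨u, hu⟩, mem_cen.2 huy⟩
      have := congrArg (fun w : cen R y => ((w : R) : G4)) hkk
      cases k1 <;> cases k2 <;> simp [m, Frame.zc] at this <;> simp [← this]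
    let q : G4 → F := fun u => sgn u (y * u * y⁻¹)
    let B : G4 → G4 → F := fun u v => sgn u (y * v * y⁻¹) * sgn v (y * u * y⁻¹)
    have hq : ∀ u v, u ∈ R → v ∈ R → q (u * v) = q u * q v * B u v := by
      intro u v hu hv
      have hu' := conj_mem hy hu
      have hv' := conj_mem hy hv
      simp only [q, B, show y * (u * v) * y⁻¹ = (y * u * y⁻¹) * (y * v * y⁻¹) by group,
        sgn_mul_left h hu hv (mul_mem hu' hv'), sgn_mul_right h hu hu' hv', sgn_mul_right h hv hu' hv']
      ring
    have hB : ∀ u v w, u ∈ R → v ∈ R → w ∈ R → B u (v * w) = B u v * B u w := by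
      intro u v w hu hv hw
      have hu' := conj_mem hy hu
      have hv' := conj_mem hy hv
      have hw' := conj_mem hy hw
      simp only [B, show y * (v * w) * y⁻¹ = (y * v * y⁻¹) * (y * w * y⁻¹) by group,
        sgn_mul_left h hv hw hu', sgn_mul_right h hu hv' hw']
      ring
    -- some element commutes with its image
    obtain ⟨u, hu, hnc, hcomm⟩ : ∃ u ∈ R, ¬ (u = 1 ∨ u = -1 ∨ u = h.z ∨ u = -h.z) ∧
        u * (y * u * y⁻¹) = (y * u * y⁻¹) * u := by
      by_contra hne
      push Not at hne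
      have hm1 : ∀ u ∈ R, (∃ v : G4, v * u = -(u * v)) → q u = -1 := fun u hu ⟨v, hv⟩ => by
        simp only [q, sgn]
        exact if_neg (hne u hu (by simpa [not_or] using h.not_central_of_anti hv))
      obtain ⟨r1, r2, r3, r4, r5, r6, r7, r8, r9, r10⟩ := s.rules
      have qa := hm1 _ s.ha ⟨s.b, s.ba⟩
      have qb := hm1 _ s.hb ⟨s.a, by rw [s.ba, neg_neg]⟩
      have qi := hm1 _ s.hi ⟨s.j, s.ji⟩
      have qab := hm1 _ (mul_mem s.ha s.hb) ⟨s.a, by simp [mul_assoc, s.aa, s.ba, r1]⟩
      have qai := hm1 _ (mul_mem s.ha s.hi) ⟨s.b, by simp [mul_assoc, s.ba, r5, s.ib]⟩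
      have qbi := hm1 _ (mul_mem s.hb s.hi) ⟨s.a, by simp [mul_assoc, s.ba, r5, s.ia, r6]⟩
      have qabi := hm1 _ (mul_mem s.ha (mul_mem s.hb s.hi)) ⟨s.j, by
        simp [mul_assoc, s.ja, s.jb, s.ji, r7, r9]⟩
      rw [hq _ _ s.ha s.hb, qa, qb] at qab
      rw [hq _ _ s.ha s.hi, qa, qi] at qai
      rw [hq _ _ s.ha (mul_mem s.hb s.hi), qa, qbi, hB _ _ _ s.ha s.hb s.hi,
        show B s.a s.b = -1 by linear_combination qab, show B s.a s.i = -1 by linear_combination qai] at qabi
      exact h.two_ne (by linear_combination qabi)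
    obtain ⟨a, ha, haa, hav⟩ := h.scale u hu 1 (Or.inl rfl)
    obtain ⟨v, hv, hvu⟩ := h.exists_anti hu hnc
    have han : ¬ (a = 1 ∨ a = -1 ∨ a = h.z ∨ a = -h.z) := h.not_central_of_anti (v := v) (by
      rw [(hav v).2 (by rw [hvu, neg_neg]), neg_neg])
    -- its image commutes as well
    set a1 := y * a * y⁻¹ with ha1
    have hcomm' : a * a1 = a1 * a := by
      have e1 : a * (y * u * y⁻¹) = y * u * y⁻¹ * a := (hav _).1 hcomm
      have e2 : u * (y⁻¹ * a * y) = y⁻¹ * a * y * u := by
        calc u * (y⁻¹ * a * y) = y⁻¹ * (y * u * y⁻¹ * a) * y := by group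
          _ = y⁻¹ * (a * (y * u * y⁻¹)) * y := by rw [e1]
          _ = _ := by group
      have e3 : a * (y⁻¹ * a * y) = y⁻¹ * a * y * a := (hav _).1 e2
      calc a * a1 = y * (y⁻¹ * a * y * a) * y⁻¹ := by rw [ha1]; group
        _ = y * (a * (y⁻¹ * a * y)) * y⁻¹ := by rw [e3]
        _ = a1 * a := by rw [ha1]; group
    set a2 := y * a1 * y⁻¹ with ha2
    have e31 : y * a2 * y⁻¹ = a := by
      rw [ha2, ha1, show y * (y * (y * a * y⁻¹) * y⁻¹) * y⁻¹ = y ^ 3 * a * (y ^ 3)⁻¹ by simp only [pow_succ, pow_zero, one_mul]; group, hy3]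
      simp
    have c12 : a1 * a2 = a2 * a1 := by
      calc a1 * a2 = y * (a * a1) * y⁻¹ := by rw [ha1, ha2, ha1]; group
        _ = _ := by rw [hcomm', ha1, ha2, ha1]; group
    have c20 : a2 * a = a * a2 := by
      calc a2 * a = y * (a1 * a2) * y⁻¹ := by rw [← e31, ha2]; group
        _ = _ := by rw [c12, ← e31, ha2]; group
    set S : M4 := (a : M4) + (a1 : M4) + (a2 : M4) with hS
    have hq1 : ∀ g : G4, g * g = 1 → (g : M4) ^ 3 = (g : M4) := fun g hg => by
      rw [pow_succ, _root_.sq, ← Units.val_mul, hg, Units.val_one, one_mul]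
    have ha11 : a1 * a1 = 1 := by rw [ha1, show y * a * y⁻¹ * (y * a * y⁻¹) = y * (a * a) * y⁻¹ by group, haa]; simp
    have ha22 : a2 * a2 = 1 := by
      rw [ha2, show y * a1 * y⁻¹ * (y * a1 * y⁻¹) = y * (a1 * a1) * y⁻¹ by group, ha11]; simp
    haveI : CharP M4 3 := inferInstance
    have hS3 : S ^ 3 = S := by
      have k1 : Commute (a : M4) (a1 : M4) := congrArg Units.val hcomm'
      have k2 : Commute ((a : M4) + (a1 : M4)) (a2 : M4) :=
        Commute.add_left (congrArg Units.val c20.symm) (congrArg Units.val c12)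
      rw [hS, add_pow_char_of_commute (p := 3) (h := k2), add_pow_char_of_commute (p := 3) (h := k1),
        hq1 a haa, hq1 a1 ha11, hq1 a2 ha22]
    set N : M4 := (y : M4) - 1 with hNdef
    have hyv : (y : M4) = 1 + N := by rw [hNdef]; abel
    have hyi : ((y⁻¹ : G4) : M4) = 1 - N := by
      have e1 : (y : M4) * (1 - N) = 1 := by
        rw [hyv, add_mul, one_mul, mul_sub, mul_one, hN]; abel
      calc ((y⁻¹ : G4) : M4) = ((y⁻¹ : G4) : M4) * ((y : M4) * (1 - N)) := by rw [e1, mul_one]
        _ = 1 - N := by rw [← mul_assoc, Units.inv_mul, one_mul]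
    have three : ∀ M : M4, M + M + M = 0 := fun M => by
      ext i j
      simp only [Matrix.add_apply, Matrix.zero_apply]
      have h3 : ((3 : ℕ) : F) = 0 := CharP.cast_eq_zero F 3
      push_cast at h3
      linear_combination (M i j) * h3
    have hSN : S = N * (a : M4) * N := by
      have e1 : (a1 : M4) = (1 + N) * (a : M4) * (1 - N) := by rw [ha1, Units.val_mul, Units.val_mul, hyi, hyv]
      have e2 : (a2 : M4) = (1 + N) * (a1 : M4) * (1 - N) := by rw [ha2, Units.val_mul, Units.val_mul, hyi, hyv]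
      have hNw : ∀ M : M4, N * (N * M) = 0 := fun M => by rw [← mul_assoc, hN, zero_mul]
      rw [hS, e2, e1]
      simp only [add_mul, mul_add, sub_mul, mul_sub, one_mul, mul_one, mul_assoc, hN, hNw, mul_zero, zero_mul,
        add_zero, zero_add, sub_zero]
      have t1 := three (a : M4)
      have t2 := three (N * (a : M4))
      have t3 := three ((a : M4) * N)
      have t4 := three (N * ((a : M4) * N))
      linear_combination (norm := abel) t1 + t2 - t3 - t4 - t4
    have hS0 : S = 0 := by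
      rw [← hS3, hSN, pow_succ, _root_.sq]
      simp only [mul_assoc]
      rw [← mul_assoc N N, hN]
      simp
    have ht : (((a : M4) * S)).trace = 4 := by
      have hz : ∀ g ∈ R, ¬ (g = 1 ∨ g = -1 ∨ g = h.z ∨ g = -h.z) → (g : M4).trace = 0 :=
        fun g hg hn => trace_eq_zero h hg hn
      have hne1 : ∀ g : G4, g * g = 1 → y * a * y⁻¹ = g * a → ¬ (g = 1 ∨ g = -1 ∨ g = h.z ∨ g = -h.z) := by
        intro g _ hge hc
        have := conj_central h hr hy3 hc hge
        rw [this, one_mul, mul_inv_eq_iff_eq_mul] at hge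
        exact han (hfix a ha hge)
      have hg1 : ¬ (a * a1 = 1 ∨ a * a1 = -1 ∨ a * a1 = h.z ∨ a * a1 = -h.z) := fun hc => by
        have h' : y * a * y⁻¹ = (a * a1) * a := by rw [hcomm', mul_assoc a1, haa, mul_one]
        have := conj_central h hr hy3 hc h'
        rw [this, one_mul, mul_inv_eq_iff_eq_mul] at h'
        exact han (hfix a ha h')
      have hg2 : ¬ (a * a2 = 1 ∨ a * a2 = -1 ∨ a * a2 = h.z ∨ a * a2 = -h.z) := fun hc => by
        have h' : y * a * y⁻¹ = a1 := ha1.symm
        have h'' : y⁻¹ * a * (y⁻¹)⁻¹ = (a * a2) * a := by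
          rw [← c20, mul_assoc a2, haa, mul_one, inv_inv]
          conv_lhs => rw [← e31]
          group
        have := conj_central h hr (by rw [inv_pow, hy3, inv_one]) hc h''
        rw [this, one_mul, inv_inv, mul_assoc, inv_mul_eq_iff_eq_mul] at h''
        exact han (hfix a ha h''.symm)
      rw [hS, mul_add, mul_add, Matrix.trace_add, Matrix.trace_add, ← Units.val_mul, ← Units.val_mul,
        ← Units.val_mul, haa, hz _ (mul_mem ha (conj_mem hy ha)) hg1,
        hz _ (mul_mem ha (conj_mem hy (conj_mem hy ha))) hg2, Units.val_one, Matrix.trace_one]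
      simp
    rw [hS0, mul_zero, Matrix.trace_zero] at ht
    have h4 : (4 : F) ≠ 0 := by
      have := mul_ne_zero h.two_ne h.two_ne
      norm_num at this
      exact this
    exact h4 ht.symm
  · -- an abelian centraliser is self-centralising
    norm_num at hk
    have hA : ∀ a : R, (∀ c ∈ cen R y, a * c = c * a) → a ∈ cen R y := by
      intro a ha
      by_contra hn
      have hS : ∀ p ∈ insert a (cen R y : Set R), ∀ q ∈ insert a (cen R y : Set R), p * q = q * p := by
        rintro p (rfl | hp) q (rfl | hq)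
        · rfl
        · exact ha q hq
        · exact (ha p hp).symm
        · exact hab p hp q hq
      haveI := Subgroup.isMulCommutative_closure hS
      set T := Subgroup.closure (insert a (cen R y : Set R)) with hT
      refine no_abelian h T (fun p hp q hq => congrArg Subtype.val (mul_comm' (⟨p, hp⟩ : T) ⟨q, hq⟩)) ?_
      have hlt : cen R y < T := lt_of_le_of_ne (fun x hx => Subgroup.subset_closure (Or.inr hx))
        fun e' => hn (by rw [e']; exact Subgroup.subset_closure (Or.inl rfl))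
      have h1 : 16 < Nat.card T := by
        rw [← hk]
        exact lt_of_le_of_ne (Subgroup.card_le_of_le hlt.le)
          fun e' => hlt.ne (Subgroup.eq_of_le_of_card_ge hlt.le e'.ge)
      obtain ⟨m, hm, hm'⟩ := (Nat.dvd_prime_pow Nat.prime_two (m := 6)).1
        (show Nat.card T ∣ 2 ^ 6 by
          have := T.card_subgroup_dvd_card; rw [h.card] at this; rw [show (2 : ℕ) ^ 6 = 64 from rfl]; exact this)
      rw [hm'] at h1 ⊢
      interval_cases m <;> first | (norm_num; done) | (norm_num at h1)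
    obtain ⟨v, hv⟩ : ∃ v : R, v ∉ cen R y := by
      by_contra hc; push Not at hc
      rw [show cen R y = ⊤ from eq_top_iff.2 fun x _ => hc x, Subgroup.card_top, h.card] at hk
      norm_num at hk
    set v' : R := ⟨y * v * y⁻¹ * (v : G4)⁻¹, mul_mem (conj_mem hy v.2) (inv_mem v.2)⟩ with hv'
    have hv'A : v' ∈ cen R y := hA v' fun c hc => by
      apply Subtype.ext
      show y * v * y⁻¹ * (v : G4)⁻¹ * c = c * (y * v * y⁻¹ * (v : G4)⁻¹)
      have hcy : y * (c : G4) = c * y := mem_cen.1 hc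
      have hcy' : y⁻¹ * (c : G4) = c * y⁻¹ := by rw [inv_mul_eq_iff_eq_mul, ← mul_assoc, hcy, mul_inv_cancel_right]
      rcases h.comm v v.2 c c.2 with e1 | e1
      · have e1' : (v : G4)⁻¹ * c = c * (v : G4)⁻¹ := by
          rw [inv_mul_eq_iff_eq_mul, ← mul_assoc, e1, mul_inv_cancel_right]
        calc y * v * y⁻¹ * (v : G4)⁻¹ * c = y * v * (y⁻¹ * c) * (v : G4)⁻¹ := by rw [mul_assoc _ _ (c : G4), e1']; group
          _ = y * (v * c) * y⁻¹ * (v : G4)⁻¹ := by rw [hcy']; group
          _ = (y * c) * v * y⁻¹ * (v : G4)⁻¹ := by rw [e1]; group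
          _ = _ := by rw [hcy]; group
      · have e1' : (v : G4)⁻¹ * c = -(c * (v : G4)⁻¹) := by
          rw [inv_mul_eq_iff_eq_mul, mul_neg, ← mul_assoc, e1, neg_mul, neg_neg, mul_inv_cancel_right]
        rw [mul_assoc _ _ (c : G4), e1', mul_neg, ← mul_assoc, mul_assoc (y * v) y⁻¹, hcy', ← mul_assoc,
          mul_assoc y (v : G4), e1]
        simp only [mul_neg, neg_mul, neg_neg]
        rw [← mul_assoc y, hcy]
        simp only [mul_assoc]
    have hfixv : y * (v' : G4) = v' * y := mem_cen.1 hv'A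
    have e1 : y * (v : G4) * y⁻¹ = v' * v := by simp [hv']
    have hcube : ∀ k : ℕ, y ^ k * (v : G4) * (y ^ k)⁻¹ = (v' : G4) ^ k * v := by
      intro k
      induction k with
      | zero => simp
      | succ k ih =>
        calc y ^ (k + 1) * (v : G4) * (y ^ (k + 1))⁻¹ = y * (y ^ k * v * (y ^ k)⁻¹) * y⁻¹ := by rw [pow_succ']; group
          _ = (y * (v' : G4) ^ k) * v * y⁻¹ := by rw [ih]; group
          _ = (v' : G4) ^ k * (y * v * y⁻¹) := by
            rw [(show Commute y (v' : G4) from hfixv).pow_right k |>.eq]; group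
          _ = _ := by rw [pow_succ, mul_assoc _ (v' : G4), ← e1]
    have h3 := hcube 3
    rw [hy3, one_mul, inv_one, mul_one, eq_comm, mul_eq_right] at h3
    have h4 : (v' : G4) ^ 4 = 1 := by
      rw [show (v' : G4) ^ 4 = v' * v' * (v' * v') by simp only [pow_succ, pow_zero, one_mul, mul_assoc]]
      rcases h.sq _ v'.2 with e' | e' <;> rw [e'] <;> simp
    have hone : (v' : G4) = 1 := by
      rw [← orderOf_eq_one_iff]
      exact Nat.eq_one_of_dvd_coprimes hr (orderOf_dvd_of_pow_eq_one h3) (orderOf_dvd_of_pow_eq_one h4)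
    rw [hone, one_mul, mul_inv_eq_iff_eq_mul] at e1
    exact hv (mem_cen.2 e1)

theorem scalar_of_seven_le (h : Four R) (s : Frame R) {y : G4}
    (hy : y ∈ Subgroup.normalizer (R : Set G4)) {r : ℕ} [hr : Fact r.Prime] (h7 : 7 ≤ r) (hyr : y ^ r = 1) :
    ∃ c : F, (y : M4) = c • 1 := by
  classical
  by_contra hne
  push Not at hne
  haveI : Finite R := Nat.finite_of_card_ne_zero (by rw [h.card]; norm_num)
  obtain ⟨k, hk, hkc, hmod⟩ := card_fixed h hy hyr hne
  have hr7 : r = 7 ∧ k = 1 := by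
    have hd : r ∣ 64 - 4 * 2 ^ k := by
      refine (Nat.modEq_iff_dvd' ?_).1 hmod
      interval_cases k <;> norm_num
    have hr' := hr.out
    interval_cases k <;> norm_num at hd
    all_goals
      have := Nat.le_of_dvd (by norm_num) hd
      interval_cases r <;> first | omega | (exfalso; revert hr'; norm_num)
  obtain ⟨rfl, rfl⟩ := hr7
  norm_num at hkc
  haveI := Fintype.ofFinite (cen R y)
  have hcpy : Nat.Coprime 7 4 := by decide
  obtain ⟨v, hv, hvn⟩ : ∃ v ∈ cen R y, ¬ ((v : G4) = 1 ∨ (v : G4) = -1 ∨ (v : G4) = h.z ∨ (v : G4) = -h.z) := by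
    by_contra hc; push Not at hc
    have : ∀ k : cen R y, ((k : R) : G4) ∈ ({1, -1, h.z, -h.z} : Finset G4) := fun k => by
      have := hc k k.2
      simp only [Finset.mem_insert, Finset.mem_singleton]
      tauto
    have h4 : Fintype.card (cen R y) ≤ 4 := by
      refine le_trans ?_ (Finset.card_le_four (a := (1 : G4)) (b := -1) (c := h.z) (d := -h.z))
      rw [← Fintype.card_coe]
      exact Fintype.card_le_of_injective (fun k => ⟨((k : R) : G4), this k⟩)
        (fun a b e => Subtype.ext (Subtype.ext (congrArg Subtype.val e :)))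
    rw [Nat.card_eq_fintype_card] at hkc
    omega
  have hvy : y * (v : G4) = v * y := mem_cen.1 hv
  let P : G4 → Prop := fun u => u * (v : G4) = v * u
  have hm := fixed_modEq hy hyr P fun u => by
    show y * u * y⁻¹ * v = v * (y * u * y⁻¹) ↔ u * v = v * u
    have h1 : y * u * y⁻¹ * v = y * (u * v) * y⁻¹ := by
      have : y⁻¹ * (v : G4) = v * y⁻¹ := by rw [inv_mul_eq_iff_eq_mul, ← mul_assoc, hvy, mul_inv_cancel_right]
      rw [mul_assoc (y * u), this]; group
    have h2 : (v : G4) * (y * u * y⁻¹) = y * (v * u) * y⁻¹ := by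
      rw [show (v : G4) * (y * u * y⁻¹) = (v * y) * u * y⁻¹ by group, ← hvy]; group
    rw [h1, h2, mul_left_inj, mul_right_inj]
  -- the centraliser of `v` has order 32
  let χ : R →* G4 :=
    { toFun := fun u => if (u : G4) * v = v * u then 1 else -1
      map_one' := by simp
      map_mul' := fun a b => by
        have e := h.two_ne
        simp only [Subgroup.coe_mul]
        rcases h.comm a a.2 v v.2 with e1 | e1 <;> rcases h.comm b b.2 v v.2 with e2 | e2
        · have : (a : G4) * b * v = v * (a * b) := by rw [mul_assoc, e2, ← mul_assoc, e1, mul_assoc]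
          simp [e1, e2, this]
        · have : (a : G4) * b * v = -(v * (a * b)) := by rw [mul_assoc, e2, mul_neg, ← mul_assoc, e1, mul_assoc]
          simp [e1, e2, this, (ne_neg_self e _).symm]
        · have : (a : G4) * b * v = -(v * (a * b)) := by rw [mul_assoc, e2, ← mul_assoc, e1, neg_mul, mul_assoc]
          simp [e1, e2, this, (ne_neg_self e _).symm]
        · have : (a : G4) * b * v = v * (a * b) := by
            rw [mul_assoc, e2, mul_neg, ← mul_assoc, e1, neg_mul, neg_neg, mul_assoc]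
          simp [e1, e2, this, (ne_neg_self e _).symm] }
  have hker : ∀ u : R, u ∈ χ.ker ↔ P u := fun u => by
    rw [MonoidHom.mem_ker]
    show (if (u : G4) * v = v * u then (1 : G4) else -1) = 1 ↔ _
    by_cases e : (u : G4) * v = v * u
    · simp [P, e]
    · simp [P, e, (ne_neg_self h.two_ne (1 : G4)).symm]
  have h32 : Nat.card {u : R // P u} = 32 := by
    rw [← Nat.card_congr (Equiv.subtypeEquivRight hker)]
    have h1 := χ.ker.card_mul_index
    rw [Subgroup.index_ker, h.card] at h1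
    obtain ⟨w, hw, hwv⟩ := h.exists_anti v.2 hvn
    have h2' : Nat.card χ.range = 2 := by
      rw [show (χ.range : Subgroup G4) = Subgroup.zpowers (-1 : G4) from ?_, Nat.card_zpowers]
      · exact orderOf_eq_prime (by simp) fun e => ne_neg_self h.two_ne 1 e.symm
      refine le_antisymm ?_ ?_
      · rintro x ⟨u, rfl⟩
        show (if (u : G4) * v = v * u then (1 : G4) else -1) ∈ _
        split
        · exact one_mem _
        · exact Subgroup.mem_zpowers _
      · rw [Subgroup.zpowers_le]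
        refine ⟨⟨w, hw⟩, ?_⟩
        show (if w * (v : G4) = v * w then (1 : G4) else -1) = -1
        rw [if_neg]
        rw [hwv]
        exact fun e => ne_neg_self h.two_ne _ e.symm
    show Nat.card χ.ker = 32
    rw [h2'] at h1
    omega
  -- every fixed element centralises `v`
  have h8 : Nat.card {u : R // P u ∧ y * u = u * y} = 8 := by
    have e : Nat.card {u : R // P u ∧ y * u = u * y} = Nat.card (χ.ker ⊓ cen R y : Subgroup R) :=
      Nat.card_congr (Equiv.subtypeEquivRight fun u => by rw [Subgroup.mem_inf, hker, mem_cen])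
    rw [e]
    set I := χ.ker ⊓ cen R y
    have hd : Nat.card I ∣ 8 := hkc ▸ Subgroup.card_dvd_of_le (inf_le_right : I ≤ cen R y)
    haveI := Fintype.ofFinite I
    have h5 : 5 ≤ Nat.card I := by
      rw [Nat.card_eq_fintype_card]
      let m : Option (Bool × Bool) → I := fun o => match o with
        | none => ⟨v, (hker v).2 rfl, hv⟩
        | some k => ⟨⟨Frame.zc h k, Frame.zc_mem h k⟩, (hker _).2 (Frame.zc_comm h k _),
            mem_cen.2 (Frame.zc_comm h k y).symm⟩
      have hz : ∀ k, (v : G4) ≠ Frame.zc h k := fun k e => by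
        apply hvn
        rcases k with ⟨⟨⟩, ⟨⟩⟩ <;> simp [e, Frame.zc]
      have hm : Function.Injective m := by
        rintro (_ | k) (_ | k') e
        · rfl
        · exact absurd (congrArg (fun w : I => ((w : R) : G4)) e) (hz k')
        · exact absurd (congrArg (fun w : I => ((w : R) : G4)) e).symm (hz k)
        · exact congrArg some (Frame.zc_injective h (congrArg (fun w : I => ((w : R) : G4)) e))
      simpa using Fintype.card_le_of_injective m hm
    obtain ⟨m, hm, hm'⟩ := (Nat.dvd_prime_pow Nat.prime_two (m := 3)).1 hd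
    rw [hm'] at h5 ⊢
    interval_cases m <;> first | (norm_num; done) | (norm_num at h5)
  rw [h8, h32] at hm
  exact absurd hm (by decide)

theorem trace_test (h : Four R) {y : G4} (hy : y ∈ Subgroup.normalizer (R : Set G4)) {r : ℕ} [Fact r.Prime]
    (hyr : y ^ r = 1) (hns : ∀ c : F, (y : M4) ≠ c • 1) :
    (r = 3 → (y : M4).trace * ((y⁻¹ : G4) : M4).trace = 1 ∨ (y : M4).trace * ((y⁻¹ : G4) : M4).trace = 4) ∧
    (r = 5 → (y : M4).trace * ((y⁻¹ : G4) : M4).trace = 1) := by
  obtain ⟨k, hk3, hk, hmod⟩ := card_fixed h hy hyr hns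
  have h4 : (4 : F) ≠ 0 := by
    have := mul_ne_zero h.two_ne h.two_ne
    norm_num at this
    exact this
  constructor <;> rintro rfl
  · have ht := trace_identity h hy (r := 3) (by decide) hyr
    rw [← card_cen, hk] at ht
    simp only [Matrix.coe_units_inv] at ht ⊢
    interval_cases k <;> (try (exfalso; revert hmod; decide; done)) <;> norm_num at ht
    · left; apply mul_left_cancel₀ h4; linear_combination ht
    · right; apply mul_left_cancel₀ h4; linear_combination ht
  · have ht := trace_identity h hy (r := 5) (by decide) hyr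
    rw [← card_cen, hk] at ht
    simp only [Matrix.coe_units_inv] at ht ⊢
    interval_cases k <;> (try (exfalso; revert hmod; decide; done)) <;> norm_num at ht
    apply mul_left_cancel₀ h4; linear_combination ht

end normal

section unitary

variable {F : Type v} [Field F] [Fintype F] {p : ℕ} [Fact p.Prime] [CharP F p]

local notation "G4" => GL (Fin 4) F
local notation "M4" => Matrix (Fin 4) (Fin 4) F

theorem mem_SU {g : G4} : g ∈ Cfsg.GU 4 F p ⊓ Cfsg.Geo.specialLinear (Fin 4) F ↔
    g ∈ Cfsg.GU 4 F p ∧ (g : M4).det = 1 := by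
  rw [Subgroup.mem_inf, Cfsg.Geo.specialLinear, MonoidHom.mem_ker, ← Units.val_eq_one,
    Matrix.GeneralLinearGroup.val_det_apply]

theorem gu_inv (hF : Fintype.card F = p ^ 2) {g : G4} (hg : g ∈ Cfsg.GU 4 F p) :
    tstar hF (g : M4) = ((g⁻¹ : G4) : M4) := by
  calc tstar hF (g : M4) = tstar hF (g : M4) * ((g : M4) * ((g⁻¹ : G4) : M4)) := by rw [Units.mul_inv, mul_one]
    _ = _ := by rw [← mul_assoc, (mem_GU_iff hF g).1 hg, one_mul]

theorem norm_of_pow_four (hp4 : p % 4 = 3) {c : F} (hc : c ^ 4 = 1) : c ^ (p + 1) = 1 := by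
  obtain ⟨k, hk⟩ : 4 ∣ p + 1 := by omega
  rw [hk, pow_mul, hc, one_pow]

theorem scalar_mem_GU (hF : Fintype.card F = p ^ 2) {g : G4} {c : F} (hg : (g : M4) = c • 1)
    (hc : c ^ (p + 1) = 1) : g ∈ Cfsg.GU 4 F p := by
  rw [mem_GU_iff hF, hg, tstar_smul, tstar_one, Matrix.smul_mul, Matrix.mul_smul, one_mul, smul_smul]
  show (c ^ p * c) • (1 : M4) = 1
  rw [← pow_succ, hc, one_smul]

theorem det_norm' (hF : Fintype.card F = p ^ 2) {g : G4} (hg : g ∈ Cfsg.GU 4 F p) :
    (g : M4).det ^ (p + 1) = 1 := Cfsg.Agent.Lib.Classical.Herm.det_norm hF hg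

theorem det_one_of_pow (hF : Fintype.card F = p ^ 2) {g : G4} (hg : g ∈ Cfsg.GU 4 F p) {r : ℕ}
    (hr : r.Prime) (hrp : ¬ r ∣ p + 1) (hgr : g ^ r = 1) : (g : M4).det = 1 := by
  have h1 : (g : M4).det ^ r = 1 := by
    rw [← Matrix.det_pow, ← Units.val_pow_eq_pow_val, hgr, Units.val_one, Matrix.det_one]
  have h2 := det_norm' hF hg
  rw [← orderOf_eq_one_iff]
  exact Nat.eq_one_of_dvd_coprimes ((hr.coprime_iff_not_dvd).2 hrp) (orderOf_dvd_of_pow_eq_one h1)
    (orderOf_dvd_of_pow_eq_one h2)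

theorem exists_su_conj_diag (hF : Fintype.card F = p ^ 2) (x D : G4) (d : Fin 4 → F)
    (hx : x ∈ Cfsg.GU 4 F p) (hd : ∀ i, d i ^ (p + 1) = 1)
    (hD : (D : M4) = Matrix.diagonal d) (P : G4)
    (hP : (x : M4) * P = P * Matrix.diagonal d) :
    ∃ g ∈ Cfsg.GU 4 F p ⊓ Cfsg.Geo.specialLinear (Fin 4) F, g⁻¹ * x * g = D := by
  have hDU : D ∈ Cfsg.GU 4 F p := by
    obtain ⟨D', hD', hDd⟩ := Cfsg.Agent.Lib.Classical.Herm.exists_diag hF d hd
    rwa [show D = D' from Units.ext (hD.trans hDd.symm)]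
  have hgl : IsConj x D := by
    rw [isConj_iff]
    refine ⟨P⁻¹, ?_⟩
    rw [inv_inv, mul_assoc, inv_mul_eq_iff_eq_mul]
    apply Units.ext
    rw [Units.val_mul, Units.val_mul, hD, hP]
  obtain ⟨c, hc⟩ := isConj_iff.1 ((Cfsg.Agent.S2587.result hF ⟨x, hx⟩ ⟨D, hDU⟩).2 hgl)
  set g0 : G4 := ((c⁻¹ : Cfsg.GU 4 F p) : G4) with hg0
  have hg0U : g0 ∈ Cfsg.GU 4 F p := (c⁻¹).2
  have h0 : g0⁻¹ * x * g0 = D := by
    have := congrArg Subtype.val hc
    simpa [hg0] using this
  set δ := (g0 : M4).det with hδ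
  have hδn : δ ^ (p + 1) = 1 := det_norm' hF hg0U
  obtain ⟨U, hU, hUd⟩ := Cfsg.Agent.Lib.Classical.Herm.exists_diag hF
    (Function.update 1 (0 : Fin 4) δ⁻¹) (fun i => by
      rcases eq_or_ne i 0 with rfl | h
      · rw [Function.update_self, inv_pow, hδn, inv_one]
      · simp [h])
  refine ⟨g0 * U, mem_SU.2 ⟨mul_mem hg0U hU, ?_⟩, ?_⟩
  · have hδ0 : δ ≠ 0 := fun h => by simp [h] at hδn
    rw [Units.val_mul, Matrix.det_mul, hUd, Matrix.det_diagonal,
      Finset.prod_update_of_mem (Finset.mem_univ _), ← hδ]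
    simp [hδ0]
  · rw [show (g0 * U)⁻¹ * x * (g0 * U) = U⁻¹ * (g0⁻¹ * x * g0) * U by group, h0, mul_assoc,
      inv_mul_eq_iff_eq_mul]
    apply Units.ext
    rw [Units.val_mul, Units.val_mul, hD, hUd, Matrix.diagonal_mul_diagonal, Matrix.diagonal_mul_diagonal]
    simp [mul_comm]

variable {R : Subgroup (GL (Fin 4) F)}

/-- The element `(1 + a + c - a c) / 2`. -/
theorem exists_gate (hF : Fintype.card F = p ^ 2) (h : Four R) (s : Frame R) (hRU : R ≤ Cfsg.GU 4 F p) :
    ∃ e : G4, e ∈ Cfsg.GU 4 F p ∧ e ∈ Subgroup.normalizer (R : Set G4) ∧ (e : M4) ^ 2 = 1 ∧ (e : M4).trace = 2 ∧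
      (e : M4) ≠ -1 := by
  have h2 := h.two_ne
  obtain ⟨r1, r2, r3, r4, r5, r6, r7, r8, r9, r10⟩ := s.rules
  set c := h.z * s.i with hcdef
  have hcR : c ∈ R := mul_mem h.z_mem s.hi
  have hcc : c * c = 1 := by
    rw [hcdef, show h.z * s.i * (h.z * s.i) = h.z * (s.i * h.z) * s.i by simp only [mul_assoc], ← h.z_comm,
      ← mul_assoc, h.z_sq, mul_assoc, s.ii, neg_mul_neg, one_mul]
  have hac : c * s.a = s.a * c := by rw [hcdef, mul_assoc, s.ia, ← mul_assoc, h.z_comm, mul_assoc]
  have hA : (s.a : M4) * s.a = 1 := by rw [← Units.val_mul, s.aa, Units.val_one]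
  have hC : (c : M4) * c = 1 := by rw [← Units.val_mul, hcc, Units.val_one]
  have hCA : (c : M4) * s.a = s.a * c := by rw [← Units.val_mul, hac, Units.val_mul]
  set A : M4 := (s.a : M4) with hAdef
  set C : M4 := (c : M4) with hCdef
  set E : M4 := (2⁻¹ : F) • (1 + A + C - A * C) with hE
  have hAw : ∀ M, A * (A * M) = M := fun M => by rw [← mul_assoc, hA, one_mul]
  have hCw : ∀ M, C * (C * M) = M := fun M => by rw [← mul_assoc, hC, one_mul]
  have hCAw : ∀ M, C * (A * M) = A * (C * M) := fun M => by rw [← mul_assoc, hCA, mul_assoc]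
  have hE2 : E * E = 1 := by
    have : (1 + A + C - A * C) * (1 + A + C - A * C) = (4 : F) • (1 : M4) := by
      simp only [add_mul, mul_add, sub_mul, mul_sub, one_mul, mul_one, mul_assoc, hA, hC, hCA, hAw, hCw, hCAw]
      module
    rw [hE, Matrix.smul_mul, Matrix.mul_smul, smul_smul, this, smul_smul]
    convert one_smul F _
    field_simp
    norm_num
  let e : G4 := ⟨E, E, hE2, hE2⟩
  have hAs : tstar hF A = A := by
    rw [hAdef, gu_inv hF (hRU s.ha), inv_eq_of_mul_eq_one_right s.aa]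
  have hCs : tstar hF C = C := by
    rw [hCdef, gu_inv hF (hRU hcR), inv_eq_of_mul_eq_one_right hcc]
  have heU : e ∈ Cfsg.GU 4 F p := by
    rw [mem_GU_iff hF]
    show tstar hF E * E = 1
    have h2' : qHom hF (2⁻¹ : F) = 2⁻¹ := by rw [map_inv₀, map_ofNat]
    have hsub : ∀ M N : M4, tstar hF (M - N) = tstar hF M - tstar hF N := fun M N => by
      rw [eq_sub_iff_add_eq, ← tstar_add, sub_add_cancel]
    have : tstar hF E = E := by
      rw [hE, tstar_smul, h2', hsub, tstar_add, tstar_add, tstar_one, hAs, hCs, tstar_mul, hAs, hCs, hCA]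
    rw [this, hE2]
  refine ⟨e, heU, mem_normalizer_of_conj fun w hw => ?_, by show E ^ 2 = 1; rw [_root_.sq, hE2], ?_⟩
  · have step : ∀ w' : G4, w' ∈ R → E * (w : M4) = (w' : M4) * E → e * w * e⁻¹ ∈ R := by
      intro w' hw' heq
      rw [show e * w = w' * e from Units.ext heq, mul_inv_cancel_right]; exact hw'
    have p1 : ∀ M : M4, (1 - A + C + A * C) * M = C * ((1 + A + C - A * C) * M) := by
      intro M
      rw [← mul_assoc C]
      congr 1
      simp only [mul_add, mul_sub, mul_one, mul_assoc, hC, hCA, hCAw]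
      abel
    rcases h.comm w hw s.a s.ha with e1 | e1 <;> rcases h.comm w hw c hcR with e2 | e2
    · refine step w hw ?_
      have k1 : A * (w : M4) = (w : M4) * A := (congrArg Units.val e1).symm
      have k2 : C * (w : M4) = (w : M4) * C := (congrArg Units.val e2).symm
      simp only [hE, Matrix.smul_mul, Matrix.mul_smul]
      congr 1
      simp only [add_mul, mul_add, sub_mul, mul_sub, one_mul, mul_one, mul_assoc, k1, k2]
      rw [← mul_assoc A, k1, mul_assoc]
    · refine step (w * s.a) (mul_mem hw s.ha) ?_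
      have k1 : A * (w : M4) = (w : M4) * A := (congrArg Units.val e1).symm
      have k2 : C * (w : M4) = -((w : M4) * C) := by
        rw [hCdef, ← Units.val_mul, ← Units.val_mul, e2, Units.val_neg, neg_neg]
      simp only [hE, Units.val_mul, Matrix.smul_mul, Matrix.mul_smul]
      congr 1
      simp only [add_mul, mul_add, sub_mul, mul_sub, one_mul, mul_one, mul_assoc, k1, k2, mul_neg]
      rw [← mul_assoc A, k1, mul_assoc, ← hAdef]
      simp only [hA, hAw, mul_one]
      abel
    · refine step (w * c) (mul_mem hw hcR) ?_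
      have k1 : A * (w : M4) = -((w : M4) * A) := by
        rw [hAdef, ← Units.val_mul, ← Units.val_mul, e1, Units.val_neg, neg_neg]
      have k2 : C * (w : M4) = (w : M4) * C := (congrArg Units.val e2).symm
      simp only [hE, Units.val_mul, Matrix.smul_mul, Matrix.mul_smul]
      congr 1
      simp only [add_mul, mul_add, sub_mul, mul_sub, one_mul, mul_one, mul_assoc, k1, k2, mul_neg]
      rw [← mul_assoc A, k1, neg_mul, mul_assoc, ← hCdef]
      simp only [hC, hCA, hCAw, mul_one]
      abel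
    · refine step (w * -(s.a * c)) (mul_mem hw (h.neg_mem (mul_mem s.ha hcR))) ?_
      have k1 : A * (w : M4) = -((w : M4) * A) := by
        rw [hAdef, ← Units.val_mul, ← Units.val_mul, e1, Units.val_neg, neg_neg]
      have k2 : C * (w : M4) = -((w : M4) * C) := by
        rw [hCdef, ← Units.val_mul, ← Units.val_mul, e2, Units.val_neg, neg_neg]
      simp only [hE, Units.val_mul, Units.val_neg, Matrix.smul_mul, Matrix.mul_smul]
      congr 1
      simp only [add_mul, mul_add, sub_mul, mul_sub, one_mul, mul_one, mul_assoc, k1, k2, mul_neg]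
      rw [← mul_assoc A, k1, neg_mul, mul_assoc, ← hAdef, ← hCdef]
      simp only [neg_mul, mul_neg, mul_one, mul_assoc, hA, hC, hCA, hAw, hCw, hCAw]
      abel
  · show E.trace = 2 ∧ E ≠ -1
    have ta : A.trace = 0 := trace_zero_of_anti h2 s.b (by rw [hAdef, ← Units.val_mul, s.ba, Units.val_neg, Units.val_mul])
    have tc : C.trace = 0 := trace_zero_of_anti h2 s.j (by
      rw [hCdef, ← Units.val_mul, hcdef, ← mul_assoc, ← h.z_comm, mul_assoc, s.ji, mul_neg, Units.val_neg,
        ← mul_assoc h.z, Units.val_mul])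
    have tac : (A * C).trace = 0 := trace_zero_of_anti h2 s.b (by
      have k1 : (s.b : M4) * A = -(A * s.b) := by rw [hAdef, ← Units.val_mul, s.ba, Units.val_neg, Units.val_mul]
      have k2 : (s.b : M4) * C = C * s.b := by
        rw [hCdef, ← Units.val_mul, hcdef, ← mul_assoc, ← h.z_comm, mul_assoc, ← s.ib, ← mul_assoc, Units.val_mul]
      rw [← mul_assoc, k1, neg_mul, mul_assoc, k2, mul_assoc])
    refine ⟨?_, fun hEm => ?_⟩
    · rw [hE, Matrix.trace_smul, Matrix.trace_sub, Matrix.trace_add, Matrix.trace_add, Matrix.trace_one, ta, tc, tac]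
      simp
      field_simp
      norm_num
    · have h4 : (4 : F) ≠ 0 := by
        have := mul_ne_zero h2 h2
        norm_num at this
        exact this
      have := congrArg (fun M : M4 => (A * M).trace) hEm
      simp [hE, mul_add, mul_sub, hA, hAw, ta, tc, tac, h2, h4] at this

theorem involution_pattern (h2 : (2 : F) ≠ 0) {M : M4} (hM : M ^ 2 = 1) :
    ∃ (P : G4) (f : Fin 4 → Bool), M * (P : M4) = (P : M4) * Matrix.diagonal (fun i => if f i then -1 else 1) := by
  classical
  obtain ⟨P, d, hd, hP⟩ := Cfsg.Agent.Lib.Three.exists_diagonal (n := 2) (by exact_mod_cast h2)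
    (IsPrimitiveRoot.mk_of_lt (-1 : F) two_pos (by ring)
      (fun l hl0 hl2 => by
        obtain rfl : l = 1 := by omega
        rw [pow_one]
        intro h
        exact h2 (by linear_combination -h))) M hM
  refine ⟨P, fun i => decide (d i = -1), ?_⟩
  rw [hP]
  congr 1
  refine congrArg Matrix.diagonal (funext fun i => ?_)
  rcases sq_eq_one_iff.1 (hd i) with e | e
  · have : (1 : F) ≠ -1 := fun h' => h2 (by linear_combination h')
    simp [e, this]
  · simp [e]

theorem case_two (hF : Fintype.card F = p ^ 2) (hp4 : p % 4 = 3) (h : Four R) (s : Frame R)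
    (hRU : R ≤ Cfsg.GU 4 F p) {x : G4} (hx : x ∈ Cfsg.GU 4 F p) (hdet : (x : M4).det = 1) {z : F}
    (hz : ((x ^ 2 : G4) : M4) = z • 1) (hns : ∀ c : F, (x : M4) ≠ c • 1) :
    ∃ g ∈ Cfsg.GU 4 F p ⊓ Cfsg.Geo.specialLinear (Fin 4) F, g⁻¹ * x * g ∈ Subgroup.normalizer (R : Set G4) := by
  classical
  have h2 := h.two_ne
  have hp : p.Prime := Fact.out
  rw [Units.val_pow_eq_pow_val] at hz
  have hz4 : z ^ 4 = 1 := by
    have := congrArg Matrix.det hz
    rw [Matrix.det_pow, hdet, one_pow, Matrix.det_smul, Matrix.det_one, mul_one, Fintype.card_fin] at this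
    exact this.symm
  -- a square root of `z`
  obtain ⟨c, hc⟩ : ∃ c : F, c * c = z := by
    obtain ⟨g, hg⟩ := IsCyclic.exists_generator (α := Fˣ)
    have hog : orderOf g = p ^ 2 - 1 := by
      rw [orderOf_eq_card_of_forall_mem_zpowers hg, Nat.card_units, Nat.card_eq_fintype_card, hF]
    have hz0 : z ≠ 0 := fun e => by simp [e] at hz4
    obtain ⟨k, -, hk⟩ := (isOfFinOrder_of_finite g).mem_zpowers_iff_mem_range_orderOf.1
      (hg (Units.mk0 z hz0)) |> Finset.mem_image.1
    have h4 : g ^ (4 * k) = 1 := by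
      rw [mul_comm, pow_mul, hk]
      exact Units.ext (by simpa using hz4)
    have hdiv := orderOf_dvd_of_pow_eq_one h4
    rw [hog] at hdiv
    have h8 : 8 ∣ 4 * k := by
      refine dvd_trans ?_ hdiv
      have : p ^ 2 - 1 = (p + 1) * (p - 1) := by rw [← Nat.sq_sub_sq p 1, one_pow]
      rw [this, show 8 = 4 * 2 from rfl]
      exact Nat.mul_dvd_mul (by omega) (by omega)
    obtain ⟨m, rfl⟩ : 2 ∣ k := by omega
    exact ⟨((g ^ m : Fˣ) : F), by rw [← Units.val_mul, ← pow_add, ← two_mul, hk, Units.val_mk0]⟩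
  have hc0 : c ≠ 0 := fun e => by rw [e, mul_zero] at hc; simp [← hc] at hz4
  set E : M4 := c⁻¹ • (x : M4) with hE
  have hxE : (x : M4) = c • E := by rw [hE, smul_smul, mul_inv_cancel₀ hc0, one_smul]
  have hE2 : E ^ 2 = 1 := by
    rw [hE, smul_pow, hz, smul_smul, inv_pow, _root_.sq, hc, inv_mul_cancel₀ (by rw [← hc]; exact mul_ne_zero hc0 hc0),
      one_smul]
  obtain ⟨P, f, hP⟩ := involution_pattern h2 hE2
  obtain ⟨htr, hdetE⟩ := trace_of_diag P hP
  have hdE : E.det = (c ^ 4)⁻¹ := by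
    rw [hE, Matrix.det_smul, hdet, mul_one, Fintype.card_fin, inv_pow]
  -- the norm of `c` is one
  have hnorm : c ^ (p + 1) = 1 := by
    have hn := norm_of_pow_four hp4 hz4
    rw [← hc, mul_pow] at hn
    rcases mul_self_eq_one_iff.1 hn with e | e
    · exact e
    exfalso
    have hcp : (c ^ p) = -c⁻¹ := by
      apply mul_right_cancel₀ hc0
      rw [← pow_succ, e, neg_mul, inv_mul_cancel₀ hc0]
    -- the conjugate transpose of `E` is its negative
    have hEs : tstar hF E = -E := by
      have h1 := (mem_GU_iff hF x).1 hx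
      rw [hxE, tstar_smul, Matrix.smul_mul, Matrix.mul_smul, smul_smul] at h1
      change (c ^ p * c) • (tstar hF E * E) = 1 at h1
      rw [← pow_succ, e, neg_one_smul] at h1
      calc tstar hF E = tstar hF E * (E * E) := by rw [← _root_.sq, hE2, mul_one]
        _ = -E := by rw [← mul_assoc, ← neg_neg (tstar hF E * E), h1, neg_mul, one_mul]
    have htr' := congrArg Matrix.trace hEs
    rw [Matrix.trace_neg, tstar, Matrix.trace_transpose, show (E.map (qHom hF)).trace = qHom hF E.trace from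
      (AddMonoidHom.map_trace (qHom hF) E).symm, htr, map_sum] at htr'
    have hfix : ∀ i, qHom hF (if f i then (-1 : F) else 1) = if f i then -1 else 1 := fun i => by
      split <;> simp
    simp only [hfix] at htr'
    have ht0 : ∑ i, (if f i then (-1 : F) else 1) = 0 := by
      have h' : (2 : F) * ∑ i, (if f i then (-1 : F) else 1) = 0 := by linear_combination htr'
      exact (mul_eq_zero.1 h').resolve_left h2
    rw [hdE] at hdetE
    -- four signs with sum zero have product one
    have hprod : ∏ i, (if f i then (-1 : F) else 1) = 1 := by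
      simp only [Fin.sum_univ_four, Fin.prod_univ_four] at ht0 ⊢
      revert ht0
      cases f 0 <;> cases f 1 <;> cases f 2 <;> cases f 3 <;> intro ht0 <;>
        simp only [Bool.false_eq_true, ↓reduceIte] at ht0 ⊢ <;>
        first | (norm_num; done) | (exfalso; exact h2 (by linear_combination ht0))
              | (exfalso; exact h2 (by linear_combination -ht0))
    rw [hprod, inv_eq_one] at hdetE
    -- hence `z ^ 2 = 1`, and then `c` has norm one
    have hz2 : z ^ 2 = 1 := by rw [← hc, ← hdetE]; ring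
    have hn1 : c ^ (p + 1) = 1 := norm_of_pow_four hp4 (by rw [← hdetE])
    rw [hn1] at e
    exact h2 (by linear_combination e)
  obtain ⟨e0, he0U, he0N, he02, he0t, he0ne⟩ := exists_gate hF h s hRU
  -- an element of the normaliser with the same eigenvalues
  have hwit : ∃ w : G4, w ∈ Cfsg.GU 4 F p ∧ w ∈ Subgroup.normalizer (R : Set G4) ∧
      ∃ (Q : G4) (f' : Fin 4 → Bool), (w : M4) * (Q : M4) = (Q : M4) * Matrix.diagonal (fun i => c * if f' i then -1 else 1) ∧
        (Finset.univ.filter fun i => f' i = true).card = (Finset.univ.filter fun i => f i = true).card := by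
    have hsum : ∀ g : Fin 4 → Bool, (∑ i, if g i then (-1 : F) else 1) =
        4 - 2 * ((Finset.univ.filter fun i => g i = true).card : F) ∧
        (∏ i, if g i then (-1 : F) else 1) = (-1) ^ (Finset.univ.filter fun i => g i = true).card := by
      intro g
      simp only [Fin.sum_univ_four, Fin.prod_univ_four, Finset.card_filter]
      cases g 0 <;> cases g 1 <;> cases g 2 <;> cases g 3 <;>
        simp only [Bool.false_eq_true, ↓reduceIte] <;> refine ⟨?_, ?_⟩ <;> push_cast <;> ring
    set m := (Finset.univ.filter fun i => f i = true).card with hm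
    have hm03 : m ≠ 0 ∧ m ≠ 4 := by
      constructor <;> intro hm'
      · apply hns c
        have : ∀ i, f i = false := fun i => by
          rw [hm, Finset.card_eq_zero, Finset.filter_eq_empty_iff] at hm'
          simpa using hm' (Finset.mem_univ i)
        simp only [this, Bool.false_eq_true, ↓reduceIte, Matrix.diagonal_one, mul_one] at hP
        have : E = 1 := by
          calc E = E * ((P : M4) * ((P⁻¹ : G4) : M4)) := by rw [Units.mul_inv, mul_one]
            _ = 1 := by rw [← mul_assoc, hP, Units.mul_inv]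
        rw [hxE, this]
      · apply hns (-c)
        have : ∀ i, f i = true := fun i => by
          have huniv := Finset.eq_univ_of_card _ (show (Finset.univ.filter fun i => f i = true).card = Fintype.card (Fin 4) by
            rw [← hm, hm', Fintype.card_fin])
          have := huniv ▸ Finset.mem_univ i
          exact (Finset.mem_filter.1 this).2
        simp only [this, ↓reduceIte] at hP
        have h1' : Matrix.diagonal (fun _ : Fin 4 => (-1 : F)) = -1 := by
          rw [← Matrix.diagonal_one, ← Matrix.diagonal_neg]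
        rw [h1'] at hP
        have : E = -1 := by
          calc E = E * ((P : M4) * ((P⁻¹ : G4) : M4)) := by rw [Units.mul_inv, mul_one]
            _ = -1 := by rw [← mul_assoc, hP, mul_neg, mul_one, neg_mul, Units.mul_inv]
        rw [hxE, this, smul_neg, neg_smul]
    have hm4 : m ≤ 4 := by rw [hm]; exact (Finset.card_le_univ _).trans (by simp)
    -- representatives
    have hc1 : (c : F) ≠ 0 := hc0
    obtain ⟨C0, hC0⟩ : ∃ C0 : G4, (C0 : M4) = c • 1 := ⟨sc c hc0, rfl⟩
    have hC0U : C0 ∈ Cfsg.GU 4 F p := scalar_mem_GU hF hC0 hnorm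
    have hC0N : C0 ∈ Subgroup.normalizer (R : Set G4) := scalar_mem_normalizer hC0
    have mk : ∀ e : G4, e ∈ Cfsg.GU 4 F p → e ∈ Subgroup.normalizer (R : Set G4) → (e : M4) ^ 2 = 1 →
        (e : M4).trace = 4 - 2 * (m : F) → (e : M4).det = (-1) ^ m →
        ∃ w : G4, w ∈ Cfsg.GU 4 F p ∧ w ∈ Subgroup.normalizer (R : Set G4) ∧
          ∃ (Q : G4) (f' : Fin 4 → Bool), (w : M4) * (Q : M4) = (Q : M4) * Matrix.diagonal (fun i => c * if f' i then -1 else 1) ∧
            (Finset.univ.filter fun i => f' i = true).card = m := by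
      intro e heU heN he2 het hed
      obtain ⟨Q, f', hQ⟩ := involution_pattern h2 he2
      refine ⟨C0 * e, mul_mem hC0U heU, mul_mem hC0N heN, Q, f', ?_, ?_⟩
      · rw [Units.val_mul, hC0, Matrix.smul_mul, one_mul, Matrix.smul_mul, hQ, ← Matrix.mul_smul,
          ← Matrix.diagonal_smul]
        rfl
      · obtain ⟨t1, t2⟩ := trace_of_diag Q hQ
        rw [(hsum f').1, het] at t1
        rw [(hsum f').2, hed] at t2
        set m' := (Finset.univ.filter fun i => f' i = true).card
        have hm'4 : m' ≤ 4 := (Finset.card_le_univ _).trans (by simp)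
        have hmm : (m : F) = (m' : F) := by
          apply mul_left_cancel₀ h2
          linear_combination -t1
        rw [CharP.natCast_eq_natCast F p] at hmm
        have hpar : ¬ Odd (m + m') := fun hodd => by
          have hsign : (-1 : F) ^ (m + m') = -1 := hodd.neg_one_pow
          rw [pow_add, ← t2, ← mul_pow, neg_one_mul, neg_neg, one_pow] at hsign
          exact h2 (by linear_combination hsign)
        have hp3 : 3 ≤ p := by omega
        rw [Nat.not_odd_iff_even, Nat.even_iff] at hpar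
        unfold Nat.ModEq at hmm
        by_contra hne
        rcases Nat.lt_or_gt_of_ne hne with hlt | hlt
        · have hd := (Nat.modEq_iff_dvd' hlt.le).1 hmm.symm
          have := Nat.le_of_dvd (by omega) hd
          obtain rfl : p = 3 := by omega
          omega
        · have hd := (Nat.modEq_iff_dvd' hlt.le).1 hmm
          have := Nat.le_of_dvd (by omega) hd
          obtain rfl : p = 3 := by omega
          omega
    have hcases : m = 1 ∨ m = 2 ∨ m = 3 := by omega
    obtain ⟨Q0, f0, hQ0⟩ := involution_pattern h2 he02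
    obtain ⟨t01, t02⟩ := trace_of_diag Q0 hQ0
    have hdete : (e0 : M4).det = -1 := by
      rw [t02]
      rw [he0t] at t01
      have hall : ¬ (f0 0 = true ∧ f0 1 = true ∧ f0 2 = true ∧ f0 3 = true) := fun ⟨a0, a1, a2, a3⟩ => by
        apply he0ne
        have hm1 : Matrix.diagonal (fun i => if f0 i then (-1 : F) else 1) = -1 := by
          rw [← Matrix.diagonal_one, Matrix.diagonal_neg]
          refine congrArg Matrix.diagonal (funext fun i => ?_)
          fin_cases i <;> simp [a0, a1, a2, a3]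
        rw [hm1, mul_neg, mul_one] at hQ0
        calc (e0 : M4) = (e0 : M4) * ((Q0 : M4) * ((Q0⁻¹ : G4) : M4)) := by rw [Units.mul_inv, mul_one]
          _ = -1 := by rw [← mul_assoc, hQ0, neg_mul, Units.mul_inv]
      simp only [Fin.sum_univ_four, Fin.prod_univ_four] at t01 ⊢
      revert t01 hall
      cases f0 0 <;> cases f0 1 <;> cases f0 2 <;> cases f0 3 <;> intro hall t01 <;>
        first | (exact absurd ⟨rfl, rfl, rfl, rfl⟩ hall) | skip
      all_goals
        (simp only [Bool.false_eq_true, ↓reduceIte] at t01 ⊢ <;> norm_num at t01 ⊢ <;>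
          first
            | (exact absurd (by linear_combination t01 : (2 : F) = 0) h2)
            | (exact absurd (by linear_combination -t01 : (2 : F) = 0) h2)
            | (exfalso; exact mul_ne_zero h2 h2 (by linear_combination t01))
            | (exfalso; exact mul_ne_zero h2 h2 (by linear_combination -t01))
            | (exfalso; exact mul_ne_zero h2 (mul_ne_zero h2 h2) (by linear_combination t01))
            | (exfalso; exact mul_ne_zero h2 (mul_ne_zero h2 h2) (by linear_combination -t01)))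
    rcases hcases with hm1 | hm1 | hm1
    · exact mk e0 he0U he0N he02 (by rw [he0t, hm1]; push_cast; ring) (by rw [hdete, hm1]; ring)
    · refine mk s.a (hRU s.ha) (Subgroup.le_normalizer s.ha) ?_ ?_ ?_
      · rw [_root_.sq, ← Units.val_mul, s.aa, Units.val_one]
      · rw [trace_zero_of_anti h2 s.b (by rw [← Units.val_mul, s.ba, Units.val_neg, Units.val_mul]), hm1]
        push_cast; ring
      · rw [hm1]
        obtain ⟨Qa, fa, hQa⟩ := involution_pattern h2 (show (s.a : M4) ^ 2 = 1 by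
          rw [_root_.sq, ← Units.val_mul, s.aa, Units.val_one])
        obtain ⟨ta1, ta2⟩ := trace_of_diag Qa hQa
        rw [ta2]
        rw [trace_zero_of_anti h2 s.b (by rw [← Units.val_mul, s.ba, Units.val_neg, Units.val_mul])] at ta1
        simp only [Fin.sum_univ_four, Fin.prod_univ_four] at ta1 ⊢
        revert ta1
        cases fa 0 <;> cases fa 1 <;> cases fa 2 <;> cases fa 3 <;> intro ta1 <;>
          simp only [Bool.false_eq_true, ↓reduceIte] at ta1 ⊢ <;>
          first | (norm_num; done) | (exfalso; exact h2 (by linear_combination ta1))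
                | (exfalso; exact h2 (by linear_combination -ta1))
                | (exfalso; exact mul_ne_zero h2 h2 (by linear_combination ta1))
                | (exfalso; exact mul_ne_zero h2 h2 (by linear_combination -ta1))
    · refine mk (-e0) ?_ ?_ ?_ ?_ ?_
      · rw [← neg_one_mul e0]
        exact mul_mem (hRU h.neg_one_mem) he0U
      · rw [← neg_one_mul e0]
        exact mul_mem (Subgroup.le_normalizer h.neg_one_mem) he0N
      · rw [Units.val_neg, neg_sq]; exact he02
      · rw [Units.val_neg, Matrix.trace_neg, he0t, hm1]; push_cast; ring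
      · rw [Units.val_neg, Matrix.det_neg, hdete, hm1, Fintype.card_fin]; ring
  obtain ⟨w, hwU, hwN, Q, f', hQ, hcount⟩ := hwit
  obtain ⟨σ, hσ⟩ := exists_perm_of_counts f f' fun b => by
    cases b
    · have e1 := Finset.card_filter_add_card_filter_not (s := (Finset.univ : Finset (Fin 4))) (fun i => f i = true)
      have e2 := Finset.card_filter_add_card_filter_not (s := (Finset.univ : Finset (Fin 4))) (fun i => f' i = true)
      simp only [Bool.not_eq_true] at e1 e2
      omega
    · exact hcount.symm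
  obtain ⟨P', hP'⟩ := Cfsg.Agent.Lib.Three.diag_perm P hP σ
  set d : Fin 4 → F := fun i => c * if f' i then -1 else 1 with hd
  have heven : Even (p + 1) := by rw [Nat.even_iff]; omega
  have hdn : ∀ i, d i ^ (p + 1) = 1 := fun i => by
    rw [hd]
    show (c * _) ^ (p + 1) = 1
    rw [mul_pow, hnorm, one_mul]
    split
    · exact heven.neg_one_pow
    · exact one_pow _
  let D : G4 := Matrix.GeneralLinearGroup.mkOfDetNeZero (Matrix.diagonal d) (by
    rw [Matrix.det_diagonal]
    exact Finset.prod_ne_zero_iff.2 fun i _ h0 => by simpa [h0] using hdn i)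
  have hxd : (x : M4) * P' = P' * Matrix.diagonal d := by
    rw [hxE, Matrix.smul_mul, hP', ← Matrix.mul_smul, ← Matrix.diagonal_smul]
    congr 2
    funext i
    have := congrFun hσ i
    simp only [Function.comp_apply] at this
    simp [d, this]
  obtain ⟨g1, hg1, hg1'⟩ := exists_su_conj_diag hF x D d hx hdn rfl P' hxd
  obtain ⟨g2, hg2, hg2'⟩ := exists_su_conj_diag hF w D d hwU hdn rfl Q hQ
  refine ⟨g1 * g2⁻¹, mul_mem hg1 (inv_mem hg2), ?_⟩
  rw [show (g1 * g2⁻¹)⁻¹ * x * (g1 * g2⁻¹) = g2 * (g1⁻¹ * x * g1) * g2⁻¹ by group, hg1', ← hg2']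
  convert hwN using 1
  group

/-- Three facts about a quaternion pair in `R`. -/
theorem quat_facts (hF : Fintype.card F = p ^ 2) (h : Four R) (hRU : R ≤ Cfsg.GU 4 F p) {u v : G4}
    (hu : u ∈ R) (hv : v ∈ R) (huu : u * u = -1) (hvv : v * v = -1) (hvu : v * u = -(u * v)) :
    ∃ (y : G4) (S : M4), y ∈ Cfsg.GU 4 F p ∧ y ∈ Subgroup.normalizer (R : Set G4) ∧ y ^ 3 = 1 ∧
      (y : M4) = (2⁻¹ : F) • (-1 - S) ∧ S = (u : M4) + (v : M4) + (u : M4) * (v : M4) ∧
      S * S = (-3 : F) • (1 : M4) ∧ tstar hF S = -S ∧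
      (∀ X : M4, (u : M4) * X = X * u → (v : M4) * X = X * v → (S * X).trace = 0) := by
  have h2 := h.two_ne
  set U : M4 := (u : M4) with hU
  set V : M4 := (v : M4) with hV
  have eU : U * U = -1 := by rw [hU, ← Units.val_mul, huu, Units.val_neg, Units.val_one]
  have eV : V * V = -1 := by rw [hV, ← Units.val_mul, hvv, Units.val_neg, Units.val_one]
  have eVU : V * U = -(U * V) := by rw [hU, hV, ← Units.val_mul, hvu, Units.val_neg, Units.val_mul]
  have wU : ∀ M, U * (U * M) = -M := fun M => by rw [← mul_assoc, eU, neg_mul, one_mul]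
  have wV : ∀ M, V * (V * M) = -M := fun M => by rw [← mul_assoc, eV, neg_mul, one_mul]
  have wVU : ∀ M, V * (U * M) = -(U * (V * M)) := fun M => by rw [← mul_assoc, eVU, neg_mul, mul_assoc]
  set S : M4 := U + V + U * V with hS
  have hSS : S * S = (-3 : F) • (1 : M4) := by
    rw [hS]
    simp only [add_mul, mul_add, mul_assoc, eU, eV, eVU, wU, wV, wVU, mul_neg, mul_one, neg_mul, neg_neg]
    module
  let T := tr' h2 u huu * tr' h2 v hvv
  have hT : (T : M4) = 1 + S := by
    show (1 + U) * (1 + V) = _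
    rw [hS, add_mul, one_mul, mul_add, mul_one]; abel
  have hh : (-(2⁻¹) : F) ≠ 0 := neg_ne_zero.2 (inv_ne_zero h2)
  let y : G4 := sc (-(2⁻¹) : F) hh * T
  have hy : (y : M4) = (2⁻¹ : F) • (-1 - S) := by
    show ((-(2⁻¹) : F) • (1 : M4)) * (T : M4) = _
    rw [hT, Matrix.smul_mul, one_mul]
    module
  have hSs : tstar hF S = -S := by
    have iu : u⁻¹ = -u := inv_eq_of_mul_eq_one_right (by rw [mul_neg, huu, neg_neg])
    have iv : v⁻¹ = -v := inv_eq_of_mul_eq_one_right (by rw [mul_neg, hvv, neg_neg])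
    rw [hS, tstar_add, tstar_add, tstar_mul, hU, hV, gu_inv hF (hRU hu), gu_inv hF (hRU hv), iu, iv,
      Units.val_neg, Units.val_neg, neg_mul_neg, ← hU, ← hV, eVU]
    abel
  have h4 : (4 : F) ≠ 0 := by
    have := mul_ne_zero h2 h2
    norm_num at this
    exact this
  have hmul : ∀ a b : M4, ((2⁻¹ : F) • a) * ((2⁻¹ : F) • b) = (4⁻¹ : F) • (a * b) := fun a b => by
    rw [Matrix.smul_mul, Matrix.mul_smul, smul_smul, show (2⁻¹ : F) * 2⁻¹ = 4⁻¹ by rw [← mul_inv]; norm_num]
  have hy2 : (y : M4) * y = (2⁻¹ : F) • (-1 + S) := by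
    rw [hy, hmul]
    have : (-1 - S) * (-1 - S) = (2 : F) • (-1 + S) := by
      rw [sub_mul, mul_sub, mul_sub, hSS, neg_mul_neg, one_mul, mul_neg, neg_mul, one_mul, mul_one]
      module
    rw [this, smul_smul]
    congr 1
    field_simp
    norm_num
  have hone : ((2⁻¹ : F) • (-1 + S)) * ((2⁻¹ : F) • (-1 - S)) = 1 := by
    rw [hmul]
    have : (-1 + S) * (-1 - S) = (4 : F) • (1 : M4) := by
      rw [add_mul, mul_sub, mul_sub, hSS, neg_mul_neg, one_mul, mul_neg, neg_mul, one_mul, mul_one]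
      module
    rw [this, smul_smul, inv_mul_cancel₀ h4, one_smul]
  refine ⟨y, S, ?_, mul_mem (scalar_mem_normalizer (sc_val _ hh))
    (mul_mem (tr'_normal h hu huu) (tr'_normal h hv hvv)), ?_, hy, rfl, hSS, hSs, fun X hX hX' => ?_⟩
  · rw [mem_GU_iff hF, hy, tstar_smul, show qHom hF (2⁻¹ : F) = 2⁻¹ by rw [map_inv₀, map_ofNat]]
    have : tstar hF (-1 - S) = -1 + S := by
      have e : tstar hF (-1 - S) + tstar hF S + tstar hF 1 = tstar hF (0 : M4) := by
        rw [← tstar_add, ← tstar_add]; congr 1; abel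
      have h0 : tstar hF (0 : M4) = 0 := by
        have := tstar_add hF (0 : M4) 0
        rw [add_zero] at this
        simpa using this.symm
      rw [h0, hSs, tstar_one] at e
      linear_combination (norm := abel) e
    rw [this, hone]
  · apply Units.ext
    rw [pow_succ, _root_.sq, Units.val_mul, Units.val_mul, hy2, hy, hone, Units.val_one]
  · have t1 : (U * X).trace = 0 := trace_zero_of_anti h2 v (by
      rw [← hV, ← mul_assoc, eVU, neg_mul, mul_assoc, hX', ← mul_assoc])
    have t2 : (V * X).trace = 0 := trace_zero_of_anti h2 u (by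
      rw [← hU, ← mul_assoc, show U * V = -(V * U) by rw [eVU, neg_neg], neg_mul, mul_assoc, hX, ← mul_assoc])
    have t3 : (U * V * X).trace = 0 := trace_zero_of_anti h2 u (by
      rw [← hU]
      simp only [← mul_assoc, eU]
      simp only [mul_assoc, ← hX, wVU, mul_neg, wU, neg_neg, neg_mul, one_mul])
    rw [hS, add_mul, add_mul, Matrix.trace_add, Matrix.trace_add, t1, t2, t3, add_zero, add_zero]

theorem case_three (hF : Fintype.card F = p ^ 2) (hp4 : p % 4 = 3) (hp3 : p % 3 = 1) (h : Four R) (s : Frame R)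
    (hRU : R ≤ Cfsg.GU 4 F p) {x : G4} (hx : x ∈ Cfsg.GU 4 F p) (hdet : (x : M4).det = 1) {z : F}
    (hz : ((x ^ 3 : G4) : M4) = z • 1) (hns : ∀ c : F, (x : M4) ≠ c • 1) :
    ∃ g ∈ Cfsg.GU 4 F p ⊓ Cfsg.Geo.specialLinear (Fin 4) F, g⁻¹ * x * g ∈ Subgroup.normalizer (R : Set G4) := by
  classical
  have hp : p.Prime := Fact.out
  have h2 := h.two_ne
  have hp7 : 7 ≤ p := by
    have := hp.two_le
    by_contra hlt
    interval_cases p <;> omega
  have hcast : ∀ k : ℕ, 0 < k → k < p → (k : F) ≠ 0 := fun k h0 h1 he => by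
    rw [CharP.cast_eq_zero_iff F p] at he
    have := Nat.le_of_dvd h0 he; omega
  have h3 : (3 : F) ≠ 0 := by exact_mod_cast hcast 3 three_pos (by omega)
  obtain ⟨ω, hω⟩ : ∃ ω : F, IsPrimitiveRoot ω 3 := by
    haveI : Fact (Nat.Prime 3) := ⟨Nat.prime_three⟩
    obtain ⟨u, hu⟩ := exists_prime_orderOf_dvd_card' (G := Fˣ) 3 (by
      rw [Nat.card_units, Nat.card_eq_fintype_card, hF, show p ^ 2 - 1 = (p + 1) * (p - 1) by
        rw [← Nat.sq_sub_sq p 1, one_pow]]
      exact Dvd.dvd.mul_left (by omega) _)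
    exact ⟨u, IsPrimitiveRoot.coe_units_iff.2 (hu ▸ IsPrimitiveRoot.orderOf u)⟩
  have hω3 := hω.pow_eq_one
  have hω1 : ω ≠ 1 := hω.ne_one (by norm_num)
  have hωp : qHom hF ω = ω := by
    show ω ^ p = ω
    rw [pow_eq_pow_mod p hω3, hp3, pow_one]
  have hsum : 1 + ω + ω ^ 2 = 0 := by
    have : (ω - 1) * (1 + ω + ω ^ 2) = 0 := by linear_combination hω3
    exact (mul_eq_zero.1 this).resolve_left (sub_ne_zero.2 hω1)
  rw [Units.val_pow_eq_pow_val] at hz
  have hz4 : z ^ 4 = 1 := by
    have := congrArg Matrix.det hz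
    rw [Matrix.det_pow, hdet, one_pow, Matrix.det_smul, Matrix.det_one, mul_one, Fintype.card_fin] at this
    exact this.symm
  have hz0 : z ≠ 0 := fun e => by simp [e] at hz4
  -- reduce to elements of order three
  set x' : G4 := sc z hz0 * x with hx'
  have hx'v : (x' : M4) = z • (x : M4) := by
    rw [hx', Units.val_mul, sc_val, Matrix.smul_mul, one_mul]
  have hx'U : x' ∈ Cfsg.GU 4 F p := mul_mem (scalar_mem_GU hF (sc_val z hz0) (norm_of_pow_four hp4 hz4)) hx
  have hx'3 : x' ^ 3 = 1 := Units.ext (by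
    rw [Units.val_pow_eq_pow_val, hx'v, smul_pow, hz, smul_smul, ← pow_succ, hz4, one_smul, Units.val_one])
  have hx'ns : ∀ c : F, (x' : M4) ≠ c • 1 := fun c e => hns (z⁻¹ * c) (by
    rw [← smul_smul, ← e, hx'v, smul_smul, inv_mul_cancel₀ hz0, one_smul])
  suffices ∃ g ∈ Cfsg.GU 4 F p ⊓ Cfsg.Geo.specialLinear (Fin 4) F, g⁻¹ * x' * g ∈ Subgroup.normalizer (R : Set G4) by
    obtain ⟨g, hg, hgN⟩ := this
    refine ⟨g, hg, ?_⟩
    have : g⁻¹ * x * g = (sc z hz0)⁻¹ * (g⁻¹ * x' * g) := by
      rw [hx', show g⁻¹ * (sc z hz0 * x) * g = g⁻¹ * sc z hz0 * x * g by group,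
        show g⁻¹ * sc z hz0 = sc z hz0 * g⁻¹ from (sc_comm z hz0 _).symm]
      group
    rw [this]
    exact mul_mem (inv_mem (scalar_mem_normalizer (sc_val z hz0))) hgN
  -- the two witnesses
  obtain ⟨r1, r2, r3, r4, r5, r6, r7, r8, r9, r10⟩ := s.rules
  set ia := h.z * s.a with hia
  set ib := h.z * s.b with hib
  have zz : ∀ u v : G4, h.z * u * (h.z * v) = -(u * v) := fun u v => by
    rw [show h.z * u * (h.z * v) = h.z * (u * h.z) * v by simp only [mul_assoc], ← h.z_comm, ← mul_assoc,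
      h.z_sq, mul_assoc, neg_one_mul]
  obtain ⟨y1, S, hy1U, hy1N, hy13, hy1v, hSdef, hSS, hSs, hStr⟩ :=
    quat_facts hF h hRU s.hi s.hj s.ii s.jj s.ji
  obtain ⟨y2, S', hy2U, hy2N, hy23, hy2v, hS'def, hS'S, hS's, hS'tr⟩ :=
    quat_facts hF h hRU (mul_mem h.z_mem s.ha) (mul_mem h.z_mem s.hb)
      (by rw [zz, s.aa]) (by rw [zz, s.bb]) (by rw [zz, zz, s.ba])
  -- the two triples commute
  have cu : ∀ u v : G4, u * v = v * u → Commute (u : M4) (v : M4) := fun u v e => congrArg Units.val e
  have zc' : ∀ u v : G4, u * v = v * u → u * (h.z * v) = h.z * v * u := fun u v e => by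
    rw [← mul_assoc, ← h.z_comm, mul_assoc, e, mul_assoc]
  have ci : Commute (s.i : M4) S' := by
    rw [hS'def]
    have k1 := cu _ _ (zc' _ _ s.ia)
    have k2 := cu _ _ (zc' _ _ s.ib)
    exact (k1.add_right k2).add_right (k1.mul_right k2)
  have cj : Commute (s.j : M4) S' := by
    rw [hS'def]
    have k1 := cu _ _ (zc' _ _ s.ja)
    have k2 := cu _ _ (zc' _ _ s.jb)
    exact (k1.add_right k2).add_right (k1.mul_right k2)
  have cSS : Commute S S' := by
    rw [hSdef]; exact (ci.add_left cj).add_left (ci.mul_left cj)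
  have hS0 : S.trace = 0 := by simpa using hStr 1 (by simp) (by simp)
  have hS'0 : S'.trace = 0 := by simpa using hS'tr 1 (by simp) (by simp)
  have hSS'0 : (S * S').trace = 0 := hStr S' ci.eq cj.eq
  have hy1t : (y1 : M4).trace = -2 := by
    rw [hy1v, Matrix.trace_smul, Matrix.trace_sub, Matrix.trace_neg, Matrix.trace_one, hS0]
    simp only [Fintype.card_fin, Nat.cast_ofNat, smul_eq_mul, sub_zero]
    field_simp; ring
  have hy12t : ((y1 * y2 : G4) : M4).trace = 1 := by
    rw [Units.val_mul, hy1v, hy2v, Matrix.smul_mul, Matrix.mul_smul, smul_smul,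
      show (-1 - S) * (-1 - S') = 1 + S + S' + S * S' by
        rw [sub_mul, mul_sub, mul_sub, neg_mul_neg, one_mul, mul_neg, neg_mul, one_mul, mul_one]; abel,
      Matrix.trace_smul, Matrix.trace_add, Matrix.trace_add, Matrix.trace_add, Matrix.trace_one, hS0, hS'0, hSS'0]
    simp only [Fintype.card_fin, Nat.cast_ofNat, smul_eq_mul, add_zero]
    field_simp; norm_num
  -- diagonal patterns
  let val : Fin 3 → F := ![1, ω, ω ^ 2]
  have pattern : ∀ u : G4, u ∈ Cfsg.GU 4 F p → u ^ 3 = 1 → ∃ (P : G4) (f : Fin 4 → Fin 3),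
      (u : M4) * P = P * Matrix.diagonal (val ∘ f) ∧
      (Finset.univ.filter fun i => f i = 1).card = (Finset.univ.filter fun i => f i = 2).card ∧
      (u : M4).trace = 4 - 3 * ((Finset.univ.filter fun i => f i = 1).card : F) ∧
      ∀ k, (Finset.univ.filter fun i => f i = k).card ≤ 4 ∧
        (Finset.univ.filter fun i => f i = 0).card + (Finset.univ.filter fun i => f i = 1).card +
          (Finset.univ.filter fun i => f i = 2).card = 4 := by
    intro u huU hu3
    obtain ⟨P, d, hd, hP⟩ := Cfsg.Agent.Lib.Three.exists_diagonal (n := 3) (by exact_mod_cast h3) hω (u : M4)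
      (by rw [← Units.val_pow_eq_pow_val, hu3, Units.val_one])
    have : ∀ i, ∃ k : Fin 3, val k = d i := fun i => by
      obtain ⟨l, hl, hl'⟩ := hω.eq_pow_of_pow_eq_one (hd i)
      interval_cases l
      · exact ⟨0, by simp [val, ← hl']⟩
      · exact ⟨1, by simp [val, ← hl']⟩
      · exact ⟨2, by simp [val, ← hl']⟩
    choose f hf using this
    have hdf : d = val ∘ f := funext fun i => (hf i).symm
    rw [hdf] at hP
    refine ⟨P, f, hP, ?_⟩
    set n0 := (Finset.univ.filter fun i => f i = 0).card with hn0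
    set n1 := (Finset.univ.filter fun i => f i = 1).card with hn1
    set n2 := (Finset.univ.filter fun i => f i = 2).card with hn2
    have htot : n0 + n1 + n2 = 4 := by
      have := Finset.card_eq_sum_card_fiberwise (f := f) (s := (Finset.univ : Finset (Fin 4)))
        (t := (Finset.univ : Finset (Fin 3))) (fun i _ => Finset.mem_univ _)
      rw [Fin.sum_univ_three, Finset.card_univ, Fintype.card_fin] at this
      omega
    have hsumg : ∀ g : Fin 3 → F, ∑ i, g (f i) = (n0 : F) * g 0 + n1 * g 1 + n2 * g 2 := by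
      intro g
      rw [← Finset.sum_fiberwise' (Finset.univ : Finset (Fin 4)) f g, Fin.sum_univ_three]
      simp [Finset.sum_const, n0, n1, n2]
    obtain ⟨ht, -⟩ := trace_of_diag P hP
    -- the trace is fixed by conjugation and equals the trace of the inverse
    have hi : ((u⁻¹ : G4) : M4) = (u : M4) * u := by
      rw [← Units.val_mul]; congr 1
      exact inv_eq_of_mul_eq_one_right (by rw [← hu3]; simp only [pow_succ, pow_zero, one_mul, mul_assoc])
    have hP2 : ((u⁻¹ : G4) : M4) * P = P * Matrix.diagonal (fun i => val (f i) * val (f i)) := by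
      rw [hi, mul_assoc, hP, ← mul_assoc, hP, mul_assoc, Matrix.diagonal_mul_diagonal]; rfl
    obtain ⟨ht2, -⟩ := trace_of_diag P hP2
    have hstar : qHom hF (u : M4).trace = ((u⁻¹ : G4) : M4).trace := by
      rw [← gu_inv hF huU, tstar, Matrix.trace_transpose]
      exact AddMonoidHom.map_trace (qHom hF) _
    rw [ht2, ht, Function.comp_def, hsumg, hsumg (fun k => val k * val k)] at hstar
    simp only [val, Matrix.cons_val_zero, Matrix.cons_val_one, Matrix.cons_val_two, Matrix.tail_cons,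
      Matrix.head_cons, map_add, map_mul, map_natCast, map_one, map_pow, hωp, mul_one] at hstar
    have e12 : (n1 : F) = n2 := by
      have : ((n1 : F) - n2) * (ω - ω ^ 2) = 0 := by
        linear_combination hstar + (n2 : F) * ω * hω3
      refine sub_eq_zero.1 ((mul_eq_zero.1 this).resolve_right fun e => hω1 ?_)
      have : ω * (1 - ω) = 0 := by linear_combination e
      exact ((sub_eq_zero.1 ((mul_eq_zero.1 this).resolve_left (hω.ne_zero (by norm_num))))).symm
    have e12' : n1 = n2 := by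
      rw [CharP.natCast_eq_natCast F p] at e12
      exact e12.eq_of_lt_of_lt (by omega) (by omega)
    refine ⟨e12', ?_, fun k => ⟨(Finset.card_le_univ _).trans (by simp), htot⟩⟩
    rw [ht, Function.comp_def, hsumg]
    simp only [val, Matrix.cons_val_zero, Matrix.cons_val_one, Matrix.cons_val_two, Matrix.tail_cons,
      Matrix.head_cons]
    have h4' : (n0 : F) + n1 + n2 = 4 := by exact_mod_cast congrArg (Nat.cast : ℕ → F) htot
    rw [← e12] at h4' ⊢
    linear_combination h4' + (n1 : F) * hsum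
  obtain ⟨P, f, hP, hf12, hftr, hftot⟩ := pattern x' hx'U hx'3
  set n1 := (Finset.univ.filter fun i => f i = 1).card with hn1
  have hn4 := (hftot 0).2
  have hn1pos : n1 ≠ 0 := by
    intro e
    apply hx'ns 1
    have : ∀ i, f i = 0 := fun i => by
      have a1 : ∀ k, (Finset.univ.filter fun i => f i = k).card = 0 → f i ≠ k := fun k hk => by
        rw [Finset.card_eq_zero, Finset.filter_eq_empty_iff] at hk
        exact hk (Finset.mem_univ i)
      have b1 := a1 1 e
      have b2 := a1 2 (hf12 ▸ e)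
      match f i, b1, b2 with
      | 0, _, _ => rfl
      | 1, b1, _ => exact absurd rfl b1
      | 2, _, b2 => exact absurd rfl b2
    have hd1 : val ∘ f = fun _ => (1 : F) := funext fun i => by simp [this i, val]
    rw [hd1, Matrix.diagonal_one, mul_one] at hP
    rw [one_smul]
    calc (x' : M4) = (x' : M4) * ((P : M4) * ((P⁻¹ : G4) : M4)) := by rw [Units.mul_inv, mul_one]
      _ = 1 := by rw [← mul_assoc, hP, Units.mul_inv]
  have hn12 : n1 = 1 ∨ n1 = 2 := by omega
  obtain ⟨w, hwU, hwN, hw3, hwc1, hwc2, hwt⟩ : ∃ w : G4, w ∈ Cfsg.GU 4 F p ∧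
      w ∈ Subgroup.normalizer (R : Set G4) ∧ w ^ 3 = 1 ∧ Commute (w : M4) S ∧ Commute (w : M4) S' ∧
      (w : M4).trace = 4 - 3 * (n1 : F) := by
    have c11 : Commute (y1 : M4) S := by
      rw [hy1v]; exact ((Commute.one_left S).neg_left.sub_left (Commute.refl S)).smul_left _
    have c12 : Commute (y1 : M4) S' := by
      rw [hy1v]; exact ((Commute.one_left S').neg_left.sub_left cSS).smul_left _
    have c21 : Commute (y2 : M4) S := by
      rw [hy2v]; exact ((Commute.one_left S).neg_left.sub_left cSS.symm).smul_left _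
    have c22 : Commute (y2 : M4) S' := by
      rw [hy2v]; exact ((Commute.one_left S').neg_left.sub_left (Commute.refl S')).smul_left _
    rcases hn12 with e | e
    · refine ⟨y1 * y2, mul_mem hy1U hy2U, mul_mem hy1N hy2N, ?_, ?_, ?_, ?_⟩
      · rw [Commute.mul_pow (Units.ext (by
          rw [Units.val_mul, Units.val_mul]
          rw [hy2v]
          exact (((Commute.one_right _).neg_right.sub_right c12).smul_right _).eq)) 3, hy13, hy23, one_mul]
      · rw [Units.val_mul]; exact c11.mul_left c21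
      · rw [Units.val_mul]; exact c12.mul_left c22
      · rw [hy12t, e]; push_cast; ring
    · exact ⟨y1, hy1U, hy1N, hy13, c11, c12, by rw [hy1t, e]; push_cast; ring⟩
  obtain ⟨Q, f', hQ, hf'12, hf'tr, hf'tot⟩ := pattern w hwU hw3
  have hcount : (Finset.univ.filter fun i => f' i = 1).card = n1 := by
    rw [hwt] at hf'tr
    have e : ((Finset.univ.filter fun i => f' i = 1).card : F) = n1 := by
      apply mul_left_cancel₀ h3
      linear_combination hf'tr
    rw [CharP.natCast_eq_natCast F p] at e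
    exact e.eq_of_lt_of_lt (by have := (hf'tot 1).1; omega) (by omega)
  obtain ⟨σ, hσ⟩ := exists_perm_of_counts f f' fun k => by
    have := (hf'tot 0).2
    match k with
    | 0 => omega
    | 1 => omega
    | 2 => omega
  have hconj : IsConj x' w := gl_conj_of_diag P Q hP hQ σ (by rw [Function.comp_assoc, hσ])
  obtain ⟨c, hc⟩ := isConj_iff.1 ((Cfsg.Agent.S2587.result hF ⟨x', hx'U⟩ ⟨w, hwU⟩).2 hconj)
  set g0 : G4 := ((c⁻¹ : Cfsg.GU 4 F p) : G4) with hg0
  have hg0U : g0 ∈ Cfsg.GU 4 F p := (c⁻¹).2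
  have h0 : g0⁻¹ * x' * g0 = w := by
    have := congrArg Subtype.val hc
    simpa [hg0] using this
  -- a unitary element commuting with the witness, of any determinant
  set δ0 := (g0 : M4).det with hδ0
  have hδn : δ0 ^ (p + 1) = 1 := det_norm' hF hg0U
  obtain ⟨α, hα0, hα⟩ : ∃ α : F, α ≠ 0 ∧ α * (α ^ p)⁻¹ = δ0⁻¹ := by
    obtain ⟨g, hg⟩ := IsCyclic.exists_generator (α := Fˣ)
    have hd0 : δ0 ≠ 0 := fun e => by simp [e] at hδn
    have hog : orderOf g = (p + 1) * (p - 1) := by
      rw [orderOf_eq_card_of_forall_mem_zpowers hg, Nat.card_units, Nat.card_eq_fintype_card, hF,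
        ← Nat.sq_sub_sq p 1, one_pow]
    obtain ⟨k, -, hk⟩ := (isOfFinOrder_of_finite g).mem_zpowers_iff_mem_range_orderOf.1
      (hg (Units.mk0 δ0 hd0)) |> Finset.mem_image.1
    have h1 : g ^ (k * (p + 1)) = 1 := by
      rw [pow_mul, hk]; exact Units.ext (by simpa using hδn)
    have hdiv := orderOf_dvd_of_pow_eq_one h1
    rw [hog, mul_comm k] at hdiv
    obtain ⟨j, rfl⟩ := (Nat.mul_dvd_mul_iff_left (by omega : 0 < p + 1)).1 hdiv
    refine ⟨((g ^ j : Fˣ) : F), Units.ne_zero _, ?_⟩
    set a := g ^ j with ha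
    have hk' : a ^ (p - 1) = Units.mk0 δ0 hd0 := by rw [ha, ← pow_mul, mul_comm, hk]
    have hk'' : (a : F) ^ (p - 1) = δ0 := by rw [← Units.val_pow_eq_pow_val, hk', Units.val_mk0]
    rw [← hk'', show (a : F) ^ p = (a : F) ^ (p - 1) * a by rw [← pow_succ, Nat.sub_add_cancel hp.one_le],
      _root_.mul_inv_rev, ← mul_assoc, mul_inv_cancel₀ (Units.ne_zero _), one_mul]
  set dl : F := (ω - ω ^ 2) / 3 with hdl
  have hdl2 : dl * dl = -(3⁻¹) := by
    rw [hdl]; field_simp
    linear_combination (1 : F) * hsum + (ω - 2 : F) * hω3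
  have hdlp : qHom hF dl = dl := by rw [hdl, map_div₀, map_sub, map_pow, hωp, map_ofNat]
  set e1 : M4 := 1 + dl • S with he1
  set e2 : M4 := 1 + dl • S' with he2
  set f1 : M4 := 1 - dl • S with hf1
  set f2 : M4 := 1 - dl • S' with hf2
  have sqS : ∀ T : M4, T * T = (-3 : F) • (1 : M4) →
      (1 + dl • T) * (1 + dl • T) = (2 : F) • (1 + dl • T) ∧
      (1 - dl • T) * (1 - dl • T) = (2 : F) • (1 - dl • T) ∧
      (1 + dl • T) * (1 - dl • T) = 0 ∧ (1 - dl • T) * (1 + dl • T) = 0 := by
    intro T hT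
    have hdT : (dl • T) * (dl • T) = 1 := by
      rw [Matrix.smul_mul, Matrix.mul_smul, smul_smul, hT, smul_smul, hdl2]
      convert one_smul F (1 : M4)
      field_simp
    refine ⟨?_, ?_, ?_, ?_⟩ <;>
      simp only [add_mul, mul_add, sub_mul, mul_sub, one_mul, mul_one, hdT] <;> module
  obtain ⟨s11, s12, s13, s14⟩ := sqS S hSS
  obtain ⟨s21, s22, s23, s24⟩ := sqS S' hS'S
  set q : M4 := (4⁻¹ : F) • (e1 * e2) with hq
  set q' : M4 := (4⁻¹ : F) • (f1 * f2) with hq'
  have ce : Commute e2 e1 := ((Commute.one_left _).add_left ((Commute.one_right _).add_right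
    ((cSS.symm.smul_left dl).smul_right dl)))
  have cfe : Commute e2 f1 := ((Commute.one_left _).add_left ((Commute.one_right _).sub_right
    ((cSS.symm.smul_left dl).smul_right dl)))
  have cef : Commute f2 e1 := ((Commute.one_left _).sub_left ((Commute.one_right _).add_right
    ((cSS.symm.smul_left dl).smul_right dl)))
  have cff : Commute f2 f1 := ((Commute.one_left _).sub_left ((Commute.one_right _).sub_right
    ((cSS.symm.smul_left dl).smul_right dl)))
  have prod4 : ∀ A B A' B' : M4, Commute B A' →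
      ((4⁻¹ : F) • (A * B)) * ((4⁻¹ : F) • (A' * B')) = (4⁻¹ * 4⁻¹ : F) • ((A * A') * (B * B')) := by
    intro A B A' B' hc
    rw [Matrix.smul_mul, Matrix.mul_smul, smul_smul]
    congr 1
    calc A * B * (A' * B') = A * (B * A') * B' := by simp only [mul_assoc]
      _ = _ := by rw [hc.eq]; simp only [mul_assoc]
  have h4 : (4 : F) ≠ 0 := by exact_mod_cast hcast 4 (by norm_num) (by omega)
  have hqq : q * q = q := by
    rw [hq, prod4 _ _ _ _ ce, s11, s21, Matrix.smul_mul, Matrix.mul_smul, smul_smul, smul_smul]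
    congr 1
    field_simp; norm_num
  have hqq' : q * q' = 0 := by rw [hq, hq', prod4 _ _ _ _ cfe, s13, Matrix.zero_mul, smul_zero]
  have hq'q : q' * q = 0 := by rw [hq, hq', prod4 _ _ _ _ cef, s14, Matrix.zero_mul, smul_zero]
  have hq'q' : q' * q' = q' := by
    rw [hq', prod4 _ _ _ _ cff, s12, s22, Matrix.smul_mul, Matrix.mul_smul, smul_smul, smul_smul]
    congr 1
    field_simp; norm_num
  have htq : q.trace = 1 ∧ q'.trace = 1 := by
    have h4 : (4 : F) ≠ 0 := by exact_mod_cast hcast 4 (by norm_num) (by omega)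
    constructor
    · rw [hq, he1, he2, add_mul, mul_add, mul_add, one_mul, one_mul, mul_one, Matrix.smul_mul, Matrix.mul_smul,
        Matrix.trace_smul, Matrix.trace_add, Matrix.trace_add, Matrix.trace_add, Matrix.trace_smul,
        Matrix.trace_smul, Matrix.trace_smul, Matrix.trace_smul, Matrix.trace_one, hS0, hS'0, hSS'0]
      simp [h4]
    · rw [hq', hf1, hf2, sub_mul, mul_sub, mul_sub, one_mul, one_mul, mul_one, Matrix.smul_mul, Matrix.mul_smul,
        Matrix.trace_smul, Matrix.trace_sub, Matrix.trace_sub, Matrix.trace_sub, Matrix.trace_smul,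
        Matrix.trace_smul, Matrix.trace_smul, Matrix.trace_smul, Matrix.trace_one, hS0, hS'0, hSS'0]
      simp [h4]
  have hqs : tstar hF q = q' := by
    rw [hq, hq', tstar_smul, map_inv₀, map_ofNat, tstar_mul, he1, he2, tstar_add, tstar_add, tstar_one,
      tstar_smul, tstar_smul, hdlp, hSs, hS's, smul_neg, smul_neg, ← sub_eq_add_neg, ← sub_eq_add_neg,
      ← hf1, ← hf2, cff.eq]
  have hq's : tstar hF q' = q := by rw [← hqs, tstar_tstar]
  -- determinant of a rank one modification
  have hrank : ∀ M : M4, M * M = M → M.trace = 1 → ∀ t : F, (1 + t • M).det = 1 + t := by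
    intro M hMM hMt t
    have hJ : ((2 : F) • M - 1) ^ 2 = 1 := by
      rw [_root_.sq, sub_mul, mul_sub, mul_sub, Matrix.smul_mul, Matrix.mul_smul, hMM, one_mul, one_mul, mul_one]
      module
    obtain ⟨P0, g, hP0⟩ := involution_pattern h2 hJ
    obtain ⟨tJ, -⟩ := trace_of_diag P0 hP0
    rw [Matrix.trace_sub, Matrix.trace_smul, hMt, Matrix.trace_one] at tJ
    have hM' : M * (P0 : M4) = P0 * Matrix.diagonal (fun i => if g i then (0 : F) else 1) := by
      have : (2 : F) • (M * (P0 : M4)) = (2 : F) • ((P0 : M4) * Matrix.diagonal fun i => if g i then (0 : F) else 1) := by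
        have e : ((2 : F) • M - 1) * (P0 : M4) + (P0 : M4) = (2 : F) • (M * (P0 : M4)) := by
          rw [sub_mul, one_mul, Matrix.smul_mul, sub_add_cancel]
        rw [← e, hP0, ← Matrix.mul_smul, ← Matrix.diagonal_smul]
        conv_lhs => arg 2; rw [← mul_one (P0 : M4), ← Matrix.diagonal_one]
        rw [← mul_add, Matrix.diagonal_add]
        congr 2
        funext i
        by_cases e' : g i <;> simp [e', one_add_one_eq_two]
      exact smul_right_injective _ h2 this
    have hd : (1 + t • M) * (P0 : M4) = P0 * Matrix.diagonal (fun i => if g i then (1 : F) else 1 + t) := by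
      rw [add_mul, one_mul, Matrix.smul_mul, hM', ← Matrix.mul_smul, ← Matrix.diagonal_smul]
      conv_lhs => arg 1; rw [← mul_one (P0 : M4), ← Matrix.diagonal_one]
      rw [← mul_add, Matrix.diagonal_add]
      congr 2
      funext i
      by_cases e' : g i <;> simp [e']
    obtain ⟨-, td⟩ := trace_of_diag P0 hd
    rw [td]
    have h4 : (4 : F) ≠ 0 := by exact_mod_cast hcast 4 (by norm_num) (by omega)
    have h6 : (6 : F) ≠ 0 := by exact_mod_cast hcast 6 (by norm_num) (by omega)
    simp only [Fin.sum_univ_four, Fin.prod_univ_four, Fintype.card_fin, Nat.cast_ofNat, smul_eq_mul] at tJ ⊢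
    revert tJ
    cases g 0 <;> cases g 1 <;> cases g 2 <;> cases g 3 <;> intro tJ <;>
      simp only [Bool.false_eq_true, ↓reduceIte] at tJ ⊢ <;>
      first | (ring; done) | (exfalso; exact h2 (by linear_combination tJ))
            | (exfalso; exact h2 (by linear_combination -tJ)) | (exfalso; exact h4 (by linear_combination tJ))
            | (exfalso; exact h4 (by linear_combination -tJ)) | (exfalso; exact h6 (by linear_combination tJ))
            | (exfalso; exact h6 (by linear_combination -tJ))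
  set β : F := (α ^ p)⁻¹ with hβ
  set Cm : M4 := 1 + (α - 1) • q + (β - 1) • q' with hCm
  have hCprod : Cm = (1 + (α - 1) • q) * (1 + (β - 1) • q') := by
    rw [hCm, add_mul, one_mul, mul_add, mul_one, Matrix.smul_mul, Matrix.mul_smul, hqq', smul_zero, smul_zero]
    abel
  have hCdet : Cm.det = δ0⁻¹ := by
    rw [hCprod, Matrix.det_mul, hrank q hqq htq.1, hrank q' hq'q' htq.2, ← hα, hβ]
    ring
  have hCU : tstar hF Cm * Cm = 1 := by
    have hαq : qHom hF α = α ^ p := rfl
    have hβq : qHom hF β = α⁻¹ := by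
      rw [hβ, map_inv₀, map_pow, hαq, ← pow_mul, ← _root_.sq, ← hF, FiniteField.pow_card]
    have : tstar hF Cm = 1 + (α ^ p - 1) • q' + (α⁻¹ - 1) • q := by
      rw [hCm, tstar_add, tstar_add, tstar_one, tstar_smul hF (α - 1) q, tstar_smul hF (β - 1) q', map_sub, map_sub, map_one, hαq, hβq,
        hqs, hq's]
    rw [this, hCm]
    simp only [add_mul, mul_add, one_mul, mul_one, Matrix.smul_mul, Matrix.mul_smul, hqq, hqq', hq'q, hq'q',
      smul_zero, smul_smul, add_zero, zero_add]
    have e1' : (α⁻¹ - 1) + (α - 1) + (α - 1) * (α⁻¹ - 1) = 0 := by field_simp; ring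
    have e2' : (α ^ p - 1) + (β - 1) + (β - 1) * (α ^ p - 1) = 0 := by
      rw [hβ]; field_simp; ring
    match_scalars <;> first
      | linear_combination e1'
      | linear_combination e2'
      | linear_combination (4⁻¹ : F) * e1'
      | linear_combination (4⁻¹ : F) * e2'
      | linear_combination -(4⁻¹ : F) * e1'
      | linear_combination -(4⁻¹ : F) * e2'
      | ring
  let cg : G4 := ⟨Cm, tstar hF Cm, mul_eq_one_comm.1 hCU, hCU⟩
  have hcgU : cg ∈ Cfsg.GU 4 F p := (mem_GU_iff hF cg).2 hCU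
  have hcw : cg * w = w * cg := by
    apply Units.ext
    show Cm * (w : M4) = (w : M4) * Cm
    have k : Commute (w : M4) e1 ∧ Commute (w : M4) e2 ∧ Commute (w : M4) f1 ∧ Commute (w : M4) f2 :=
      ⟨(Commute.one_right _).add_right (hwc1.smul_right dl), (Commute.one_right _).add_right (hwc2.smul_right dl),
        (Commute.one_right _).sub_right (hwc1.smul_right dl), (Commute.one_right _).sub_right (hwc2.smul_right dl)⟩
    exact ((((Commute.one_right _).add_right ((((k.1.mul_right k.2.1).smul_right _)).smul_right _)).add_right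
      ((((k.2.2.1.mul_right k.2.2.2).smul_right _)).smul_right _))).eq.symm
  refine ⟨g0 * cg, mem_SU.2 ⟨mul_mem hg0U hcgU, ?_⟩, ?_⟩
  · rw [Units.val_mul, Matrix.det_mul, ← hδ0]
    show δ0 * Cm.det = 1
    rw [hCdet, mul_inv_cancel₀ (fun e => by simp [e] at hδn)]
  · rw [show (g0 * cg)⁻¹ * x' * (g0 * cg) = cg⁻¹ * (g0⁻¹ * x' * g0) * cg by group, h0, mul_assoc, ← hcw,
      inv_mul_cancel_left]
    exact hwN

theorem exists_five (hF : Fintype.card F = p ^ 2) (hp5 : ¬ 5 ∣ p + 1) (h : Four R) (s : Frame R)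
    (hRU : R ≤ Cfsg.GU 4 F p) :
    ∃ y ∈ Cfsg.GU 4 F p ⊓ Cfsg.Geo.specialLinear (Fin 4) F,
      y ∈ Subgroup.normalizer (R : Set G4) ∧ y ^ 5 = 1 ∧ y ≠ 1 := by
  classical
  have h2 := h.two_ne
  obtain ⟨r1, r2, r3, r4, r5, r6, r7, r8, r9, r10⟩ := s.rules
  have hai : s.a * s.i * (s.a * s.i) = -1 := by
    simp [mul_assoc, s.aa, s.ii, s.ia, r1, r6]
    all_goals first | exact s.aa | exact s.bb
  have hab : s.a * s.b * (s.a * s.b) = -1 := by
    simp [mul_assoc, s.bb, s.ba, r1, r5]
    all_goals first | exact s.aa | exact s.bb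
  set T1 := tr' h2 s.i s.ii with hT1
  set T2 := tr' h2 s.j s.jj with hT2
  set T3 := tr' h2 (s.a * s.i) hai with hT3
  set T4 := tr' h2 (s.a * s.b) hab with hT4
  set g := T1 * T2 * T3 * T4 with hg
  have comp : ∀ {w w4 w3 w2 w1 : G4}, SemiconjBy T4 w w4 → SemiconjBy T3 w4 w3 → SemiconjBy T2 w3 w2 →
      SemiconjBy T1 w2 w1 → MulAut.conj g w = w1 := by
    intro w w4 w3 w2 w1 e4 e3 e2 e1
    have := ((e1.mul_left e2).mul_left e3).mul_left e4
    rw [MulAut.conj_apply, mul_inv_eq_iff_eq_mul]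
    exact this.eq
  have ga : MulAut.conj g s.a = -(s.a * s.b * s.j) := by
    refine comp (w4 := -s.b) (w3 := -(s.a * s.b * s.i)) (w2 := s.a * s.b * s.i * s.j)
      (tr'_anti h2 _ ?_ ?_) (tr'_anti h2 _ ?_ ?_) (tr'_anti h2 _ ?_ ?_) (tr'_anti h2 _ ?_ ?_) <;>
      simp [mul_assoc, s.aa, s.bb, s.ii, s.jj, s.ba, s.ia, s.ja, s.ib, s.jb, s.ji, r1, r2, r3, r4, r5, r6, r7,
        r8, r9, r10]
  have gb : MulAut.conj g s.b = s.a := by
    refine comp (w4 := s.a) (w3 := s.a) (w2 := s.a)
      (tr'_anti h2 _ ?_ ?_) (tr'_comm h2 _ ?_) (tr'_comm h2 _ ?_) (tr'_comm h2 _ ?_) <;>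
      simp [mul_assoc, s.aa, s.bb, s.ii, s.jj, s.ba, s.ia, s.ja, s.ib, s.jb, s.ji, r1, r2, r3, r4, r5, r6, r7,
        r8, r9, r10]
  have gi : MulAut.conj g s.i = s.j := by
    refine comp (w4 := s.i) (w3 := s.i) (w2 := -(s.i * s.j))
      (tr'_comm h2 _ ?_) (tr'_comm h2 _ ?_) (tr'_anti h2 _ ?_ ?_) (tr'_anti h2 _ ?_ ?_) <;>
      simp [mul_assoc, s.aa, s.bb, s.ii, s.jj, s.ba, s.ia, s.ja, s.ib, s.jb, s.ji, r1, r2, r3, r4, r5, r6, r7,
        r8, r9, r10]
  have gj : MulAut.conj g s.j = s.a * s.i := by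
    refine comp (w4 := s.j) (w3 := s.a * s.i * s.j) (w2 := s.a * s.i)
      (tr'_comm h2 _ ?_) (tr'_anti h2 _ ?_ ?_) (tr'_anti h2 _ ?_ ?_) (tr'_comm h2 _ ?_) <;>
      simp [mul_assoc, s.aa, s.bb, s.ii, s.jj, s.ba, s.ia, s.ja, s.ib, s.jb, s.ji, r1, r2, r3, r4, r5, r6, r7,
        r8, r9, r10]
  have gneg : ∀ w : G4, MulAut.conj g (-w) = -(MulAut.conj g w) := fun w => by
    simp [MulAut.conj_apply]
  have g5 : ∀ w ∈ ({s.a, s.b, s.i, s.j} : Set G4),
      MulAut.conj g (MulAut.conj g (MulAut.conj g (MulAut.conj g (MulAut.conj g w)))) = w := by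
    rintro w (rfl | rfl | rfl | rfl) <;>
      simp only [ga, gb, gi, gj, gneg, map_mul] <;>
      simp [mul_assoc, s.aa, s.bb, s.ii, s.jj, s.ba, s.ia, s.ja, s.ib, s.jb, s.ji, r1, r2, r3, r4, r5, r6, r7,
        r8, r9, r10]
  have hgN : g ∈ Subgroup.normalizer (R : Set G4) :=
    mul_mem (mul_mem (mul_mem (tr'_normal h s.hi _) (tr'_normal h s.hj _))
      (tr'_normal h (mul_mem s.ha s.hi) _)) (tr'_normal h (mul_mem s.ha s.hb) _)
  have sim : ∀ {u : G4} (hu : u * u = -1), u ∈ R →
      tstar hF (tr' h2 u hu : M4) * (tr' h2 u hu : M4) = (2 : F) • 1 := by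
    intro u hu huR
    show tstar hF (1 + (u : M4)) * (1 + (u : M4)) = _
    have iu : u⁻¹ = -u := inv_eq_of_mul_eq_one_right (by rw [mul_neg, hu, neg_neg])
    have e : (u : M4) * u = -1 := by rw [← Units.val_mul, hu, Units.val_neg, Units.val_one]
    rw [tstar_add, tstar_one, gu_inv hF (hRU huR), iu, Units.val_neg, add_mul, one_mul, mul_add, mul_one,
      neg_mul, e, neg_neg, two_smul]
    abel
  have step : ∀ (A B : M4) (c d : F), tstar hF A * A = c • 1 → tstar hF B * B = d • 1 →
      tstar hF (A * B) * (A * B) = (c * d) • 1 := by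
    intro A B c d hA hB
    calc tstar hF (A * B) * (A * B) = tstar hF B * (tstar hF A * A) * B := by
          rw [tstar_mul]; simp only [mul_assoc]
      _ = (c * d) • 1 := by rw [hA, Matrix.mul_smul, mul_one, Matrix.smul_mul, hB, smul_smul]
  have hgg : tstar hF (g : M4) * (g : M4) = (16 : F) • 1 := by
    have := step _ _ _ _ (step _ _ _ _ (step _ _ _ _ (sim s.ii s.hi) (sim s.jj s.hj))
      (sim hai (mul_mem s.ha s.hi))) (sim hab (mul_mem s.ha s.hb))
    rw [← Units.val_mul, ← Units.val_mul, ← Units.val_mul] at this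
    rw [this]; norm_num
  have h4 : (4 : F) ≠ 0 := by
    have := mul_ne_zero h2 h2
    norm_num at this
    exact this
  set h0 : G4 := sc (4⁻¹ : F) (inv_ne_zero h4) * g with hh0
  have hh0U : h0 ∈ Cfsg.GU 4 F p := by
    rw [mem_GU_iff hF, hh0, Units.val_mul, sc_val, Matrix.smul_mul, one_mul, tstar_smul, map_inv₀, map_ofNat,
      Matrix.smul_mul, Matrix.mul_smul, hgg, smul_smul, smul_smul]
    convert one_smul F (1 : M4)
    field_simp
    norm_num
  have hh0N : h0 ∈ Subgroup.normalizer (R : Set G4) :=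
    mul_mem (scalar_mem_normalizer (sc_val _ _)) hgN
  have hconj : ∀ w, MulAut.conj h0 w = MulAut.conj g w := fun w => by
    rw [hh0, map_mul, MulAut.mul_apply, MulAut.conj_apply (sc _ _), sc_comm, mul_inv_cancel_right]
  have hcomm : ∀ w ∈ ({s.a, s.b, s.i, s.j} : Set G4), h0 ^ 5 * w = w * h0 ^ 5 := by
    intro w hw
    rw [← mul_inv_eq_iff_eq_mul, ← MulAut.conj_apply, map_pow]
    simp only [pow_succ, pow_zero, one_mul, MulAut.mul_apply, hconj]
    exact g5 w hw
  obtain ⟨c, hc⟩ := s.commute_all h ((h0 ^ 5 : G4) : M4)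
    (congrArg Units.val (hcomm s.a (by simp))) (congrArg Units.val (hcomm s.b (by simp)))
    (congrArg Units.val (hcomm s.i (by simp))) (congrArg Units.val (hcomm s.j (by simp)))
  have hcn : c ^ (p + 1) = 1 := by
    have := (mem_GU_iff hF _).1 (pow_mem hh0U 5)
    rw [hc, tstar_smul, tstar_one, Matrix.smul_mul, Matrix.mul_smul, one_mul, smul_smul] at this
    have := congrFun (congrFun this 0) 0
    change c ^ p * c * (1 : M4) 0 0 = (1 : M4) 0 0 at this
    simpa [← pow_succ] using this
  set y := h0 ^ (p + 1) with hy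
  have hy5 : y ^ 5 = 1 := by
    rw [hy, ← pow_mul, mul_comm, pow_mul]
    exact Units.ext (by rw [Units.val_pow_eq_pow_val, hc, smul_pow, one_pow, hcn, one_smul, Units.val_one])
  have hyU : y ∈ Cfsg.GU 4 F p := pow_mem hh0U _
  refine ⟨y, mem_SU.2 ⟨hyU, det_one_of_pow hF hyU Nat.prime_five hp5 hy5⟩, pow_mem hh0N _, hy5, ?_⟩
  intro e
  have hcy : ∀ k : ℕ, h0 ^ (k * (p + 1)) * s.b = s.b * h0 ^ (k * (p + 1)) := fun k => by
    rw [mul_comm k, pow_mul, ← hy, e, one_pow, one_mul, mul_one]
  have h5b : ∀ k : ℕ, h0 ^ (5 * k) * s.b = s.b * h0 ^ (5 * k) := fun k => by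
    rw [pow_mul]
    exact ((show Commute (h0 ^ 5) s.b from hcomm s.b (by simp)).pow_left k).eq
  obtain ⟨m, hm⟩ : ∃ m : ℕ, (m * (p + 1)) % 5 = 1 := by
    have : (p + 1) % 5 ≠ 0 := fun e' => hp5 (Nat.dvd_of_mod_eq_zero e')
    have hlt : (p + 1) % 5 < 5 := Nat.mod_lt _ (by norm_num)
    interval_cases hq : (p + 1) % 5
    · exact absurd rfl this
    · exact ⟨1, by rw [Nat.mul_mod, hq]⟩
    · exact ⟨3, by rw [Nat.mul_mod, hq]⟩
    · exact ⟨2, by rw [Nat.mul_mod, hq]⟩
    · exact ⟨4, by rw [Nat.mul_mod, hq]⟩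
  have hb : h0 * s.b = s.b * h0 := by
    have e1 : h0 ^ (m * (p + 1)) = h0 ^ (5 * (m * (p + 1) / 5)) * h0 := by
      rw [← pow_succ]; congr 1; omega
    have := hcy m
    rw [e1, mul_assoc] at this
    have h5 := h5b (m * (p + 1) / 5)
    set t := h0 ^ (5 * (m * (p + 1) / 5))
    calc h0 * s.b = t⁻¹ * (t * (h0 * s.b)) := by group
      _ = t⁻¹ * (s.b * t) * h0 := by rw [this]; group
      _ = s.b * h0 := by rw [← h5]; group
  have h1 : MulAut.conj h0 s.b = s.b := by rw [MulAut.conj_apply, hb, mul_inv_cancel_right]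
  rw [hconj, gb] at h1
  have := s.ba
  rw [h1] at this
  exact ne_neg_self h2 _ this

theorem zmod_cases : ∀ x : ZMod 5, x ^ 4 = 1 → x ^ 2 ≠ 1 →
    ∀ m n : Fin 4, ((4 : ZMod 5) * x) ^ (m : ℕ) = (4 * x) ^ (n : ℕ) → m = n := by decide

/-- Commuting unitary elements of order five generate the same subgroup. -/
theorem power_of_commute (hF : Fintype.card F = p ^ 2) (hord : orderOf (p : ZMod 5) = 4) {y x : G4}
    (hyU : y ∈ Cfsg.GU 4 F p) (hxU : x ∈ Cfsg.GU 4 F p) (hy : y ^ 5 = 1) (hy1 : y ≠ 1) (hx : x ^ 5 = 1)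
    (hcomm : x * y = y * x) : ∃ k : ℕ, x = y ^ k := by
  classical
  haveI : Fact (Nat.Prime 5) := ⟨Nat.prime_five⟩
  have hp5 : p ≠ 5 := by
    rintro rfl
    rw [show ((5 : ℕ) : ZMod 5) = 0 from rfl] at hord
    rw [orderOf_eq_zero_iff'.2 (fun n hn => by rw [zero_pow hn.ne']; exact zero_ne_one)] at hord
    norm_num at hord
  let E := AlgebraicClosure F
  let j : F →+* E := algebraMap F E
  haveI : CharP E p := charP_of_injective_algebraMap j.injective p
  have h5E : ((5 : ℕ) : E) ≠ 0 := by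
    rw [Ne, CharP.cast_eq_zero_iff E p]
    exact fun e => hp5 ((Nat.prime_dvd_prime_iff_eq Fact.out Nat.prime_five).1 e)
  haveI : NeZero ((5 : ℕ) : E) := ⟨h5E⟩
  obtain ⟨ζ, hζ0⟩ := IsAlgClosed.exists_root (Polynomial.cyclotomic 5 E)
    (Polynomial.degree_cyclotomic_pos 5 E (by norm_num)).ne'
  have hζ : IsPrimitiveRoot ζ 5 := Polynomial.isRoot_cyclotomic_iff.1 hζ0
  let up : M4 →+* Matrix (Fin 4) (Fin 4) E := j.mapMatrix
  have hupinj : Function.Injective up := fun A B hAB => by
    ext a b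
    exact j.injective (congrFun (congrFun hAB a) b)
  have h5u : ∀ u : G4, u ^ 5 = 1 → up (u : M4) ^ 5 = 1 := fun u hu => by
    rw [← map_pow, ← Units.val_pow_eq_pow_val, hu, Units.val_one, map_one]
  obtain ⟨P, d, hd5, hP⟩ := Cfsg.Agent.Lib.Three.exists_diagonal h5E hζ (up (y : M4)) (h5u y hy)
  set φ : E →+* E := frobenius E p with hφ
  set Q : Matrix (Fin 4) (Fin 4) E := (P : Matrix (Fin 4) (Fin 4) E).map φ with hQ
  set A : Matrix (Fin 4) (Fin 4) E := Qᵀ * (P : Matrix (Fin 4) (Fin 4) E) with hA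
  have hAdet : A.det ≠ 0 := by
    rw [hA, Matrix.det_mul, Matrix.det_transpose, hQ, show ((P : Matrix (Fin 4) (Fin 4) E).map φ).det =
      φ (P : Matrix (Fin 4) (Fin 4) E).det from (φ.map_det _).symm]
    have h0 := ((Matrix.isUnit_iff_isUnit_det _).1 P.isUnit).ne_zero
    exact mul_ne_zero ((map_ne_zero φ).2 h0) h0
  -- a unitary element with diagonal form `c` in this basis
  have key : ∀ (u : G4), u ∈ Cfsg.GU 4 F p → ∀ c : Fin 4 → E,
      up (u : M4) * P = (P : Matrix (Fin 4) (Fin 4) E) * Matrix.diagonal c →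
      ∀ k i, A k i ≠ 0 → c k ^ p * c i = 1 := by
    intro u huU c hc k i hki
    have hm : up (tstar hF (u : M4)) = ((up (u : M4)).map φ)ᵀ := by
      ext a b
      simp [up, j, hφ, frobenius_def, tstar, Matrix.map_apply]
      exact map_pow _ _ _
    have hgu : ((up (u : M4)).map φ)ᵀ * up (u : M4) = 1 := by
      rw [← hm, ← map_mul, (mem_GU_iff hF u).1 huU, map_one]
    have hcQ : (up (u : M4)).map φ * Q = Q * Matrix.diagonal (fun l => c l ^ p) := by
      rw [hQ, ← Matrix.map_mul, hc, Matrix.map_mul, Matrix.diagonal_map (map_zero φ)]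
      rfl
    have : Matrix.diagonal (fun l => c l ^ p) * A * Matrix.diagonal c = A := by
      have e1 : Matrix.diagonal (fun l => c l ^ p) * Qᵀ = Qᵀ * ((up (u : M4)).map φ)ᵀ := by
        have := congrArg Matrix.transpose hcQ
        rw [Matrix.transpose_mul, Matrix.transpose_mul, Matrix.diagonal_transpose] at this
        exact this.symm
      calc Matrix.diagonal (fun l => c l ^ p) * A * Matrix.diagonal c
          = (Matrix.diagonal (fun l => c l ^ p) * Qᵀ) * ((P : Matrix (Fin 4) (Fin 4) E) * Matrix.diagonal c) := by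
            rw [hA]; simp only [mul_assoc]
        _ = Qᵀ * (((up (u : M4)).map φ)ᵀ * up (u : M4)) * P := by rw [e1, ← hc]; simp only [mul_assoc]
        _ = A := by rw [hgu, mul_one]
    have := congrFun (congrFun this k) i
    rw [Matrix.mul_diagonal, Matrix.diagonal_mul] at this
    apply mul_left_cancel₀ hki
    linear_combination this
  have hrow : ∀ k, ∃ i, A k i ≠ 0 := fun k => by
    by_contra hc; push Not at hc
    exact hAdet (Matrix.det_eq_zero_of_row_eq_zero k hc)
  choose nx hnx using hrow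
  obtain ⟨k0, hk0⟩ : ∃ k, d k ≠ 1 := by
    by_contra hc; push Not at hc
    apply hy1
    apply Units.ext
    apply hupinj
    rw [show d = fun _ => 1 from funext hc, Matrix.diagonal_one, mul_one] at hP
    calc up (y : M4) = up (y : M4) * ((P : Matrix (Fin 4) (Fin 4) E) *
          ((P⁻¹ : GL (Fin 4) E) : Matrix (Fin 4) (Fin 4) E)) := by rw [Units.mul_inv, mul_one]
      _ = 1 := by rw [← mul_assoc, hP, Units.mul_inv]
      _ = _ := by rw [Units.val_one, map_one]
  -- the orbit of an eigenvalue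
  have orbit : ∀ (c : Fin 4 → E), (∀ i, c i ^ 5 = 1) → (∀ k i, A k i ≠ 0 → c k ^ p * c i = 1) →
      ∀ n : ℕ, c (nx^[n] k0) = c k0 ^ (4 * p) ^ n := by
    intro c hc5 hcA n
    induction n with
    | zero => simp
    | succ n ih =>
      rw [Function.iterate_succ_apply']
      set k := nx^[n] k0
      have h1 := hcA k (nx k) (hnx k)
      have h2 : c k ^ (4 * p) * c k ^ p = 1 := by
        rw [← pow_add, show 4 * p + p = 5 * p by ring, pow_mul, hc5, one_pow]
      calc c (nx k) = (c k ^ (4 * p) * c k ^ p) * c (nx k) := by rw [h2, one_mul]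
        _ = c k ^ (4 * p) := by rw [mul_assoc, h1, mul_one]
        _ = c k0 ^ (4 * p) ^ (n + 1) := by rw [ih, ← pow_mul, ← pow_succ]
  have hd' := orbit d hd5 (key y hyU d hP)
  have hprim : IsPrimitiveRoot (d k0) 5 := orderOf_eq_prime (hd5 k0) hk0 ▸ IsPrimitiveRoot.orderOf (d k0)
  have hp42 : (p : ZMod 5) ^ 4 = 1 ∧ (p : ZMod 5) ^ 2 ≠ 1 := by
    refine ⟨by rw [← hord]; exact pow_orderOf_eq_one _, fun e => ?_⟩
    have := Nat.le_of_dvd two_pos (hord ▸ orderOf_dvd_of_pow_eq_one e)
    omega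
  set ν : Fin 4 → Fin 4 := fun n => nx^[(n : ℕ)] k0 with hν
  have hνinj : Function.Injective ν := by
    intro m n hmn
    apply zmod_cases _ hp42.1 hp42.2
    have e : d k0 ^ (4 * p) ^ (m : ℕ) = d k0 ^ (4 * p) ^ (n : ℕ) := by
      rw [← hd', ← hd']; exact congrArg d hmn
    rw [(hprim.isUnit (by norm_num)).unit_spec.symm, ← Units.val_pow_eq_pow_val, ← Units.val_pow_eq_pow_val,
      Units.val_inj, pow_eq_pow_iff_modEq] at e
    rw [← orderOf_units, IsUnit.unit_spec, orderOf_eq_prime (hd5 k0) hk0] at e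
    rw [← ZMod.natCast_eq_natCast_iff] at e
    simpa using e
  have hdinj : Function.Injective d := by
    intro a b hab'
    obtain ⟨m, rfl⟩ := (Finite.injective_iff_surjective.1 hνinj) a
    obtain ⟨n, rfl⟩ := (Finite.injective_iff_surjective.1 hνinj) b
    congr 1
    apply zmod_cases _ hp42.1 hp42.2
    have e : d k0 ^ (4 * p) ^ (m : ℕ) = d k0 ^ (4 * p) ^ (n : ℕ) := by
      rw [← hd', ← hd']; exact hab'
    rw [(hprim.isUnit (by norm_num)).unit_spec.symm, ← Units.val_pow_eq_pow_val, ← Units.val_pow_eq_pow_val,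
      Units.val_inj, pow_eq_pow_iff_modEq] at e
    rw [← orderOf_units, IsUnit.unit_spec, orderOf_eq_prime (hd5 k0) hk0] at e
    rw [← ZMod.natCast_eq_natCast_iff] at e
    simpa using e
  -- `x` is diagonal in the same basis
  set X : Matrix (Fin 4) (Fin 4) E := ((P⁻¹ : GL (Fin 4) E) : Matrix (Fin 4) (Fin 4) E) * up (x : M4) * P with hX
  have hXc : X * Matrix.diagonal d = Matrix.diagonal d * X := by
    have e : up (x : M4) * up (y : M4) = up (y : M4) * up (x : M4) := by
      rw [← map_mul, ← map_mul, ← Units.val_mul, ← Units.val_mul, hcomm]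
    have e2 : ((P⁻¹ : GL (Fin 4) E) : Matrix (Fin 4) (Fin 4) E) * up (y : M4) =
        Matrix.diagonal d * ((P⁻¹ : GL (Fin 4) E) : Matrix (Fin 4) (Fin 4) E) := by
      calc _ = ((P⁻¹ : GL (Fin 4) E) : Matrix (Fin 4) (Fin 4) E) * (up (y : M4) * P) *
            ((P⁻¹ : GL (Fin 4) E) : Matrix (Fin 4) (Fin 4) E) := by simp only [mul_assoc, Units.mul_inv, mul_one]
        _ = _ := by rw [hP, ← mul_assoc, Units.inv_mul, one_mul]
    calc X * Matrix.diagonal d = ((P⁻¹ : GL (Fin 4) E) : Matrix (Fin 4) (Fin 4) E) * (up (x : M4) * up (y : M4)) * P := by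
          rw [hX]; simp only [mul_assoc]; rw [hP]
      _ = _ := by rw [e, ← mul_assoc, e2, hX]; simp only [mul_assoc]
  have hXd : X = Matrix.diagonal fun i => X i i := by
    ext a b
    by_cases hab' : a = b
    · subst hab'; simp
    · rw [Matrix.diagonal_apply_ne _ hab']
      have := congrFun (congrFun hXc a) b
      rw [Matrix.mul_diagonal, Matrix.diagonal_mul] at this
      have h0 : (d b - d a) * X a b = 0 := by linear_combination this
      exact (mul_eq_zero.1 h0).resolve_left (sub_ne_zero.2 fun e => hab' (hdinj e).symm)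
  set c : Fin 4 → E := fun i => X i i
  have hxP : up (x : M4) * P = (P : Matrix (Fin 4) (Fin 4) E) * Matrix.diagonal c := by
    rw [← hXd, hX, ← mul_assoc, ← mul_assoc, Units.mul_inv, one_mul]
  have hc5 : ∀ i, c i ^ 5 = 1 := by
    have e : ∀ n : ℕ, up (x : M4) ^ n * P = (P : Matrix (Fin 4) (Fin 4) E) * Matrix.diagonal c ^ n := by
      intro n
      induction n with
      | zero => simp
      | succ n ih => rw [pow_succ, pow_succ, mul_assoc, hxP, ← mul_assoc, ih, mul_assoc]
    have e5 := e 5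
    rw [h5u x hx, one_mul, Matrix.diagonal_pow] at e5
    have e' : Matrix.diagonal (c ^ 5) = (1 : Matrix (Fin 4) (Fin 4) E) := by
      calc _ = ((P⁻¹ : GL (Fin 4) E) : Matrix (Fin 4) (Fin 4) E) * ((P : Matrix (Fin 4) (Fin 4) E) * Matrix.diagonal (c ^ 5)) := by
            rw [← mul_assoc, Units.inv_mul, one_mul]
        _ = 1 := by rw [← e5, Units.inv_mul]
    intro i
    have := congrFun (congrFun e' i) i
    simpa using this
  obtain ⟨a, -, ha⟩ := hprim.eq_pow_of_pow_eq_one (hc5 k0)
  have hc' := orbit c hc5 (key x hxU c hxP)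
  refine ⟨a, Units.ext (hupinj ?_)⟩
  rw [Units.val_pow_eq_pow_val, map_pow]
  have e : ∀ n : ℕ, up (y : M4) ^ n * P = (P : Matrix (Fin 4) (Fin 4) E) * Matrix.diagonal d ^ n := by
    intro n
    induction n with
    | zero => simp
    | succ n ih => rw [pow_succ, pow_succ, mul_assoc, hP, ← mul_assoc, ih, mul_assoc]
  have hcd : c = d ^ a := funext fun i => by
    obtain ⟨n, rfl⟩ := (Finite.injective_iff_surjective.1 hνinj) i
    show c (nx^[(n : ℕ)] k0) = d (nx^[(n : ℕ)] k0) ^ a
    rw [hc', hd', ← ha, ← pow_mul, ← pow_mul, mul_comm]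
  have e' : up (x : M4) * P = up (y : M4) ^ a * P := by rw [e, hxP, hcd, Matrix.diagonal_pow]
  calc up (x : M4) = up (x : M4) * P * ((P⁻¹ : GL (Fin 4) E) : Matrix (Fin 4) (Fin 4) E) := by
        rw [mul_assoc, Units.mul_inv, mul_one]
    _ = _ := by rw [e', mul_assoc, Units.mul_inv, mul_one]

theorem case_five (hF : Fintype.card F = p ^ 2) (hp4 : p % 4 = 3) (hord : orderOf (p : ZMod 5) = 4)
    (h : Four R) (s : Frame R) (hRU : R ≤ Cfsg.GU 4 F p) {x : G4}
    (hxS : x ∈ Cfsg.GU 4 F p ⊓ Cfsg.Geo.specialLinear (Fin 4) F) {z : F}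
    (hz : ((x ^ 5 : G4) : M4) = z • 1) (hns : ∀ c : F, (x : M4) ≠ c • 1) :
    ∃ g ∈ Cfsg.GU 4 F p ⊓ Cfsg.Geo.specialLinear (Fin 4) F, g⁻¹ * x * g ∈ Subgroup.normalizer (R : Set G4) := by
  classical
  haveI : Fact (Nat.Prime 5) := ⟨Nat.prime_five⟩
  have hp5 : ¬ 5 ∣ p + 1 := fun e => by
    have h' : ((p + 1 : ℕ) : ZMod 5) = 0 := (ZMod.natCast_eq_zero_iff _ _).2 e
    push_cast at h'
    have h2' : (p : ZMod 5) ^ 2 = 1 := by linear_combination ((p : ZMod 5) - 1) * h'
    have := Nat.le_of_dvd two_pos (hord ▸ orderOf_dvd_of_pow_eq_one h2')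
    omega
  set S := Cfsg.GU 4 F p ⊓ Cfsg.Geo.specialLinear (Fin 4) F with hS
  obtain ⟨y, hy, hyN, hy5, hy1⟩ := exists_five hF hp5 h s hRU
  obtain ⟨hx, hdet⟩ := mem_SU.1 hxS
  set t := x ^ 5 with ht
  have hz4 : z ^ 4 = 1 := by
    have h' := hz
    rw [ht, Units.val_pow_eq_pow_val] at h'
    have := congrArg Matrix.det h'
    rw [Matrix.det_pow, hdet, one_pow, Matrix.det_smul, Matrix.det_one, mul_one, Fintype.card_fin] at this
    exact this.symm
  have ht4 : t ^ 4 = 1 := Units.ext (by
    rw [Units.val_pow_eq_pow_val, hz, smul_pow, one_pow, hz4, one_smul, Units.val_one])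
  set x' := t⁻¹ * x with hx'
  have hx'5 : x' ^ 5 = 1 := by
    rw [hx', (Commute.inv_left (Commute.pow_self x 5)).mul_pow, ← ht, inv_pow,
      show t ^ 5 = t ^ 4 * t from pow_succ t 4, ht4, one_mul, inv_mul_cancel]
  have hx'1 : x' ≠ 1 := fun e => hns z (by
    rw [hx', inv_mul_eq_one] at e
    rw [← e, hz])
  let X : S := ⟨x', mul_mem (inv_mem (pow_mem hxS 5)) hxS⟩
  let Y : S := ⟨y, hy⟩
  have hXo : orderOf X = 5 := orderOf_eq_prime (Subtype.ext hx'5) fun e => hx'1 (congrArg Subtype.val e)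
  have hYo : orderOf Y = 5 := orderOf_eq_prime (Subtype.ext hy5) fun e => hy1 (congrArg Subtype.val e)
  have hXp : IsPGroup 5 (Subgroup.zpowers X) := IsPGroup.of_card (n := 1) (by rw [Nat.card_zpowers, hXo, pow_one])
  have hYp : IsPGroup 5 (Subgroup.zpowers Y) := IsPGroup.of_card (n := 1) (by rw [Nat.card_zpowers, hYo, pow_one])
  obtain ⟨P, hP⟩ := hXp.exists_le_sylow
  obtain ⟨P', hP'⟩ := hYp.exists_le_sylow
  obtain ⟨c, hc⟩ := MulAction.exists_smul_eq S P' P
  have hYS : c * Y * c⁻¹ ∈ (P : Subgroup S) := by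
    rw [← hc, Sylow.coe_subgroup_smul]
    exact ⟨Y, hP' (Subgroup.mem_zpowers Y), rfl⟩
  haveI : Nontrivial P := ⟨⟨X, hP (Subgroup.mem_zpowers X)⟩, 1, fun e => hx'1
    (congrArg (fun w : P => ((w : S) : G4)) e)⟩
  haveI := P.isPGroup'.center_nontrivial
  obtain ⟨n, hn⟩ := (P.isPGroup'.to_subgroup (Subgroup.center P)).exists_card_eq
  have hd : 5 ∣ Nat.card (Subgroup.center P) := by
    rw [hn]
    refine dvd_pow_self 5 fun e => ?_
    rw [e, pow_zero] at hn
    exact absurd hn (Finite.one_lt_card.ne')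
  obtain ⟨Z, hZ⟩ := exists_prime_orderOf_dvd_card' (G := Subgroup.center P) 5 hd
  set ζ : G4 := (((Z : P) : S) : G4) with hζ
  have hζU : ζ ∈ Cfsg.GU 4 F p := (mem_SU.1 ((Z : P) : S).2).1
  have hζ5 : ζ ^ 5 = 1 := by
    have := pow_orderOf_eq_one Z
    rw [hZ] at this
    exact congrArg (fun w : Subgroup.center P => (((w : P) : S) : G4)) this
  have hζ1 : ζ ≠ 1 := fun e => by
    rw [show Z = 1 from Subtype.ext (Subtype.ext (Subtype.ext e)), orderOf_one] at hZ
    norm_num at hZ
  have hcen : ∀ w : P, ((w : S) : G4) * ζ = ζ * ((w : S) : G4) := fun w =>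
    congrArg (fun u : P => ((u : S) : G4)) (Subgroup.mem_center_iff.1 Z.2 w)
  obtain ⟨i, hi⟩ := power_of_commute hF hord hζU (mem_SU.1 X.2).1 hζ5 hζ1 hx'5 (hcen ⟨X, hP (Subgroup.mem_zpowers X)⟩)
  obtain ⟨j, hj⟩ := power_of_commute hF hord hζU (mem_SU.1 (c * Y * c⁻¹).2).1 hζ5 hζ1
    (x := ((c * Y * c⁻¹ : S) : G4))
    (by rw [← Subgroup.coe_pow, conj_pow, show Y ^ 5 = 1 from Subtype.ext hy5]; simp) (hcen ⟨_, hYS⟩)
  have hyconj : (c : G4)⁻¹ * ζ ^ j * (c : G4) = y := by
    rw [← hj]
    simp [Y, mul_assoc]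
  have hj0 : ¬ 5 ∣ j := by
    rintro ⟨m, rfl⟩
    apply hy1
    rw [← hyconj, pow_mul, hζ5, one_pow]; simp
  obtain ⟨m, hm⟩ : ∃ m : ℕ, (ζ ^ j) ^ m = ζ := by
    have hcop : Nat.Coprime j (orderOf ζ) := by
      rw [orderOf_eq_prime hζ5 hζ1]
      exact ((Nat.prime_five.coprime_iff_not_dvd).2 hj0).symm
    exact (exists_pow_eq_self_of_coprime hcop)
  refine ⟨c, c.2, ?_⟩
  have key : (c : G4)⁻¹ * x' * c = y ^ (m * i) := by
    rw [show x' = ζ ^ i from hi, ← hm, ← pow_mul, ← hyconj, show (c : G4)⁻¹ * ζ ^ j * c = (c : G4)⁻¹ * ζ ^ j * ((c : G4)⁻¹)⁻¹ by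
      rw [inv_inv], conj_pow, inv_inv]
  have hscal : (c : G4)⁻¹ * x * c = t * y ^ (m * i) := by
    rw [← key, hx']
    have : (c : G4)⁻¹ * t = t * (c : G4)⁻¹ := Units.ext (by
      rw [Units.val_mul, Units.val_mul, hz, Matrix.mul_smul, Matrix.smul_mul, mul_one, one_mul])
    calc (c : G4)⁻¹ * x * c = ((c : G4)⁻¹ * t) * (t⁻¹ * x) * c := by group
      _ = _ := by rw [this]; group
  rw [hscal]
  exact mul_mem (scalar_mem_normalizer hz) (pow_mem hyN _)

/-- The odd primes that do not leave every element fixed. -/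
theorem odd_case (hF : Fintype.card F = p ^ 2) (hp4 : p % 4 = 3) (h : Four R) (s : Frame R)
    {r : ℕ} [Fact r.Prime] (hr2 : r ≠ 2) (hr3 : r = 3 → p % 3 ≠ 1) (hr5 : r = 5 → orderOf (p : ZMod 5) ≠ 4)
    (hdvd : r ∣ Nat.card (Cfsg.GU 4 F p ⊓ Cfsg.Geo.specialLinear (Fin 4) F : Subgroup (GL (Fin 4) F)))
    (H : ∀ x ∈ Cfsg.GU 4 F p ⊓ Cfsg.Geo.specialLinear (Fin 4) F, x ^ r = 1 →
      (∀ z : F, (x : M4) ≠ z • (1 : M4)) →
      ∃ g ∈ Cfsg.GU 4 F p ⊓ Cfsg.Geo.specialLinear (Fin 4) F, g⁻¹ * x * g ∈ Subgroup.normalizer (R : Set G4)) :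
    False := by
  classical
  have hr : r.Prime := Fact.out
  have hp : p.Prime := Fact.out
  set S := Cfsg.GU 4 F p ⊓ Cfsg.Geo.specialLinear (Fin 4) F with hS
  rcases Nat.lt_or_ge r 7 with h7 | h7
  swap
  · obtain ⟨x, hx⟩ := exists_prime_orderOf_dvd_card' (G := S) r hdvd
    have hxr : (x : G4) ^ r = 1 := by rw [← Subgroup.coe_pow, ← hx, pow_orderOf_eq_one]; rfl
    have hns : ∀ z : F, ((x : G4) : M4) ≠ z • (1 : M4) := by
      intro z hz
      have hd := (mem_SU.1 x.2).2
      rw [hz, Matrix.det_smul, Matrix.det_one, mul_one, Fintype.card_fin] at hd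
      have hx4 : x ^ 4 = 1 := Subtype.ext (Units.ext (by
        rw [Subgroup.coe_pow, Units.val_pow_eq_pow_val, hz, smul_pow, one_pow, hd, one_smul]; rfl))
      have := Nat.le_of_dvd (by norm_num) (hx ▸ orderOf_dvd_of_pow_eq_one hx4)
      omega
    obtain ⟨g, -, hg⟩ := H _ x.2 hxr hns
    obtain ⟨c, hc⟩ := scalar_of_seven_le h s hg h7 (conj_pow_one hxr)
    exact conj_nonscalar hns c hc
  -- witnesses with given trace
  have test : ∀ x : G4, x ∈ S → x ^ r = 1 → (∀ z : F, (x : M4) ≠ z • (1 : M4)) →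
      (r = 3 → (x : M4).trace * ((x⁻¹ : G4) : M4).trace = 1 ∨ (x : M4).trace * ((x⁻¹ : G4) : M4).trace = 4) ∧
      (r = 5 → (x : M4).trace * ((x⁻¹ : G4) : M4).trace = 1) := by
    intro x hx hxr hns
    obtain ⟨g, -, hg⟩ := H x hx hxr hns
    have ht := trace_test h hg (conj_pow_one hxr) (conj_nonscalar hns)
    have e1 : ∀ u : G4, ((g⁻¹ * u * g : G4) : M4).trace = (u : M4).trace := fun u => by
      rw [Units.val_mul, Units.val_mul, Matrix.trace_mul_cycle, Units.mul_inv, one_mul]
    rw [e1, show (g⁻¹ * x * g)⁻¹ = g⁻¹ * x⁻¹ * g by group, e1] at ht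
    exact ht
  have mkDiag : ∀ d : Fin 4 → F, (∀ i, d i ^ (p + 1) = 1) → (∀ i, d i ^ r = 1) → ∏ i, d i = 1 →
      ∃ x : G4, x ∈ S ∧ x ^ r = 1 ∧ (x : M4) = Matrix.diagonal d ∧
        ((x⁻¹ : G4) : M4).trace = ∑ i, (d i)⁻¹ := by
    intro d hn hdr hprod
    obtain ⟨x, hxU, hxd⟩ := Cfsg.Agent.Lib.Classical.Herm.exists_diag hF d hn
    refine ⟨x, mem_SU.2 ⟨hxU, by rw [hxd, Matrix.det_diagonal, hprod]⟩, Units.ext ?_, hxd, ?_⟩
    · rw [Units.val_pow_eq_pow_val, hxd, Matrix.diagonal_pow, Units.val_one, ← Matrix.diagonal_one]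
      congr 1; funext i; exact hdr i
    · have hinv : ((x⁻¹ : G4) : M4) = Matrix.diagonal fun i => (d i)⁻¹ := by
        have e1 : (x : M4) * Matrix.diagonal (fun i => (d i)⁻¹) = 1 := by
          rw [hxd, Matrix.diagonal_mul_diagonal, ← Matrix.diagonal_one]
          congr 1; funext i
          exact mul_inv_cancel₀ fun e => by simpa [e] using hn i
        calc ((x⁻¹ : G4) : M4) = ((x⁻¹ : G4) : M4) * ((x : M4) * Matrix.diagonal fun i => (d i)⁻¹) := by
              rw [e1, mul_one]
          _ = _ := by rw [← mul_assoc, Units.inv_mul, one_mul]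
      rw [hinv, Matrix.trace_diagonal]
  have hrcases : r = 3 ∨ r = 5 := by
    have := hr.two_le
    interval_cases r <;> first | omega | exact absurd hr (by norm_num)
  have hsq : p ^ 2 - 1 = (p + 1) * (p - 1) := by rw [← Nat.sq_sub_sq p 1, one_pow]
  have hun : Nat.card Fˣ = (p + 1) * (p - 1) := by
    rw [Nat.card_units, Nat.card_eq_fintype_card, hF, hsq]
  rcases hrcases with rfl | rfl
  · have hp3 := hr3 rfl
    rcases Nat.lt_or_ge (p % 3) 1 with hp0 | hp2
    · -- characteristic three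
      have hp33 : p = 3 := by
        rcases hp.eq_one_or_self_of_dvd 3 (Nat.dvd_of_mod_eq_zero (by omega)) with e | e
        · norm_num at e
        · exact e.symm
      subst hp33
      obtain ⟨σ, hσ⟩ : ∃ σ : F, σ ^ 4 = -1 := by
        obtain ⟨g, hg⟩ := IsCyclic.exists_generator (α := Fˣ)
        have hog : orderOf g = 8 := by
          rw [orderOf_eq_card_of_forall_mem_zpowers hg, hun]
        refine ⟨g, ?_⟩
        have h8 : ((g : F) ^ 4) * ((g : F) ^ 4) = 1 := by
          rw [← pow_add, ← Units.val_pow_eq_pow_val, show 4 + 4 = orderOf g by rw [hog], pow_orderOf_eq_one, Units.val_one]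
        refine (mul_self_eq_one_iff.1 h8).resolve_left fun e => ?_
        have := Nat.le_of_dvd (by norm_num) (hog ▸ orderOf_dvd_of_pow_eq_one
          (Units.ext (by simpa using e) : g ^ 4 = 1))
        omega
      set c : F := σ * σ with hc
      have hc2 : c ^ 2 = -1 := by rw [hc, ← hσ]; ring
      have hc3 : c ^ 3 = -c := by rw [pow_succ, hc2]; ring
      set w : Fin 4 → F := ![1, σ, 0, 0] with hw
      have hh : Cfsg.hermForm 4 F 3 w w = 0 := by
        simp [Cfsg.hermForm, Fin.sum_univ_four, hw, ← pow_succ', hσ]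
      obtain ⟨x, hxU, hxv⟩ := Cfsg.Agent.Lib.Classical.Herm.exists_refl hF c w (by
        rw [hh, hc3]; ring)
      have hN2 : ((x : M4) - 1) * ((x : M4) - 1) = 0 := by
        refine Matrix.toLin'.injective (LinearMap.ext fun v => ?_)
        rw [Matrix.toLin'_apply, map_zero, LinearMap.zero_apply, ← Matrix.mulVec_mulVec, Matrix.sub_mulVec,
          Matrix.one_mulVec, Matrix.sub_mulVec, Matrix.one_mulVec, hxv v, add_sub_cancel_left, Matrix.mulVec_smul,
          hxv w, hh, mul_zero, zero_smul, add_zero, sub_self]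
      have three : ∀ M : M4, M + M + M = 0 := fun M => by
        ext i j
        simp only [Matrix.add_apply, Matrix.zero_apply]
        have h3 : ((3 : ℕ) : F) = 0 := CharP.cast_eq_zero F 3
        push_cast at h3
        linear_combination (M i j) * h3
      have hx3 : x ^ 3 = 1 := Units.ext (by
        have e : (x : M4) = 1 + ((x : M4) - 1) := by abel
        rw [Units.val_pow_eq_pow_val, e, pow_succ, _root_.sq]
        set N := (x : M4) - 1
        simp only [add_mul, mul_add, one_mul, mul_one, hN2, zero_mul, add_zero, zero_add]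
        rw [Units.val_one]
        linear_combination (norm := abel) three N)
      have hns : ∀ z : F, (x : M4) ≠ z • (1 : M4) := by
        intro z hz
        have h0 := congrArg (fun v : Fin 4 → F => v 0) (hxv (Pi.single 0 1))
        have h1 := congrArg (fun v : Fin 4 → F => v 1) (hxv (Pi.single 0 1))
        simp [hz, Matrix.smul_mulVec, Cfsg.hermForm, Fin.sum_univ_four, hw] at h0 h1
        have hσ0 : σ ≠ 0 := fun e => by simp [e] at hσ
        have hc0 : c ≠ 0 := mul_ne_zero hσ0 hσ0
        simp_all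
      have hxS : x ∈ S := mem_SU.2 ⟨hxU, det_one_of_pow hF hxU Nat.prime_three (by norm_num) hx3⟩
      obtain ⟨g, -, hg⟩ := H x hxS hx3 hns
      refine no_transvection h s hg (conj_pow_one hx3) (conj_nonscalar hns)
        (φ := fun v => c * Cfsg.hermForm 4 F 3 ((g : M4) *ᵥ v) w) (e := ((g⁻¹ : G4) : M4) *ᵥ w) ?_ ?_ ?_
      · intro e
        have := congrArg (fun v => (g : M4) *ᵥ v) e
        simp only [Matrix.mulVec_mulVec, Units.mul_inv, Matrix.one_mulVec, Matrix.mulVec_zero] at this
        have := congrFun this 0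
        simp [hw] at this
      · intro v
        rw [Units.val_mul, Units.val_mul, ← Matrix.mulVec_mulVec, ← Matrix.mulVec_mulVec, hxv, Matrix.mulVec_add,
          Matrix.mulVec_smul, Matrix.mulVec_mulVec, Units.inv_mul, Matrix.one_mulVec]
      · have e : ((g⁻¹ * x * g : G4) : M4) - 1 = ((g⁻¹ : G4) : M4) * ((x : M4) - 1) * (g : M4) := by
          rw [mul_sub, sub_mul, mul_one, Units.inv_mul, Units.val_mul, Units.val_mul]
        rw [e]
        calc _ = ((g⁻¹ : G4) : M4) * ((x : M4) - 1) * ((g : M4) * ((g⁻¹ : G4) : M4)) * ((x : M4) - 1) * (g : M4) := by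
              simp only [mul_assoc]
          _ = ((g⁻¹ : G4) : M4) * (((x : M4) - 1) * ((x : M4) - 1)) * (g : M4) := by
              rw [Units.mul_inv, mul_one]; simp only [mul_assoc]
          _ = 0 := by rw [hN2, mul_zero, zero_mul]
    · -- p ≡ 2 (mod 3)
      haveI : Fact (Nat.Prime 3) := ⟨Nat.prime_three⟩
      obtain ⟨u, hu⟩ := exists_prime_orderOf_dvd_card' (G := Fˣ) 3 (by
        rw [hun]; exact Dvd.dvd.mul_right (by omega) _)
      set ω : F := (u : F) with hω
      have hω3 : ω ^ 3 = 1 := by rw [hω, ← Units.val_pow_eq_pow_val, ← hu, pow_orderOf_eq_one, Units.val_one]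
      have hω1 : ω ≠ 1 := fun e => by
        rw [show u = 1 from Units.ext e, orderOf_one] at hu
        norm_num at hu
      have hωn : ω ^ (p + 1) = 1 := by
        obtain ⟨k, hk⟩ : 3 ∣ p + 1 := by omega
        rw [hk, pow_mul, hω3, one_pow]
      obtain ⟨x, hxS, hx3, hxd, hxt⟩ := mkDiag ![ω, ω, ω, 1] (fun i => by fin_cases i <;> simp [hωn])
        (fun i => by fin_cases i <;> simp [hω3]) (by simp [Fin.prod_univ_four]; linear_combination hω3)
      have hns : ∀ z : F, (x : M4) ≠ z • (1 : M4) := fun z hz => by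
        have h0 := congrFun (congrFun (hxd.symm.trans hz) 0) 0
        have h3' := congrFun (congrFun (hxd.symm.trans hz) 3) 3
        simp at h0 h3'
        exact hω1 (h0.trans h3'.symm)
      obtain ⟨t3, -⟩ := test x hxS hx3 hns
      have ht := t3 rfl
      rw [hxt, hxd, Matrix.trace_diagonal] at ht
      simp [Fin.sum_univ_four] at ht
      have hinv : ω⁻¹ = ω ^ 2 := inv_eq_of_mul_eq_one_right (by rw [← hω3]; ring)
      rw [hinv] at ht
      have hs : 1 + ω + ω ^ 2 = 0 := by
        have : (ω - 1) * (1 + ω + ω ^ 2) = 0 := by linear_combination hω3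
        exact (mul_eq_zero.1 this).resolve_left (sub_ne_zero.2 hω1)
      have hpne : p ≠ 2 ∧ p ≠ 3 := by omega
      have h6 : ((2 : ℕ) : F) * ((3 : ℕ) : F) ≠ 0 := by
        refine mul_ne_zero ?_ ?_ <;> rw [Ne, CharP.cast_eq_zero_iff F p] <;> intro e
        · exact hpne.1 ((Nat.prime_dvd_prime_iff_eq hp Nat.prime_two).1 e)
        · exact hpne.2 ((Nat.prime_dvd_prime_iff_eq hp Nat.prime_three).1 e)
      push_cast at h6
      rcases ht with e | e
      · exact h6 (by linear_combination e - 9 * hω3 - 3 * hs)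
      · exact h6 (by linear_combination 2 * (e - 9 * hω3 - 3 * hs))
  · haveI : Fact (Nat.Prime 5) := ⟨Nat.prime_five⟩
    have hp5 : p ≠ 5 := by omega
    have h5 : (5 : F) ≠ 0 := by
      intro e
      have h' : ((5 : ℕ) : F) = 0 := by exact_mod_cast e
      rw [CharP.cast_eq_zero_iff F p] at h'
      exact hp5 ((Nat.prime_dvd_prime_iff_eq hp Nat.prime_five).1 h')
    have hmod : p % 5 = 1 ∨ p % 5 = 4 := by
      have h0 : p % 5 ≠ 0 := fun e =>
        hp5 ((Nat.prime_dvd_prime_iff_eq Nat.prime_five hp).1 (Nat.dvd_of_mod_eq_zero e)).symm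
      have h4 := hr5 rfl
      rw [← ZMod.natCast_mod] at h4
      have hlt : p % 5 < 5 := Nat.mod_lt _ (by norm_num)
      interval_cases hq : p % 5
      · exact absurd rfl h0
      · exact Or.inl rfl
      · exact absurd (orderOf_eq_prime_pow (p := 2) (n := 1) (by decide) (by decide)) h4
      · exact absurd (orderOf_eq_prime_pow (p := 2) (n := 1) (by decide) (by decide)) h4
      · exact Or.inr rfl
    obtain ⟨u, hu⟩ := exists_prime_orderOf_dvd_card' (G := Fˣ) 5 (by
      rw [hun]
      rcases hmod with e | e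
      · exact Dvd.dvd.mul_left (by omega) _
      · exact Dvd.dvd.mul_right (by omega) _)
    set ζ : F := (u : F) with hζ
    have hζ5 : ζ ^ 5 = 1 := by rw [hζ, ← Units.val_pow_eq_pow_val, ← hu, pow_orderOf_eq_one, Units.val_one]
    have hζ1 : ζ ≠ 1 := fun e => by
      rw [show u = 1 from Units.ext e, orderOf_one] at hu
      norm_num at hu
    have hs : 1 + ζ + ζ ^ 2 + ζ ^ 3 + ζ ^ 4 = 0 := by
      have : (ζ - 1) * (1 + ζ + ζ ^ 2 + ζ ^ 3 + ζ ^ 4) = 0 := by linear_combination hζ5
      exact (mul_eq_zero.1 this).resolve_left (sub_ne_zero.2 hζ1)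
    suffices hex : ∃ x : G4, x ∈ S ∧ x ^ 5 = 1 ∧ (x : M4).trace = 2 + ζ + ζ ^ 4 ∧
        ((x⁻¹ : G4) : M4).trace = 2 + ζ + ζ ^ 4 ∧ ∀ z : F, (x : M4) ≠ z • (1 : M4) by
      obtain ⟨x, hxS, hx5, t1, t2, hns⟩ := hex
      obtain ⟨-, t5⟩ := test x hxS hx5 hns
      have ht := t5 rfl
      rw [t1, t2] at ht
      set τ := ζ + ζ ^ 4 with hτ
      have hτ2 : τ ^ 2 + τ - 1 = 0 := by rw [hτ]; linear_combination hs + (ζ ^ 3 + 2) * hζ5
      have h3 : 3 * τ + 4 = 0 := by linear_combination ht - hτ2
      exact h5 (by linear_combination (3 * τ - 1) * h3 - 9 * hτ2)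
    rcases hmod with e | e
    · -- a hyperbolic plane
      have hζp : ζ ^ p = ζ := by rw [pow_eq_pow_mod p hζ5, e, pow_one]
      have hζ0 : ζ ≠ 0 := Units.ne_zero u
      obtain ⟨σ, hσ⟩ : ∃ σ : F, σ ^ (p + 1) = -1 := by
        obtain ⟨g, hg⟩ := IsCyclic.exists_generator (α := Fˣ)
        have hog : orderOf g = (p + 1) * (p - 1) := by
          rw [orderOf_eq_card_of_forall_mem_zpowers hg, hun]
        refine ⟨((g ^ ((p - 1) / 2) : Fˣ) : F), ?_⟩
        set t : F := ((g ^ ((p - 1) / 2) : Fˣ) : F) ^ (p + 1) with ht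
        have h1 : t * t = 1 := by
          rw [ht, ← pow_add, ← Units.val_pow_eq_pow_val, ← pow_mul,
            show (p - 1) / 2 * (p + 1 + (p + 1)) = (p + 1) * ((p - 1) / 2 * 2) by ring,
            Nat.div_mul_cancel (show 2 ∣ p - 1 by omega), ← hog, pow_orderOf_eq_one, Units.val_one]
        refine (mul_self_eq_one_iff.1 h1).resolve_left fun e' => ?_
        rw [ht, ← Units.val_pow_eq_pow_val, Units.val_eq_one, ← pow_mul] at e'
        have hd := orderOf_dvd_of_pow_eq_one e'
        rw [hog, mul_comm ((p - 1) / 2)] at hd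
        have := Nat.le_of_dvd (Nat.div_pos (show 2 ≤ p - 1 by omega) two_pos)
          ((Nat.mul_dvd_mul_iff_left (show 0 < p + 1 by omega)).1 hd)
        omega
      have hσ0 : σ ≠ 0 := fun e' => by simp [e'] at hσ
      have hσp : σ ^ p = -σ⁻¹ := by
        apply mul_right_cancel₀ hσ0
        rw [← pow_succ, hσ, neg_mul, inv_mul_cancel₀ hσ0]
      let cf : ℕ → F := fun n => (ζ ^ n + (ζ ^ n) ^ 4) / 2
      let df : ℕ → F := fun n => (ζ ^ n - (ζ ^ n) ^ 4) / 2
      let Mx : ℕ → M4 := fun n => !![cf n, df n * σ⁻¹, 0, 0; df n * σ, cf n, 0, 0; 0, 0, 1, 0; 0, 0, 0, 1]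
      have h2 := h.two_ne
      have hmul : ∀ m n, Mx m * Mx n = Mx (m + n) := by
        intro m n
        ext i k
        fin_cases i <;> fin_cases k <;>
          simp [Mx, cf, df, Matrix.mul_apply, Fin.sum_univ_four, pow_add, mul_pow, h2] <;> field_simp <;> ring
      have hM5 : Mx 5 = 1 := by
        ext i k
        fin_cases i <;> fin_cases k <;> simp [Mx, cf, df, hζ5, h2] <;> norm_num [h2]
      have hinv : Mx 1 * Mx 4 = 1 ∧ Mx 4 * Mx 1 = 1 := ⟨by rw [hmul, hM5], by rw [hmul, hM5]⟩
      let x : G4 := ⟨Mx 1, Mx 4, hinv.1, hinv.2⟩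
      have hzp : ∀ n, (ζ ^ n) ^ p = ζ ^ n := fun n => by rw [← pow_mul, mul_comm, pow_mul, hζp]
      have hxU : x ∈ Cfsg.GU 4 F p := by
        rw [mem_GU_iff hF]
        have hcp : ∀ n, qHom hF (cf n) = cf n := fun n => by
          have hq : qHom hF (ζ ^ n) = ζ ^ n := hzp n
          simp only [cf, map_div₀, map_add, map_pow (qHom hF) (ζ ^ n), hq, map_ofNat]
        have hdp : ∀ n, qHom hF (df n) = df n := fun n => by
          have hq : qHom hF (ζ ^ n) = ζ ^ n := hzp n
          simp only [df, map_div₀, map_sub, map_pow (qHom hF) (ζ ^ n), hq, map_ofNat]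
        have hs1 : qHom hF σ = -σ⁻¹ := hσp
        have hs2 : qHom hF σ⁻¹ = -σ := by rw [map_inv₀, hs1, inv_neg, inv_inv]
        have hcd : cf 1 * cf 1 - df 1 * df 1 = 1 := by
          simp only [cf, df, pow_one]; field_simp; linear_combination 4 * hζ5
        show tstar hF (Mx 1) * Mx 1 = 1
        have hT : tstar hF (Mx 1) = !![cf 1, -(df 1 * σ⁻¹), 0, 0; -(df 1 * σ), cf 1, 0, 0; 0, 0, 1, 0; 0, 0, 0, 1] := by
          ext i k
          fin_cases i <;> fin_cases k <;> simp [tstar, Mx, hcp, hdp, hs1, hs2]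
        rw [hT]
        ext i k
        fin_cases i <;> fin_cases k <;>
          simp [Mx, Matrix.mul_apply, Fin.sum_univ_four] <;> field_simp <;>
          first | linear_combination hcd | ring
      have hpow : ∀ n, (x : M4) ^ n = Mx n := by
        intro n
        induction n with
        | zero =>
          ext i k
          fin_cases i <;> fin_cases k <;> simp [Mx, cf, df, h2] <;> field_simp <;> norm_num
        | succ n ih => rw [pow_succ, ih]; exact hmul n 1
      have hx5 : x ^ 5 = 1 := Units.ext (by rw [Units.val_pow_eq_pow_val, hpow, hM5, Units.val_one])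
      refine ⟨x, mem_SU.2 ⟨hxU, det_one_of_pow hF hxU Nat.prime_five (by omega) hx5⟩, hx5, ?_, ?_, ?_⟩
      · show (Mx 1).trace = _
        simp [Mx, cf, Matrix.trace, Fin.sum_univ_four]
        field_simp; ring
      · show (Mx 4).trace = _
        simp [Mx, cf, Matrix.trace, Fin.sum_univ_four]
        rw [show (ζ ^ 4) ^ 4 = ζ by rw [← pow_mul, pow_eq_pow_mod _ hζ5, pow_one]]
        field_simp; ring
      · intro z hz
        have h00 : cf 1 = z := by simpa [x, Mx] using congrFun (congrFun hz 0) 0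
        have h22 : (1 : F) = z := by simpa [x, Mx] using congrFun (congrFun hz 2) 2
        have h01 : df 1 = 0 := by simpa [x, Mx, hσ0] using congrFun (congrFun hz 0) 1
        apply hζ1
        simp only [cf, df, pow_one, div_eq_zero_iff, h2, or_false] at h00 h01
        rw [← h22, div_eq_one_iff_eq h2] at h00
        apply mul_left_cancel₀ h2
        linear_combination h00 + h01
    · -- diagonal
      have hζn : ζ ^ (p + 1) = 1 := by
        obtain ⟨k, hk⟩ : 5 ∣ p + 1 := by omega
        rw [hk, pow_mul, hζ5, one_pow]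
      have a5 : (ζ ^ 4) ^ 5 = 1 := by rw [pow_right_comm, hζ5, one_pow]
      have an : (ζ ^ 4) ^ (p + 1) = 1 := by rw [pow_right_comm, hζn, one_pow]
      obtain ⟨x, hxS, hx5, hxd, hxt⟩ := mkDiag ![ζ, ζ ^ 4, 1, 1]
        (fun i => by fin_cases i <;> simp [hζn, an])
        (fun i => by fin_cases i <;> simp [hζ5, a5])
        (by simp [Fin.prod_univ_four, ← pow_succ', hζ5])
      refine ⟨x, hxS, hx5, ?_, ?_, ?_⟩
      · rw [hxd, Matrix.trace_diagonal]; simp [Fin.sum_univ_four]; ring
      · rw [hxt]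
        have i1 : ζ⁻¹ = ζ ^ 4 := inv_eq_of_mul_eq_one_right (by rw [← hζ5]; ring)
        have i4 : (ζ ^ 4)⁻¹ = ζ := inv_eq_of_mul_eq_one_left (by rw [← hζ5]; ring)
        simp [Fin.sum_univ_four, i1, i4]; ring
      · intro z hz
        have h0 := congrFun (congrFun (hxd.symm.trans hz) 0) 0
        have h2' := congrFun (congrFun (hxd.symm.trans hz) 2) 2
        simp at h0 h2'
        exact hζ1 (h0.trans h2'.symm)

end unitary

/-- Elements of prime order of PSU_4(p), p ≡ 3 (mod 4), and the normalizer of a 2-group of symplectic type of order 2⁶. Here `T = PSU_4(p)` for a prime `p ≡ 3 (mod 4)`, realised through `SU_4(p)`, the matrices of determinant 1 over the field `F` with `p²` elements preserving the hermitian form `f = Σ uᵢvᵢ^p`; `R` is an absolutely irreducible subgroup of the full unitary group of `f` of order 2⁶ that is a 2-group of symplectic type of exponent 4 with centre of order 4, and `H` is the subgroup of `SU_4(p)` normalizing `R` — a subgroup of type 2⁴.Sp₄(2) (maximality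 is not assumed). Ω is the set of cosets of `H`, so an element of `T` of prime order `r` (`x ∈ SU_4(p)` with `x^r` scalar, `x` not scalar) fixes a point of Ω exactly when some `SU_4(p)`-conjugate of `x` normalizes `R`. Let `r` be a prime dividing the index of `H`. Then every element of `T` of order `r` fixes a point of Ω if and only if `r = 2`, or `r = 3` and `p ≡ 1 (mod 3)`, or `r = 5` and `p ≡ ±2 (mod 5)` (`p` has multiplicative order 4 modulo 5). -/
theorem result {F : Type*} [Field F] [Fintype F] {p : ℕ} [Fact p.Prime] [CharP F p] (hF : Fintype.card F = p ^ 2) (hp4 : p % 4 = 3)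
    (R : Subgroup (GL (Fin 4) F)) (hRs : Cfsg.Geo.IsSymplecticTypeGroup 2 R) (hRi : Cfsg.Geo.ActsAbsolutelyIrreducibly (Cfsg.Geo.matrixSet R))
    (hRU : R ≤ Cfsg.GU 4 F p) (hR6 : Nat.card R = 2 ^ 6) (hRZ : Nat.card (Subgroup.center R) = 4)
    (r : ℕ) [Fact r.Prime]
    (hΩ : r ∣ (Cfsg.Geo.subgroupNormalizer R).relIndex (Cfsg.GU 4 F p ⊓ Cfsg.Geo.specialLinear (Fin 4) F)) :
    (∀ x ∈ Cfsg.GU 4 F p ⊓ Cfsg.Geo.specialLinear (Fin 4) F, (∃ z : F, ((x ^ r : GL (Fin 4) F) : Matrix (Fin 4) (Fin 4) F) = z • (1 : Matrix (Fin 4) (Fin 4) F)) →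
      (∀ z : F, (x : Matrix (Fin 4) (Fin 4) F) ≠ z • (1 : Matrix (Fin 4) (Fin 4) F)) →
      ∃ g ∈ Cfsg.GU 4 F p ⊓ Cfsg.Geo.specialLinear (Fin 4) F, g⁻¹ * x * g ∈ Cfsg.Geo.subgroupNormalizer R) ↔ (r = 2 ∨ (r = 3 ∧ p % 3 = 1) ∨ (r = 5 ∧ orderOf (p : ZMod 5) = 4)) := by
  classical
  obtain ⟨h⟩ := exists_four (p := p) (Nat.odd_iff.2 (by omega)) R hRs hRi hR6 hRZ
  obtain ⟨s⟩ := h.exists_frame
  constructor
  · intro H
    by_cases hr2 : r = 2
    · exact Or.inl hr2
    by_cases hr3 : r = 3 ∧ p % 3 = 1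
    · exact Or.inr (Or.inl hr3)
    by_cases hr5 : r = 5 ∧ orderOf (p : ZMod 5) = 4
    · exact Or.inr (Or.inr hr5)
    exfalso
    refine odd_case hF hp4 h s hr2 (fun e e' => hr3 ⟨e, e'⟩) (fun e e' => hr5 ⟨e, e'⟩)
      (hΩ.trans (Subgroup.index_dvd_card _)) ?_
    intro x hx hxr hns
    exact H x hx ⟨1, by rw [hxr, Units.val_one, one_smul]⟩ hns
  · rintro (rfl | ⟨rfl, hp3⟩ | ⟨rfl, hord⟩) x hx ⟨z, hz⟩ hns
    · exact case_two hF hp4 h s hRU (mem_SU.1 hx).1 (mem_SU.1 hx).2 hz hns
    · exact case_three hF hp4 hp3 h s hRU (mem_SU.1 hx).1 (mem_SU.1 hx).2 hz hns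
    · exact case_five hF hp4 hord h s hRU hx hz hns

end Cfsg.Agent.S6001
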