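import Cfsg.Statements.S6002
import Cfsg.Agent.Lib.Elusive.ExtraTwoMinus

set_option autoImplicit false
open scoped MatrixGroups
open Cfsg

namespace Cfsg.Agent.S6002

open Matrix
open Cfsg.Agent.Lib.Elusive.TwoFive

universe v
variable {F : Type v} [Field F]

local notation "G4" => GL (Fin 2 ⊕ Fin 2) F
local notation "M4" => Matrix (Fin 2 ⊕ Fin 2) (Fin 2 ⊕ Fin 2) F
local notation "V4" => (Fin 2 ⊕ Fin 2) → F
local notation "Jm" => Matrix.J (Fin 2) F
local notation "e₀" => (Sum.inl 0 : Fin 2 ⊕ Fin 2)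
local notation "e₁" => (Sum.inr 0 : Fin 2 ⊕ Fin 2)

theorem sympForm_mulVec (A : M4) (u w : V4) :
    Cfsg.sympForm 2 F (A *ᵥ u) (A *ᵥ w) = u ⬝ᵥ ((Aᵀ * Jm * A) *ᵥ w) := by
  rw [Cfsg.sympForm, Matrix.mulVec_mulVec, Matrix.mul_assoc, ← Matrix.mulVec_mulVec _ Aᵀ,
    Matrix.dotProduct_mulVec u Aᵀ, Matrix.vecMul_transpose]

theorem mem_sp {g : G4} : g ∈ Cfsg.spGL 2 F ↔ (g : M4)ᵀ * Jm * (g : M4) = Jm := by
  show (∀ u w, Cfsg.sympForm 2 F ((g : M4) *ᵥ u) ((g : M4) *ᵥ w) = Cfsg.sympForm 2 F u w) ↔ _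
  constructor
  · intro h
    ext i j
    have := h (Pi.single i 1) (Pi.single j 1)
    rw [sympForm_mulVec, Cfsg.sympForm] at this
    simpa [Matrix.mulVec_single, single_dotProduct] using this
  · intro h u w
    rw [sympForm_mulVec, h]
    rfl

theorem scalar_sp {g : G4} {c : F} (hc : (g : M4) = c • 1) : g ∈ Cfsg.spGL 2 F ↔ c * c = 1 := by
  rw [mem_sp, hc, Matrix.transpose_smul, Matrix.transpose_one, Matrix.smul_mul, Matrix.one_mul,
    Matrix.mul_smul, Matrix.mul_one, smul_smul]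
  constructor
  · intro h
    have := congrArg (fun M : M4 => M (Sum.inr 0) (Sum.inl 0)) h
    simpa [Matrix.J] using this
  · intro h; rw [h, one_smul]

/-- `A` in a hyperbolic plane, the identity on its orthogonal complement. -/
def emb (A : Matrix (Fin 2) (Fin 2) F) : Matrix (Fin 2 ⊕ Fin 2) (Fin 2 ⊕ Fin 2) F :=
  Matrix.fromBlocks (Matrix.diagonal ![A 0 0, 1]) (Matrix.diagonal ![A 0 1, 0])
    (Matrix.diagonal ![A 1 0, 0]) (Matrix.diagonal ![A 1 1, 1])

theorem emb_mul (A B : Matrix (Fin 2) (Fin 2) F) : emb (A * B) = emb A * emb B := by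
  ext (i | i) (j | j) <;> fin_cases i <;> fin_cases j <;>
    simp [emb, Matrix.mul_apply, Fintype.sum_sum_type, Fin.sum_univ_two, Matrix.diagonal]

theorem emb_one : emb (1 : Matrix (Fin 2) (Fin 2) F) = 1 := by
  ext (i | i) (j | j) <;> fin_cases i <;> fin_cases j <;> simp [emb, Matrix.diagonal]

theorem emb_symp (A : Matrix (Fin 2) (Fin 2) F) (h : A.det = 1) : (emb A)ᵀ * Jm * emb A = Jm := by
  rw [Matrix.det_fin_two] at h
  ext (i | i) (j | j) <;> fin_cases i <;> fin_cases j <;>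
    simp [emb, Matrix.J, Matrix.mul_apply, Fintype.sum_sum_type, Fin.sum_univ_two, Matrix.diagonal] <;>
    first | linear_combination h | linear_combination -h | ring

theorem emb_trace (A : Matrix (Fin 2) (Fin 2) F) : (emb A).trace = A.trace + 2 := by
  simp [emb, Matrix.trace, Fintype.sum_sum_type, Fin.sum_univ_two, Matrix.diagonal]
  ring

/-- The unit given by `emb A`. -/
def embGL (A : Matrix (Fin 2) (Fin 2) F) (h : A.det = 1) : GL (Fin 2 ⊕ Fin 2) F where
  val := emb A
  inv := emb A.adjugate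
  val_inv := by rw [← emb_mul, Matrix.mul_adjugate, h, one_smul, emb_one]
  inv_val := by rw [← emb_mul, Matrix.adjugate_mul, h, one_smul, emb_one]

theorem embGL_pow (A : Matrix (Fin 2) (Fin 2) F) (h : A.det = 1) (n : ℕ) :
    ((embGL A h ^ n : G4) : M4) = emb (A ^ n) := by
  induction n with
  | zero => simp [emb_one]
  | succ n ih => rw [pow_succ, Units.val_mul, ih, pow_succ, emb_mul]; rfl

theorem embGL_sp (A : Matrix (Fin 2) (Fin 2) F) (h : A.det = 1) : embGL A h ∈ Cfsg.spGL 2 F :=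
  mem_sp.2 (emb_symp A h)

theorem embGL_not_scalar (A : Matrix (Fin 2) (Fin 2) F) (h : A.det = 1) (hA : A ≠ 1) (z : F) :
    (embGL A h : M4) ≠ z • (1 : M4) := by
  intro hz
  have h1 := congrArg (fun M : M4 => M (Sum.inl 1) (Sum.inl 1)) hz
  have h2 : ∀ i j : Fin 2 ⊕ Fin 2, (emb A) i j = (z • (1 : M4)) i j := fun i j => congrArg (fun M : M4 => M i j) hz
  simp [embGL, emb, Matrix.diagonal] at h1
  subst h1
  apply hA
  ext i j
  fin_cases i <;> fin_cases j
  · simpa [emb, Matrix.diagonal] using h2 (Sum.inl 0) (Sum.inl 0)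
  · simpa [emb, Matrix.diagonal] using h2 (Sum.inl 0) (Sum.inr 0)
  · simpa [emb, Matrix.diagonal] using h2 (Sum.inr 0) (Sum.inl 0)
  · simpa [emb, Matrix.diagonal] using h2 (Sum.inr 0) (Sum.inr 0)

section normal

variable [Finite F] {R : Subgroup (GL (Fin 2 ⊕ Fin 2) F)}

theorem conj_mem {y : G4} (hy : y ∈ Subgroup.normalizer (R : Set G4)) {u : G4} (hu : u ∈ R) :
    y * u * y⁻¹ ∈ R := (Subgroup.mem_normalizer_iff.1 hy u).1 hu

theorem fixed_modEq {y : G4} (hy : y ∈ Subgroup.normalizer (R : Set G4)) {r : ℕ} [Fact r.Prime]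
    (hyr : y ^ r = 1) (P : G4 → Prop) (hP : ∀ u, P (y * u * y⁻¹) ↔ P u) :
    Nat.card {u : R // P u ∧ y * u = u * y} ≡ Nat.card {u : R // P u} [MOD r] := by
  classical
  let X := {u : R // P u}
  haveI := Fintype.ofFinite X
  let f : X → X := fun u => ⟨⟨y * u.1 * y⁻¹, conj_mem hy u.1.2⟩, (hP _).2 u.2⟩
  have hf : Function.Bijective f := Finite.injective_iff_bijective.1 fun u w h => by
    have h' : y * (u.1 : G4) * y⁻¹ = y * (w.1 : G4) * y⁻¹ := congrArg (fun z : X => (z.1 : G4)) h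
    exact Subtype.ext (Subtype.ext (mul_left_cancel (mul_right_cancel h')))
  let σ : Equiv.Perm X := Equiv.ofBijective f hf
  have hσ : ∀ (k : ℕ) (u : X), (((σ ^ k) u).1 : G4) = y ^ k * u.1 * (y ^ k)⁻¹ := by
    intro k
    induction k with
    | zero => intro u; simp
    | succ k ih =>
      intro u
      rw [pow_succ', Equiv.Perm.mul_apply]
      show y * (((σ ^ k) u).1 : G4) * y⁻¹ = _
      rw [ih, pow_succ']; group
  have hσr : σ ^ r ^ 1 = 1 := by
    rw [pow_one]; ext u : 3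
    rw [hσ, hyr]; simp
  have := Equiv.Perm.card_compl_support_modEq hσr
  rw [← Nat.card_eq_fintype_card] at this
  refine Nat.ModEq.trans (Nat.ModEq.symm ?_) this
  apply Eq.subst (motive := fun n => σ.supportᶜ.card ≡ n [MOD r]) ?_ (Nat.ModEq.refl _)
  rw [← Fintype.card_coe, ← Nat.card_eq_fintype_card]
  refine (Nat.card_congr ?_)
  refine (Equiv.subtypeEquivRight (fun u => ?_)).trans (Equiv.subtypeSubtypeEquivSubtypeInter
    (fun u : R => P u) (fun u : R => y * u = u * y))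
  rw [Finset.mem_compl, Equiv.Perm.mem_support, not_not, Subtype.ext_iff, Subtype.ext_iff]
  show y * (u.1 : G4) * y⁻¹ = _ ↔ _
  rw [mul_inv_eq_iff_eq_mul]

theorem conj_eq_one_iff (y u : G4) : y * u * y⁻¹ = 1 ↔ u = 1 := by
  rw [mul_inv_eq_one, mul_eq_left]

theorem conj_eq_neg_one_iff (y u : G4) : y * u * y⁻¹ = -1 ↔ u = -1 := by
  rw [mul_inv_eq_iff_eq_mul, neg_one_mul, show -y = y * -1 by rw [mul_neg, mul_one], mul_left_cancel_iff]

theorem invol_conj (y u : G4) :
    (y * u * y⁻¹ * (y * u * y⁻¹) = 1 ∧ y * u * y⁻¹ ≠ 1 ∧ y * u * y⁻¹ ≠ -1) ↔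
      (u * u = 1 ∧ u ≠ 1 ∧ u ≠ -1) := by
  rw [show y * u * y⁻¹ * (y * u * y⁻¹) = y * (u * u) * y⁻¹ by group, conj_eq_one_iff, ne_eq,
    conj_eq_one_iff, ne_eq, ne_eq, conj_eq_neg_one_iff]

/-- An element of odd order does not send a member of `R` to its negative. -/
theorem conj_ne_neg (h2 : (2 : F) ≠ 0) {y u : G4} {r : ℕ} (hodd : Odd r) (hyr : y ^ r = 1) :
    y * u * y⁻¹ ≠ -u := by
  intro h
  have hk : ∀ k : ℕ, y ^ k * u * (y ^ k)⁻¹ = (-1) ^ k * u := by
    intro k
    induction k with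
    | zero => simp
    | succ k ih =>
      calc y ^ (k + 1) * u * (y ^ (k + 1))⁻¹ = y * (y ^ k * u * (y ^ k)⁻¹) * y⁻¹ := by rw [pow_succ']; group
        _ = (-1) ^ (k + 1) * u := by
          rw [ih, pow_succ]
          rcases neg_one_pow_eq_or (G4) k with e | e <;> rw [e] <;>
            simp [h, mul_neg, neg_mul]
  have h' := hk r
  rw [hyr, hodd.neg_one_pow, one_mul, inv_one, mul_one, neg_one_mul] at h'
  exact ne_neg_self h2 u h'

theorem twirl (h : Minus R) [Fintype R] (M : M4) :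
    ∑ u : R, ((u : G4) : M4) * M * (((u : G4)⁻¹ : G4) : M4) = (8 * M.trace) • (1 : M4) := by
  classical
  set T : M4 := ∑ u : R, ((u : G4) : M4) * M * (((u : G4)⁻¹ : G4) : M4) with hT
  obtain ⟨c, hc⟩ := h.scalar T fun v hv => by
    have e : ((v : M4) * T) * ((v⁻¹ : G4) : M4) = T := by
      rw [hT, Finset.mul_sum, Finset.sum_mul]
      refine Fintype.sum_equiv (Equiv.mulLeft (⟨v, hv⟩ : R)) _ _ fun u => ?_
      simp [_root_.mul_inv_rev, mul_assoc]
    conv_lhs => rw [← e, mul_assoc, Units.inv_mul, mul_one]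
  have htr : T.trace = 32 * M.trace := by
    rw [hT, Matrix.trace_sum]
    simp only [Matrix.trace_mul_cycle, ← Units.val_mul, inv_mul_cancel, Units.val_one, one_mul]
    rw [Finset.sum_const, Finset.card_univ, ← Nat.card_eq_fintype_card, h.card, nsmul_eq_mul]
    norm_num
  rw [hc, Matrix.trace_smul, Matrix.trace_one, smul_eq_mul] at htr
  rw [hc]
  congr 1
  have h4 : (4 : F) ≠ 0 := by
    have := mul_ne_zero h.two_ne h.two_ne
    norm_num at this
    exact this
  apply mul_right_cancel₀ h4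
  simp only [Fintype.card_sum, Fintype.card_fin, Nat.cast_ofNat] at htr
  linear_combination htr

theorem trace_eq_zero (h : Minus R) {u : G4} (hu : u ∈ R) (h1 : u ≠ 1) (h2 : u ≠ -1) :
    (u : M4).trace = 0 := by
  obtain ⟨w, hw, hwu⟩ := h.exists_anti hu h1 h2
  have e : (w : M4) * (u : M4) * ((w⁻¹ : G4) : M4) = -(u : M4) := by
    rw [← Units.val_mul, hwu, Units.val_neg, neg_mul, Units.val_mul, mul_assoc, Units.mul_inv, mul_one]
  have := congrArg Matrix.trace e
  rw [Matrix.trace_mul_cycle, Units.inv_mul, one_mul, Matrix.trace_neg] at this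
  have h' : (2 : F) * (u : M4).trace = 0 := by linear_combination this
  exact (mul_eq_zero.1 h').resolve_left h.two_ne

theorem trace_identity (h : Minus R) {y : G4} (hy : y ∈ Subgroup.normalizer (R : Set G4))
    {r : ℕ} (hodd : Odd r) (hyr : y ^ r = 1) :
    2 * (y : M4).trace * ((y⁻¹ : G4) : M4).trace = (Nat.card {u : R // y * u = u * y} : F) := by
  classical
  haveI := Fintype.ofFinite R
  have key : ∑ u : R, ((y * u * y⁻¹ * (u : G4)⁻¹ : G4) : M4) =
      (8 * ((y⁻¹ : G4) : M4).trace) • (y : M4) := by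
    have e := congrArg (fun M : M4 => (y : M4) * M) (twirl h ((y⁻¹ : G4) : M4))
    simp only [Finset.mul_sum, Matrix.mul_smul, Matrix.mul_one] at e
    rw [← e]
    refine Finset.sum_congr rfl fun u _ => ?_
    simp only [Units.val_mul, mul_assoc]
  have ht := congrArg Matrix.trace key
  rw [Matrix.trace_sum, Matrix.trace_smul, smul_eq_mul] at ht
  have hterm : ∀ u : R, ((y * u * y⁻¹ * (u : G4)⁻¹ : G4) : M4).trace =
      if y * u = (u : G4) * y then (4 : F) else 0 := by
    intro u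
    split_ifs with hc
    · rw [hc, mul_inv_cancel_right, mul_inv_cancel, Units.val_one, Matrix.trace_one]; simp
    · refine trace_eq_zero h (mul_mem (conj_mem hy u.2) (inv_mem u.2)) ?_ ?_
      · intro e
        exact hc (by rw [← mul_inv_eq_iff_eq_mul]; exact mul_inv_eq_one.1 e)
      · intro e
        apply conj_ne_neg h.two_ne (u := (u : G4)) hodd hyr
        have := congrArg (· * (u : G4)) e
        simpa using this
  rw [Finset.sum_congr rfl fun u _ => hterm u, Finset.sum_ite, Finset.sum_const_zero, add_zero,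
    Finset.sum_const, nsmul_eq_mul, ← Fintype.card_subtype, ← Nat.card_eq_fintype_card] at ht
  have h4 : (4 : F) ≠ 0 := by
    have := mul_ne_zero h.two_ne h.two_ne
    norm_num at this
    exact this
  apply mul_right_cancel₀ h4
  linear_combination -ht

theorem scalar_of_fixed (h : Minus R) (s : Frame R) {y : G4} (ha : y * s.a = s.a * y)
    (hb : y * s.b = s.b * y) (hi : y * (s.a * s.b * s.i) = s.a * s.b * s.i * y)
    (hj : y * (s.a * s.b * s.j) = s.a * s.b * s.j * y) : ∃ c : F, (y : M4) = c • 1 := by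
  have hab : Commute y (s.a * s.b) := Commute.mul_right (show Commute y s.a from ha) hb
  have hi' : Commute y s.i := by
    have := (hab.inv_right).mul_right (show Commute y (s.a * s.b * s.i) from hi)
    rwa [inv_mul_cancel_left] at this
  have hj' : Commute y s.j := by
    have := (hab.inv_right).mul_right (show Commute y (s.a * s.b * s.j) from hj)
    rwa [inv_mul_cancel_left] at this
  refine s.commute_all h (y : M4) ?_ ?_ ?_ ?_ <;> rw [← Units.val_mul, ← Units.val_mul]
  exacts [congrArg Units.val ha, congrArg Units.val hb, congrArg Units.val hi'.eq, congrArg Units.val hj'.eq]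

/-- A non-scalar normalising element of odd order moves a non-central involution. -/
theorem exists_moved (h : Minus R) (s : Frame R) {y : G4} (hns : ∀ c : F, (y : M4) ≠ c • 1) :
    ∃ u ∈ R, u * u = 1 ∧ u ≠ 1 ∧ u ≠ -1 ∧ y * u ≠ u * y := by
  by_contra hne
  push Not at hne
  have hw : ∀ e, Frame.qb e = false → e ≠ (false, false, false, false) → y * s.w e = s.w e * y := by
    intro e he he0
    have hne1 : ∀ (e' : Bool × Bool × Bool × Bool × Bool), e'.2 = (false, false, false, false) →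
        s.sw (false, e) ≠ s.sw e' := fun e' h' heq => he0 (by
      have := (s.sw_bijective h).1 (a₁ := (false, e)) (a₂ := e') (Subtype.ext heq)
      rw [← h', ← this])
    refine hne (s.w e) (s.w_mem e) (by rw [s.sq_w, he]; rfl) ?_ ?_
    · simpa [Frame.sw, Frame.w] using hne1 (false, false, false, false, false) rfl
    · simpa [Frame.sw, Frame.w] using hne1 (true, false, false, false, false) rfl
  have h1 := hw (true, false, false, false) rfl (by decide)
  have h2 := hw (false, true, false, false) rfl (by decide)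
  have h3 := hw (true, true, true, false) rfl (by decide)
  have h4 := hw (true, true, false, true) rfl (by decide)
  simp only [Frame.w, ↓reduceIte, Bool.false_eq_true, one_mul, mul_one] at h1 h2 h3 h4
  obtain ⟨c, hc⟩ := scalar_of_fixed h s h1 h2 h3 h4
  exact hns c hc

theorem scalar_of_seven_le (h : Minus R) (s : Frame R) {y : G4}
    (hy : y ∈ Subgroup.normalizer (R : Set G4)) {r : ℕ} [Fact r.Prime] (h7 : 7 ≤ r) (hyr : y ^ r = 1) :
    ∃ c : F, (y : M4) = c • 1 := by
  classical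
  by_contra hne
  push Not at hne
  have hr : r.Prime := Fact.out
  obtain ⟨u, hu, hu2, hu1, hu1', hmove⟩ := exists_moved h s hne
  let P : G4 → Prop := fun u => u * u = 1 ∧ u ≠ 1 ∧ u ≠ -1
  have hm := fixed_modEq hy hyr P (invol_conj y)
  rw [show Nat.card {u : R // P u} = 10 from s.card_invol h] at hm
  haveI := Fintype.ofFinite {u : R // P u ∧ y * u = u * y}
  have hlt : Nat.card {u : R // P u ∧ y * u = u * y} < 10 := by
    rw [← s.card_invol h]
    haveI := Fintype.ofFinite {u : R // P u}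
    rw [Nat.card_eq_fintype_card]
    show _ < Nat.card {u : R // P u}
    rw [Nat.card_eq_fintype_card]
    exact Fintype.card_lt_of_injective_of_notMem (fun u => (⟨u.1, u.2.1⟩ : {u : R // P u}))
      (fun a b e => Subtype.ext (congrArg (fun z : {u : R // P u} => z.1) e))
      (b := ⟨⟨u, hu⟩, hu2, hu1, hu1'⟩) (by
        rintro ⟨w, hw⟩
        have : (w.1 : G4) = u := congrArg (fun z : {u : R // P u} => (z.1 : G4)) hw
        exact hmove (this ▸ w.2.2))
  -- the fixed involutions come in pairs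
  have heven : 2 ∣ Nat.card {u : R // P u ∧ y * u = u * y} := by
    let f : {u : R // P u ∧ y * u = u * y} → {u : R // P u ∧ y * u = u * y} := fun u =>
      ⟨⟨-(u.1 : G4), h.neg_mem u.1.2⟩, ⟨by rw [neg_mul_neg]; exact u.2.1.1,
        fun e => u.2.1.2.2 (by rw [← neg_neg (u.1 : G4)]; exact congrArg Neg.neg e),
        fun e => u.2.1.2.1 (neg_injective e)⟩, by
          show y * -(u.1 : G4) = -(u.1 : G4) * y
          rw [mul_neg, neg_mul, u.2.2]⟩
    have hff : Function.Involutive f := fun u => Subtype.ext (Subtype.ext (neg_neg _))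
    have := Equiv.Perm.card_compl_support_modEq (p := 2) (n := 1) (σ := hff.toPerm) (by
      ext u : 1
      rw [pow_one, sq, Equiv.Perm.mul_apply]
      exact hff u)
    rw [show hff.toPerm.supportᶜ = ∅ by
      ext u
      simp only [Finset.mem_compl, Equiv.Perm.mem_support, not_not, Finset.notMem_empty, iff_false]
      intro e
      have e' : -(u.1 : G4) = u.1 := congrArg (fun z : {u : R // P u ∧ y * u = u * y} => (z.1 : G4)) e
      exact ne_neg_self h.two_ne _ e'.symm, Finset.card_empty] at this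
    rw [Nat.card_eq_fintype_card]
    exact (Nat.modEq_zero_iff_dvd).1 this.symm
  set k := Nat.card {u : R // P u ∧ y * u = u * y}
  rcases Nat.lt_or_ge r 11 with hr11 | hr11
  · have : r = 7 := by
      interval_cases r <;> first | rfl | exact absurd hr (by norm_num)
    subst this
    unfold Nat.ModEq at hm
    omega
  · rw [Nat.ModEq, Nat.mod_eq_of_lt (by omega), Nat.mod_eq_of_lt (by omega)] at hm
    omega

theorem card_fixed (h : Minus R) (s : Frame R) {y : G4}
    (hy : y ∈ Subgroup.normalizer (R : Set G4)) {r : ℕ} [Fact r.Prime] (hyr : y ^ r = 1)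
    (hns : ∀ c : F, (y : M4) ≠ c • 1) :
    (r = 3 → Nat.card {u : R // y * u = u * y} = 8) ∧ (r = 5 → Nat.card {u : R // y * u = u * y} = 2) := by
  classical
  let C : Subgroup R := (Subgroup.centralizer ({y} : Set G4)).subgroupOf R
  have hC : Nat.card C = Nat.card {u : R // y * u = u * y} :=
    Nat.card_congr (Equiv.subtypeEquivRight fun u => by
      rw [Subgroup.mem_subgroupOf, Subgroup.mem_centralizer_singleton_iff, eq_comm])
  have hdvd : Nat.card C ∣ 32 := h.card ▸ C.card_subgroup_dvd_card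
  have hne : Nat.card C ≠ 32 := by
    intro e
    have : C = ⊤ := Subgroup.eq_top_of_card_eq C (by rw [e, h.card])
    have hc : ∀ u ∈ R, y * u = u * y := fun u hu => by
      have : (⟨u, hu⟩ : R) ∈ C := this ▸ Subgroup.mem_top _
      rw [Subgroup.mem_subgroupOf, Subgroup.mem_centralizer_singleton_iff] at this
      exact this.symm
    obtain ⟨c, hc'⟩ := h.scalar (y : M4) fun u hu => congrArg Units.val (hc u hu)
    exact hns c hc'
  have hall := fixed_modEq hy hyr (fun _ => True) (fun _ => Iff.rfl)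
  rw [Nat.card_congr (Equiv.subtypeEquivRight fun u : R => (by simp : (True ∧ y * u = u * y) ↔ y * (u : G4) = u * y)),
    Nat.card_congr (Equiv.subtypeUnivEquiv fun _ => trivial), h.card, ← hC] at hall
  obtain ⟨k, hk, hk'⟩ := (Nat.dvd_prime_pow Nat.prime_two (m := 5)).1 hdvd
  rw [← hC, hk']
  rw [hk'] at hne hall hC
  refine ⟨?_, ?_⟩ <;> rintro rfl <;> interval_cases k <;>
    first | rfl | (exfalso; revert hall; decide) | (exfalso; refine hne ?_; norm_num; done) | skip
  -- an element of order three fixes a non-central involution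
  let P : G4 → Prop := fun u => u * u = 1 ∧ u ≠ 1 ∧ u ≠ -1
  have hm := fixed_modEq hy hyr P (invol_conj y)
  rw [show Nat.card {u : R // P u} = 10 from s.card_invol h] at hm
  haveI : Nonempty {u : R // P u ∧ y * u = u * y} := by
    by_contra he
    rw [not_nonempty_iff] at he
    rw [Nat.card_of_isEmpty] at hm
    exact absurd hm (by decide)
  obtain ⟨u, ⟨hu2, hu1, hu1'⟩, huy⟩ := this
  haveI := Fintype.ofFinite {u : R // y * u = u * y}
  rw [Nat.card_eq_fintype_card] at hC
  have h3 : 3 ≤ Fintype.card {u : R // y * u = u * y} := by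
    let m : Fin 3 → {u : R // y * u = u * y} :=
      ![⟨1, by simp⟩, ⟨⟨-1, h.neg_one_mem⟩, by simp⟩, ⟨u, huy⟩]
    have hm' : Function.Injective m := by
      intro i j hij
      have h' := congrArg (fun w : {u : R // y * u = u * y} => (w.1 : G4)) hij
      fin_cases i <;> fin_cases j <;>
        simp [m, neg_one_ne h.two_ne, (neg_one_ne h.two_ne).symm, hu1, hu1', Ne.symm hu1, Ne.symm hu1'] at h' ⊢
    simpa using Fintype.card_le_of_injective m hm'
  omega

/-- A transvection cannot normalise `R`. -/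
theorem no_transvection (h : Minus R) (s : Frame R) {r : ℕ} [Fact r.Prime] (hr2 : r ≠ 2) {x g : G4}
    (hx : ∀ v : V4, v e₁ = 0 → (x : M4) *ᵥ v = v) (hxr : x ^ r = 1) (hns : ∀ c : F, (x : M4) ≠ c • 1)
    (hy : g⁻¹ * x * g ∈ Subgroup.normalizer (R : Set G4)) : False := by
  classical
  set y := g⁻¹ * x * g with hydef
  have hyr : y ^ r = 1 := by
    rw [hydef, show g⁻¹ * x * g = g⁻¹ * x * g⁻¹⁻¹ by rw [inv_inv], conj_pow, hxr]; simp
  have hyns : ∀ c : F, (y : M4) ≠ c • 1 := by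
    intro c hc
    apply hns c
    have : x = g * y * g⁻¹ := by rw [hydef]; group
    rw [this, Units.val_mul, Units.val_mul, hc, Matrix.mul_smul, mul_one, Matrix.smul_mul, Units.mul_inv]
  obtain ⟨a, ha, ha2, ha1, ha1', hmove⟩ := exists_moved h s hyns
  set γ := y * a * y⁻¹ with hγ
  have hγR : γ ∈ R := conj_mem hy ha
  obtain ⟨hγ2, hγ1, hγ1'⟩ := (invol_conj y a).2 ⟨ha2, ha1, ha1'⟩
  have hodd : Odd r := (Fact.out : r.Prime).odd_of_ne_two hr2
  have hanti : γ * a = -(a * γ) := by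
    refine (h.comm γ hγR a ha).resolve_left fun e => ?_
    rcases h.minus a ha γ hγR ha2 hγ2 e.symm with e' | e' | e' | e' | e' | e'
    · exact ha1 e'
    · exact ha1' e'
    · exact hγ1 e'
    · exact hγ1' e'
    · exact hmove (mul_inv_eq_iff_eq_mul.1 e')
    · exact conj_ne_neg h.two_ne hodd hyr e'
  have hsq : γ * a * (γ * a) = -1 := by
    conv_lhs => arg 1; rw [hanti]
    rw [neg_mul, mul_assoc, ← mul_assoc γ γ, hγ2, one_mul, ha2]
  -- a common fixed vector
  let φ : V4 →ₗ[F] F × F :=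
    ((LinearMap.proj e₁).comp (g : M4).mulVecLin).prod
      ((LinearMap.proj e₁).comp (((g * a : G4) : M4)).mulVecLin)
  have hker : LinearMap.ker φ ≠ ⊥ := LinearMap.ker_ne_bot_of_finrank_lt (by simp)
  obtain ⟨v, hv, hv0⟩ := Submodule.exists_mem_ne_zero_of_ne_bot hker
  rw [LinearMap.mem_ker] at hv
  have hv1 : ((g : M4) *ᵥ v) e₁ = 0 := congrArg Prod.fst hv
  have hv2 : (((g * a : G4) : M4) *ᵥ v) e₁ = 0 := congrArg Prod.snd hv
  have hfix : ∀ w : V4, ((g : M4) *ᵥ w) e₁ = 0 → (y : M4) *ᵥ w = w := by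
    intro w hw
    rw [hydef, Units.val_mul, Units.val_mul, ← Matrix.mulVec_mulVec, ← Matrix.mulVec_mulVec, hx _ hw,
      Matrix.mulVec_mulVec, Units.inv_mul, Matrix.one_mulVec]
  have hA : (y : M4) *ᵥ v = v := hfix v hv1
  have hB : (y : M4) *ᵥ ((a : M4) *ᵥ v) = (a : M4) *ᵥ v := hfix _ (by
    rw [Matrix.mulVec_mulVec, ← Units.val_mul]; exact hv2)
  have hAi : ∀ w : V4, (y : M4) *ᵥ w = w → ((y⁻¹ : G4) : M4) *ᵥ w = w := fun w hw => by
    conv_lhs => rw [← hw]
    rw [Matrix.mulVec_mulVec, Units.inv_mul, Matrix.one_mulVec]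
  have hγv : ((γ * a : G4) : M4) *ᵥ v = v := by
    rw [hγ, Units.val_mul, Units.val_mul, Units.val_mul, ← Matrix.mulVec_mulVec, ← Matrix.mulVec_mulVec,
      hAi _ hB, ← Matrix.mulVec_mulVec, Matrix.mulVec_mulVec v (a : M4) (a : M4), ← Units.val_mul, ha2,
      Units.val_one, Matrix.one_mulVec, hA]
  have h' := congrArg (fun M : M4 => M *ᵥ v) (congrArg Units.val hsq)
  simp only [Units.val_mul, Units.val_neg, Units.val_one, Matrix.neg_mulVec, Matrix.one_mulVec,
    ← Matrix.mulVec_mulVec] at h'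
  rw [Units.val_mul, ← Matrix.mulVec_mulVec] at hγv
  rw [hγv, hγv] at h'
  apply hv0
  funext k
  have hk := congrFun h' k
  simp only [Pi.neg_apply] at hk
  have : (2 : F) * v k = 0 := by linear_combination hk
  exact (mul_eq_zero.1 this).resolve_left h.two_ne

theorem trace_conj_test (h : Minus R) (s : Frame R) {r : ℕ} [Fact r.Prime] (h35 : r = 3 ∨ r = 5)
    {A : Matrix (Fin 2) (Fin 2) F} (hA : A.det = 1) (hAr : A ^ r = 1) (hA1 : A ≠ 1) {g : G4}
    (hy : g⁻¹ * embGL A hA * g ∈ Subgroup.normalizer (R : Set G4)) :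
    (r = 3 → (A.trace + 2) * (A.trace + 2) = 4) ∧ (r = 5 → (A.trace + 2) * (A.trace + 2) = 1) := by
  set y := g⁻¹ * embGL A hA * g with hydef
  have hyr : y ^ r = 1 := by
    rw [hydef, show g⁻¹ * embGL A hA * g = g⁻¹ * embGL A hA * g⁻¹⁻¹ by rw [inv_inv], conj_pow,
      show embGL A hA ^ r = 1 from Units.ext (by rw [embGL_pow, hAr, emb_one]; rfl)]
    simp
  have hns : ∀ c : F, (y : M4) ≠ c • 1 := by
    intro c hc
    apply embGL_not_scalar A hA hA1 c
    have : embGL A hA = g * y * g⁻¹ := by rw [hydef]; group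
    rw [this, Units.val_mul, Units.val_mul, hc, Matrix.mul_smul, mul_one, Matrix.smul_mul, Units.mul_inv]
  have hodd : Odd r := by rcases h35 with rfl | rfl <;> decide
  have ht := trace_identity h hy hodd hyr
  have e1 : (y : M4).trace = A.trace + 2 := by
    rw [hydef, Units.val_mul, Units.val_mul, Matrix.trace_mul_cycle, Units.mul_inv, one_mul]
    exact emb_trace A
  have e2 : ((y⁻¹ : G4) : M4).trace = A.trace + 2 := by
    rw [hydef, _root_.mul_inv_rev, _root_.mul_inv_rev, inv_inv, ← mul_assoc, Units.val_mul, Units.val_mul,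
      Matrix.trace_mul_cycle, Units.mul_inv, one_mul]
    show (emb A.adjugate).trace = _
    rw [emb_trace, Matrix.adjugate_fin_two, Matrix.trace_fin_two, Matrix.trace_fin_two]
    simp [add_comm]
  rw [e1, e2] at ht
  obtain ⟨c3, c5⟩ := card_fixed h s hy hyr hns
  constructor
  · intro e; rw [c3 e] at ht
    apply mul_left_cancel₀ h.two_ne
    push_cast at ht
    linear_combination ht
  · intro e; rw [c5 e] at ht
    apply mul_left_cancel₀ h.two_ne
    push_cast at ht
    linear_combination ht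

theorem five_trace {A : Matrix (Fin 2) (Fin 2) F} (hA : A.det = 1) (hA5 : A ^ 5 = 1) (hA1 : A ≠ 1)
    (ht : (A.trace + 2) * (A.trace + 2) = 1) : (5 : F) = 0 := by
  set t := A.trace with htdef
  have hA2 : A * A = t • A - 1 := by
    rw [Matrix.det_fin_two] at hA
    ext i j
    fin_cases i <;> fin_cases j <;>
      simp [htdef, Matrix.mul_apply, Fin.sum_univ_two, Matrix.trace_fin_two] <;>
      first | linear_combination hA | linear_combination -hA | ring
  have h5 : (t ^ 4 - 3 * t ^ 2 + 1) • A - (t ^ 3 - 2 * t) • (1 : Matrix (Fin 2) (Fin 2) F) = 1 := by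
    have h3 : A * A * A = (t ^ 2 - 1) • A - t • (1 : Matrix (Fin 2) (Fin 2) F) := by
      rw [hA2, Matrix.sub_mul, Matrix.smul_mul, hA2, one_mul]
      module
    refine Eq.trans ?_ hA5
    rw [show A ^ 5 = A * A * A * (A * A) by simp only [pow_succ, pow_zero, one_mul, mul_assoc], h3, hA2]
    simp only [Matrix.sub_mul, Matrix.mul_sub, Matrix.smul_mul, Matrix.mul_smul, one_mul, mul_one, hA2]
    module
  by_cases hc : t ^ 4 - 3 * t ^ 2 + 1 = 0
  · rw [hc, zero_smul, zero_sub] at h5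
    have h00 := congrFun (congrFun h5 0) 0
    simp at h00
    rcases mul_self_eq_one_iff.1 ht with e | e
    · have : t = -1 := by linear_combination e
      rw [this] at hc
      norm_num at hc
    · have : t = -3 := by linear_combination e
      rw [this] at hc h00
      norm_num at hc h00
      linear_combination 3 * h00 - hc
  · exfalso
    set c := t ^ 4 - 3 * t ^ 2 + 1
    set d := (1 + (t ^ 3 - 2 * t)) / c
    have hAd : A = d • (1 : Matrix (Fin 2) (Fin 2) F) := by
      apply smul_right_injective _ hc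
      show c • A = c • (d • (1 : Matrix (Fin 2) (Fin 2) F))
      rw [smul_smul, mul_div_cancel₀ _ hc, sub_eq_iff_eq_add.1 h5, add_smul, one_smul]
    rw [hAd] at hA hA5 hA1
    rw [Matrix.det_smul, Matrix.det_one, Fintype.card_fin, mul_one] at hA
    apply hA1
    rw [smul_pow, one_pow, show d ^ 5 = (d ^ 2) ^ 2 * d by ring, hA, one_pow, one_mul] at hA5
    exact hA5

theorem zmod_five : ∀ x : ZMod 5, x ≠ 0 → x ^ 2 = 1 ∨ (x ^ 4 = 1 ∧ x ^ 2 ≠ 1) := by decide

theorem exists_order_five [Fintype F] {p : ℕ} [Fact p.Prime] (hF : Fintype.card F = p) (hp5 : p ≠ 5)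
    (hord : orderOf (p : ZMod 5) ≠ 4) :
    ∃ A : Matrix (Fin 2) (Fin 2) F, A.det = 1 ∧ A ^ 5 = 1 ∧ A ≠ 1 := by
  classical
  haveI : Fact (Nat.Prime 5) := ⟨Nat.prime_five⟩
  have hp : p.Prime := Fact.out
  have hp1 := hp.one_le
  have hun : Nat.card Fˣ = p - 1 := by rw [Nat.card_units, Nat.card_eq_fintype_card, hF]
  by_cases h1 : 5 ∣ p - 1
  · obtain ⟨u, hu⟩ := exists_prime_orderOf_dvd_card' (G := Fˣ) 5 (by rw [hun]; exact h1)
    have hu5 : (u : F) ^ 5 = 1 := by rw [← Units.val_pow_eq_pow_val, ← hu, pow_orderOf_eq_one, Units.val_one]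
    refine ⟨Matrix.diagonal ![(u : F), (u : F) ^ 4], ?_, ?_, ?_⟩
    · rw [Matrix.det_diagonal, Fin.prod_univ_two]; simp [← pow_succ', hu5]
    · rw [Matrix.diagonal_pow, ← Matrix.diagonal_one]
      congr 1
      funext i; fin_cases i <;> simp [hu5, ← pow_mul]
      rw [show (20 : ℕ) = 5 * 4 from rfl, pow_mul, hu5, one_pow]
    · intro e
      have := congrFun (congrFun e 0) 0
      simp at this
      rw [orderOf_eq_one_iff.2 this] at hu
      norm_num at hu
  · have hsq : 5 ∣ p ^ 2 - 1 := by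
      have key : ∀ x : ZMod 5, x ≠ 0 → x ^ 2 = 1 ∨ (x ^ 4 = 1 ∧ x ^ 2 ≠ 1) := zmod_five
      have hx0 : (p : ZMod 5) ≠ 0 := by
        rw [Ne, ZMod.natCast_eq_zero_iff]
        exact fun e => hp5 ((Nat.prime_dvd_prime_iff_eq Nat.prime_five hp).1 e).symm
      rcases key _ hx0 with e | ⟨e4, e2⟩
      · rw [← ZMod.natCast_eq_zero_iff, Nat.cast_sub (Nat.one_le_pow _ _ hp1)]
        push_cast; rw [e, sub_self]
      · exfalso
        apply hord
        haveI := Fact.mk Nat.prime_two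
        exact orderOf_eq_prime_pow (p := 2) (n := 1) (by simpa using e2) (by simpa using e4)
    have hdvd : 5 ∣ Nat.card (GL (Fin 2) F) := by
      rw [Matrix.card_GL_field, Fin.prod_univ_two]
      simp only [hF, Fintype.card_fin]
      exact dvd_mul_of_dvd_left (by simpa using hsq) _
    obtain ⟨x, hx⟩ := exists_prime_orderOf_dvd_card' (G := GL (Fin 2) F) 5 hdvd
    have hx5 : x ^ 5 = 1 := by rw [← hx]; exact pow_orderOf_eq_one x
    refine ⟨(x : Matrix (Fin 2) (Fin 2) F), ?_, ?_, ?_⟩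
    · have hd : orderOf (Matrix.GeneralLinearGroup.det x) ∣ 5 :=
        orderOf_dvd_of_pow_eq_one (by rw [← map_pow, hx5, map_one])
      rcases (Nat.dvd_prime Nat.prime_five).1 hd with e | e
      · rw [orderOf_eq_one_iff] at e
        rw [← Matrix.GeneralLinearGroup.val_det_apply, e, Units.val_one]
      · exact absurd (by rw [← e, ← hun]; exact orderOf_dvd_natCard _) h1
    · rw [← Units.val_pow_eq_pow_val, hx5, Units.val_one]
    · intro e
      rw [show x = 1 from Units.ext e, orderOf_one] at hx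
      norm_num at hx

/-- Which odd primes `r` leave every element fixed. -/
theorem odd_case [Fintype F] {p : ℕ} [Fact p.Prime] [CharP F p] (hF : Fintype.card F = p)
    (h : Minus R) (s : Frame R) {r : ℕ} [Fact r.Prime] (hr2 : r ≠ 2)
    (hr5 : r = 5 → orderOf (p : ZMod 5) ≠ 4) (hdvd : r ∣ Nat.card (Cfsg.spGL 2 F))
    (H : ∀ x ∈ Cfsg.spGL 2 F, x ^ r = 1 → (∀ z : F, (x : M4) ≠ z • (1 : M4)) →
      ∃ g ∈ Cfsg.spGL 2 F, g⁻¹ * x * g ∈ Subgroup.normalizer (R : Set G4)) : False := by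
  classical
  have hr : r.Prime := Fact.out
  have hodd : Odd r := hr.odd_of_ne_two hr2
  rcases Nat.lt_or_ge r 7 with h7 | h7
  · have h35 : r = 3 ∨ r = 5 := by
      have := hr.two_le
      interval_cases r <;> first | omega | exact absurd hr (by norm_num)
    by_cases hrp : r = p
    · subst hrp
      let T : Matrix (Fin 2) (Fin 2) F := !![1, 1; 0, 1]
      have hT : T.det = 1 := by simp [T, Matrix.det_fin_two]
      have hTn : ∀ n : ℕ, T ^ n = !![1, (n : F); 0, 1] := by
        intro n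
        induction n with
        | zero => simp [Matrix.one_fin_two]
        | succ n ih =>
          rw [pow_succ, ih]
          ext i j; fin_cases i <;> fin_cases j <;> simp [T, Matrix.mul_apply, Fin.sum_univ_two, add_comm]
      have hTr : T ^ r = 1 := by rw [hTn, CharP.cast_eq_zero]; exact Matrix.one_fin_two.symm
      have hT1 : T ≠ 1 := fun e => by simpa [T] using congrFun (congrFun e 0) 1
      have hxr : embGL T hT ^ r = 1 := Units.ext (by rw [embGL_pow, hTr, emb_one]; rfl)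
      obtain ⟨g, -, hg⟩ := H _ (embGL_sp T hT) hxr (embGL_not_scalar T hT hT1)
      refine no_transvection h s hr2 (fun v hv => ?_) hxr (embGL_not_scalar T hT hT1) hg
      funext k
      show (emb T *ᵥ v) k = v k
      rcases k with k | k <;> fin_cases k <;>
        simp [emb, T, Matrix.mulVec, dotProduct, Fintype.sum_sum_type, Fin.sum_univ_two, Matrix.diagonal] <;>
        exact hv
    · have hex : ∃ A : Matrix (Fin 2) (Fin 2) F, A.det = 1 ∧ A ^ r = 1 ∧ A ≠ 1 ∧ (r = 3 → A.trace = -1) := by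
        rcases h35 with rfl | rfl
        · refine ⟨!![0, -1; 1, -1], by simp [Matrix.det_fin_two], ?_, ?_, fun _ => by simp [Matrix.trace_fin_two]⟩
          · ext i j; fin_cases i <;> fin_cases j <;> simp [pow_succ, Matrix.mul_apply, Fin.sum_univ_two]
          · intro e; simpa using congrFun (congrFun e 0) 0
        · obtain ⟨A, a1, a2, a3⟩ := exists_order_five hF (fun e => hrp e.symm) (hr5 rfl)
          exact ⟨A, a1, a2, a3, fun e => absurd e (by norm_num)⟩
      obtain ⟨A, hA, hAr, hA1, htr⟩ := hex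
      have hxr : embGL A hA ^ r = 1 := Units.ext (by rw [embGL_pow, hAr, emb_one]; rfl)
      obtain ⟨g, -, hg⟩ := H _ (embGL_sp A hA) hxr (embGL_not_scalar A hA hA1)
      obtain ⟨t3, t5⟩ := trace_conj_test h s h35 hA hAr hA1 hg
      have hzero : ((r : ℕ) : F) = 0 := by
        rcases h35 with rfl | rfl
        · have := t3 rfl
          rw [htr rfl] at this
          push_cast
          linear_combination -this
        · exact_mod_cast five_trace hA hAr hA1 (t5 rfl)
      rw [CharP.cast_eq_zero_iff F p] at hzero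
      exact hrp ((Nat.prime_dvd_prime_iff_eq Fact.out hr).1 hzero).symm
  · obtain ⟨x, hx⟩ := exists_prime_orderOf_dvd_card' (G := Cfsg.spGL 2 F) r hdvd
    have hxr : (x : G4) ^ r = 1 := by
      rw [← Subgroup.coe_pow, ← hx, pow_orderOf_eq_one]; rfl
    have hns : ∀ z : F, ((x : G4) : M4) ≠ z • (1 : M4) := by
      intro z hz
      have hz2 := (scalar_sp hz).1 x.2
      have hx2 : x ^ 2 = 1 := Subtype.ext (Units.ext (by
        rw [Subgroup.coe_pow, Units.val_pow_eq_pow_val, hz, smul_pow, one_pow, _root_.sq, hz2, one_smul]; rfl))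
      have := Nat.le_of_dvd two_pos (hx ▸ orderOf_dvd_of_pow_eq_one hx2)
      omega
    obtain ⟨g, -, hg⟩ := H _ x.2 hxr hns
    have hyr : (g⁻¹ * (x : G4) * g) ^ r = 1 := by
      rw [show g⁻¹ * (x : G4) * g = g⁻¹ * (x : G4) * g⁻¹⁻¹ by rw [inv_inv], conj_pow, hxr]; simp
    obtain ⟨c, hc⟩ := scalar_of_seven_le h s hg h7 hyr
    apply hns c
    have : (x : G4) = g * (g⁻¹ * x * g) * g⁻¹ := by group
    rw [this, Units.val_mul, Units.val_mul g, hc, Matrix.mul_smul, mul_one, Matrix.smul_mul, Units.mul_inv]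

end normal

/-! ### Involutions modulo scalars -/

section two

variable [Fintype F]

theorem dot_J (u w : V4) : u ⬝ᵥ (Jm *ᵥ w) = -(w ⬝ᵥ (Jm *ᵥ u)) := by
  simp [Matrix.J, Matrix.mulVec, dotProduct, Fintype.sum_sum_type, Fin.sum_univ_two]
  ring

theorem J_ll (i j : Fin 2) : Jm (Sum.inl i) (Sum.inl j) = 0 := by simp [Matrix.J]
theorem J_lr (i j : Fin 2) : Jm (Sum.inl i) (Sum.inr j) = if i = j then -1 else 0 := by
  fin_cases i <;> fin_cases j <;> simp [Matrix.J]
theorem J_rl (i j : Fin 2) : Jm (Sum.inr i) (Sum.inl j) = if i = j then 1 else 0 := by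
  fin_cases i <;> fin_cases j <;> simp [Matrix.J]
theorem J_rr (i j : Fin 2) : Jm (Sum.inr i) (Sum.inr j) = 0 := by simp [Matrix.J]

theorem dot_J_self (u : V4) : u ⬝ᵥ (Jm *ᵥ u) = 0 := by
  simp [Matrix.J, Matrix.mulVec, dotProduct, Fintype.sum_sum_type, Fin.sum_univ_two]
  ring

theorem conj_of_frame {x : G4} (X0 : M4) (v : Fin 2 ⊕ Fin 2 → V4)
    (hgram : ∀ k l, v k ⬝ᵥ (Jm *ᵥ v l) = Jm k l)
    (hxv : ∀ l, (x : M4) *ᵥ v l = ∑ k, X0 k l • v k) :
    ∃ P : G4, P ∈ Cfsg.spGL 2 F ∧ (x : M4) * (P : M4) = (P : M4) * X0 := by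
  classical
  set P : M4 := Matrix.of fun i k => v k i with hPdef
  have hP : Pᵀ * Jm * P = Jm := by
    ext k l
    rw [← hgram k l, Matrix.mul_assoc]
    simp [hPdef, Matrix.mul_apply, Matrix.mulVec, dotProduct, Matrix.transpose]
  have hdet : IsUnit P.det := by
    have := congrArg Matrix.det hP
    rw [Matrix.det_mul, Matrix.det_mul, Matrix.det_transpose] at this
    have hJ : IsUnit (Jm).det := Matrix.isUnit_det_J (Fin 2) F
    refine isUnit_iff_ne_zero.2 fun e => hJ.ne_zero ?_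
    rw [← this, e, mul_zero]
  refine ⟨Matrix.nonsingInvUnit P hdet, mem_sp.2 hP, ?_⟩
  show (x : M4) * P = P * X0
  ext i l
  have := congrFun (hxv l) i
  simp only [Matrix.mulVec, dotProduct, Finset.sum_apply, Pi.smul_apply, smul_eq_mul] at this
  simp only [Matrix.mul_apply, hPdef, Matrix.of_apply]
  rw [this]
  exact Finset.sum_congr rfl fun k _ => mul_comm _ _

theorem symp_apply {x : G4} (hx : x ∈ Cfsg.spGL 2 F) (u w : V4) :
    ((x : M4) *ᵥ u) ⬝ᵥ (Jm *ᵥ ((x : M4) *ᵥ w)) = u ⬝ᵥ (Jm *ᵥ w) := hx u w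

theorem frame_plus (h2 : (2 : F) ≠ 0) {x : G4} (hx : x ∈ Cfsg.spGL 2 F) (hx2 : (x : M4) * x = 1)
    (hns : ∀ z : F, (x : M4) ≠ z • 1) :
    ∃ P : G4, P ∈ Cfsg.spGL 2 F ∧ (x : M4) * (P : M4) =
      (P : M4) * Matrix.diagonal (Sum.elim ![(1 : F), -1] ![1, -1]) := by
  classical
  have hxx : ∀ u : V4, (x : M4) *ᵥ ((x : M4) *ᵥ u) = u := fun u => by
    rw [Matrix.mulVec_mulVec, hx2, Matrix.one_mulVec]
  have orth : ∀ u w : V4, (x : M4) *ᵥ u = u → (x : M4) *ᵥ w = -w → u ⬝ᵥ (Jm *ᵥ w) = 0 := by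
    intro u w hu hw
    have := symp_apply hx u w
    rw [hu, hw, Matrix.mulVec_neg, dotProduct_neg] at this
    have h' : (2 : F) * (u ⬝ᵥ (Jm *ᵥ w)) = 0 := by linear_combination -this
    exact (mul_eq_zero.1 h').resolve_left h2
  have pair : ∀ ε : F, ε = 1 ∨ ε = -1 → ∃ u w : V4, (x : M4) *ᵥ u = ε • u ∧ (x : M4) *ᵥ w = ε • w ∧
      u ⬝ᵥ (Jm *ᵥ w) = -1 := by
    intro ε hε
    have hεε : ε * ε = 1 := by rcases hε with rfl | rfl <;> simp
    obtain ⟨v0, hv0⟩ : ∃ v0 : V4, v0 + ε • ((x : M4) *ᵥ v0) ≠ 0 := by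
      by_contra hne
      push Not at hne
      apply hns (-ε)
      refine Matrix.toLin'.injective (LinearMap.ext fun v => ?_)
      rw [Matrix.toLin'_apply, Matrix.toLin'_apply, Matrix.smul_mulVec, Matrix.one_mulVec]
      have h' := congrArg (fun w => ε • w) (hne v)
      simp only [smul_add, smul_smul, hεε, one_smul, smul_zero] at h'
      rw [neg_smul]
      exact eq_neg_of_add_eq_zero_right h'
    set u := v0 + ε • ((x : M4) *ᵥ v0) with hu
    have hproj : ∀ v : V4, (x : M4) *ᵥ (v + ε • ((x : M4) *ᵥ v)) = ε • (v + ε • ((x : M4) *ᵥ v)) := fun v => by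
      rw [Matrix.mulVec_add, Matrix.mulVec_smul, hxx, smul_add, smul_smul, hεε, one_smul, add_comm]
    obtain ⟨w0, hw0⟩ : ∃ w0 : V4, u ⬝ᵥ (Jm *ᵥ w0) ≠ 0 := by
      by_contra hne; push Not at hne
      apply hv0
      funext k
      have := hne (Jm *ᵥ Pi.single k 1)
      rw [Matrix.mulVec_mulVec, Matrix.J_squared, Matrix.neg_mulVec, Matrix.one_mulVec, dotProduct_neg,
        dotProduct_single_one, neg_eq_zero] at this
      exact this
    set w1 := w0 + ε • ((x : M4) *ᵥ w0) with hw1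
    have hc : u ⬝ᵥ (Jm *ᵥ w1) = 2 * (u ⬝ᵥ (Jm *ᵥ w0)) := by
      have := symp_apply hx u w0
      rw [hproj v0, smul_dotProduct, smul_eq_mul] at this
      rw [hw1, Matrix.mulVec_add, Matrix.mulVec_smul, dotProduct_add, dotProduct_smul, smul_eq_mul, this]
      ring
    refine ⟨u, (-(u ⬝ᵥ (Jm *ᵥ w1))⁻¹) • w1, hproj v0, ?_, ?_⟩
    · rw [Matrix.mulVec_smul, hproj w0, smul_comm]
    · rw [Matrix.mulVec_smul, dotProduct_smul, smul_eq_mul, neg_mul, inv_mul_cancel₀]
      rw [hc]; exact mul_ne_zero h2 hw0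
  obtain ⟨u, w, hu, hw, huw⟩ := pair 1 (Or.inl rfl)
  obtain ⟨u', w', hu', hw', huw'⟩ := pair (-1) (Or.inr rfl)
  rw [one_smul] at hu hw
  rw [neg_one_smul] at hu' hw'
  refine conj_of_frame _ (Sum.elim ![u, u'] ![w, w']) ?_ ?_
  · have hwu : w ⬝ᵥ (Jm *ᵥ u) = 1 := by rw [dot_J, huw, neg_neg]
    have hwu' : w' ⬝ᵥ (Jm *ᵥ u') = 1 := by rw [dot_J, huw', neg_neg]
    have orth' : ∀ a b : V4, (x : M4) *ᵥ a = -a → (x : M4) *ᵥ b = b → a ⬝ᵥ (Jm *ᵥ b) = 0 := fun a b ha hb => by
      rw [dot_J, orth b a hb ha, neg_zero]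
    rintro (k | k) (l | l) <;> fin_cases k <;> fin_cases l <;>
      simp [J_ll, J_lr, J_rl, J_rr, dot_J_self, huw, huw', hwu, hwu', orth _ _ hu hu', orth _ _ hu hw', orth _ _ hw hu',
        orth _ _ hw hw', orth' _ _ hu' hu, orth' _ _ hu' hw, orth' _ _ hw' hu, orth' _ _ hw' hw]
  · rintro (l | l) <;> fin_cases l <;>
      simp [Fintype.sum_sum_type, Fin.sum_univ_two, Matrix.diagonal, hu, hw, hu', hw']

theorem frame_minus (h2 : (2 : F) ≠ 0) {x : G4} (hx : x ∈ Cfsg.spGL 2 F) (hx2 : (x : M4) * x = -1) :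
    ∃ P : G4, P ∈ Cfsg.spGL 2 F ∧ (x : M4) * (P : M4) = (P : M4) * Jm := by
  classical
  let B : V4 → V4 → F := fun u w => u ⬝ᵥ (Jm *ᵥ ((x : M4) *ᵥ w))
  have hxx : ∀ u : V4, (x : M4) *ᵥ ((x : M4) *ᵥ u) = -u := fun u => by
    rw [Matrix.mulVec_mulVec, hx2, Matrix.neg_mulVec, Matrix.one_mulVec]
  have Bsymm : ∀ u w, B u w = B w u := by
    intro u w
    simp only [B]
    rw [← symp_apply hx u _, hxx, Matrix.mulVec_neg, dotProduct_neg, dot_J, neg_neg]
  have Badd : ∀ u w w', B u (w + w') = B u w + B u w' := fun u w w' => by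
    simp [B, Matrix.mulVec_add, dotProduct_add]
  have Bsmul : ∀ (c : F) u w, B u (c • w) = c * B u w := fun c u w => by
    simp [B, Matrix.mulVec_smul, dotProduct_smul]
  have Bnondeg : ∀ u, (∀ w, B u w = 0) → u = 0 := by
    intro u hne
    funext k
    have := hne ((x : M4) *ᵥ (Jm *ᵥ Pi.single k 1))
    simp only [B, hxx, Matrix.mulVec_neg] at this
    simp only [Matrix.mulVec_mulVec, Matrix.J_squared, Matrix.neg_mulVec,
      Matrix.one_mulVec, neg_neg, dotProduct_single_one] at this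
    exact this
  -- anisotropic vectors orthogonal to fewer than four given ones
  have exists_orth : ∀ (n : ℕ), n < 4 → ∀ us : Fin n → V4, (∀ k, B (us k) (us k) ≠ 0) →
      (∀ k l, k ≠ l → B (us k) (us l) = 0) → ∃ w, (∀ k, B (us k) w = 0) ∧ B w w ≠ 0 := by
    intro n hn us h1 h3
    have Bsum : ∀ u (c : Fin n → F), B u (∑ l, c l • us l) = ∑ l, c l * B u (us l) := by
      intro u c
      simp only [B, Matrix.mulVec_sum, dotProduct_sum, Matrix.mulVec_smul, dotProduct_smul, smul_eq_mul]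
    let π : V4 → V4 := fun v => v + ∑ l, (-(B (us l) v) / B (us l) (us l)) • us l
    have hπ : ∀ v k, B (us k) (π v) = 0 := by
      intro v k
      rw [Badd, Bsum, Finset.sum_eq_single k (fun l _ hl => by rw [h3 k l (Ne.symm hl), mul_zero]) (by simp),
        div_mul_cancel₀ _ (h1 k), add_neg_cancel]
    by_contra hne
    push Not at hne
    have hzero : ∀ v, π v = 0 := by
      intro v
      apply Bnondeg
      intro w
      have hB : B (π v) (π w) = 0 := by
        have hpol : ∀ a b, B a a = 0 → B b b = 0 → B (a + b) (a + b) = 0 → B a b = 0 := by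
          intro a b h1' h2' h3'
          rw [Badd, Bsymm (a + b) a, Bsymm (a + b) b, Badd, Badd, h1', h2', Bsymm b a] at h3'
          have h' : (2 : F) * B a b = 0 := by linear_combination h3'
          exact (mul_eq_zero.1 h').resolve_left h2
        exact hpol _ _ (hne _ (hπ v)) (hne _ (hπ w))
          (hne (π v + π w) (fun k => by rw [Badd, hπ, hπ, add_zero]))
      show B (π v) w = 0
      have hsplit : B (π v) (π w) = B (π v) w := by
        show B (π v) (w + _) = _
        rw [Badd, Bsum, Finset.sum_eq_zero fun l _ => by rw [Bsymm (π v) (us l), hπ, mul_zero], add_zero]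
      rw [← hsplit, hB]
    have hspan : Submodule.span F (Set.range us) = ⊤ := by
      rw [eq_top_iff]
      intro v _
      have e : v = -(∑ l, (-(B (us l) v) / B (us l) (us l)) • us l) := eq_neg_of_add_eq_zero_left (hzero v)
      rw [e]
      exact Submodule.neg_mem _ (Submodule.sum_mem _ fun l _ =>
        Submodule.smul_mem _ _ (Submodule.subset_span ⟨l, rfl⟩))
    have := finrank_range_le_card (R := F) us
    rw [Set.finrank, hspan, finrank_top] at this
    simp at this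
    omega
  -- a vector of value `-1` in a regular plane
  have represent : ∀ a b : V4, B a a ≠ 0 → B b b ≠ 0 → B a b = 0 →
      ∃ s t : F, B (s • a + t • b) (s • a + t • b) = -1 := by
    intro a b ha hb hab
    have hodd : Fintype.card F % 2 = 1 := FiniteField.odd_card_of_char_ne_two fun e => h2 (by
      have := ringChar.spec F 2
      simpa using this.2 (e ▸ dvd_rfl))
    obtain ⟨s, t, hst⟩ := FiniteField.exists_root_sum_quadratic
      (f := Polynomial.C (B a a) * Polynomial.X ^ 2 + Polynomial.C 1)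
      (g := Polynomial.C (B b b) * Polynomial.X ^ 2)
      (by
        rw [Polynomial.degree_add_eq_left_of_degree_lt, Polynomial.degree_C_mul_X_pow 2 ha]
        · rfl
        · rw [Polynomial.degree_C_mul_X_pow 2 ha]
          exact lt_of_le_of_lt Polynomial.degree_C_le (by norm_num))
      (by rw [Polynomial.degree_C_mul_X_pow 2 hb]; rfl) hodd
    refine ⟨s, t, ?_⟩
    simp only [Polynomial.eval_add, Polynomial.eval_mul, Polynomial.eval_C, Polynomial.eval_pow,
      Polynomial.eval_X] at hst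
    rw [Badd, Bsmul, Bsmul, Bsymm (s • a + t • b) a, Bsymm (s • a + t • b) b, Badd, Badd, Bsmul, Bsmul, Bsmul,
      Bsmul, hab, Bsymm b a, hab]
    linear_combination hst
  obtain ⟨a, -, ha⟩ := exists_orth 0 (by norm_num) ![] (fun k => k.elim0) (fun k => k.elim0)
  obtain ⟨b, hab, hb⟩ := exists_orth 1 (by norm_num) ![a] (fun k => by fin_cases k; exact ha)
    (fun k l hkl => absurd (Subsingleton.elim k l) hkl)
  obtain ⟨s, t, hu⟩ := represent a b ha hb (hab 0)
  set u := s • a + t • b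
  have huu : B ((x : M4) *ᵥ u) ((x : M4) *ᵥ u) = -1 := by
    simp only [B] at hu ⊢
    rw [symp_apply hx]; exact hu
  have huxu : B u ((x : M4) *ᵥ u) = 0 := by
    simp only [B, hxx, Matrix.mulVec_neg, dotProduct_neg, dot_J_self, neg_zero]
  have hne1 : (-1 : F) ≠ 0 := neg_ne_zero.2 one_ne_zero
  have huxu' : B ((x : M4) *ᵥ u) u = 0 := (Bsymm _ _).trans huxu
  obtain ⟨c, hc, hcc⟩ := exists_orth 2 (by norm_num) ![u, (x : M4) *ᵥ u]
    (fun k => by fin_cases k <;> simp [hu, huu, hne1])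
    (fun k l hkl => by fin_cases k <;> fin_cases l <;> simp [huxu, huxu'] at hkl ⊢)
  obtain ⟨d, hd, hdd⟩ := exists_orth 3 (by norm_num) ![u, (x : M4) *ᵥ u, c]
    (fun k => by fin_cases k <;> simp [hu, huu, hne1, hcc])
    (fun k l hkl => by
      have h1 := hc 0
      have h3 := hc 1
      simp at h1 h3
      have h1' : B c u = 0 := (Bsymm _ _).trans h1
      have h3' : B c ((x : M4) *ᵥ u) = 0 := (Bsymm _ _).trans h3
      fin_cases k <;> fin_cases l <;> simp [huxu, huxu', h1, h3, h1', h3'] at hkl ⊢)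
  obtain ⟨s', t', hw⟩ := represent c d hcc hdd (by simpa using hd 2)
  set w := s' • c + t' • d
  have huw : B u w = 0 ∧ B ((x : M4) *ᵥ u) w = 0 := by
    have h1 := hc 0
    have h3 := hc 1
    have h4 := hd 0
    have h5 := hd 1
    simp at h1 h3 h4 h5
    constructor <;> rw [Badd, Bsmul, Bsmul] <;> simp [h1, h3, h4, h5]
  have f1 : u ⬝ᵥ (Jm *ᵥ ((x : M4) *ᵥ u)) = -1 := hu
  have f2 : w ⬝ᵥ (Jm *ᵥ ((x : M4) *ᵥ w)) = -1 := hw
  have f3 : u ⬝ᵥ (Jm *ᵥ ((x : M4) *ᵥ w)) = 0 := huw.1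
  have f4 : ((x : M4) *ᵥ u) ⬝ᵥ (Jm *ᵥ ((x : M4) *ᵥ w)) = 0 := huw.2
  have f5 : u ⬝ᵥ (Jm *ᵥ w) = 0 := by rw [← symp_apply hx]; exact f4
  have f6 : w ⬝ᵥ (Jm *ᵥ ((x : M4) *ᵥ u)) = 0 := by
    have := Bsymm w u; simp only [B] at this; rw [this]; exact f3
  refine conj_of_frame _ (Sum.elim ![u, w] ![(x : M4) *ᵥ u, (x : M4) *ᵥ w]) ?_ ?_
  · rintro (k | k) (l | l) <;> fin_cases k <;> fin_cases l <;>
      simp [-Matrix.mulVec_mulVec, J_ll, J_lr, J_rl, J_rr, dot_J_self, f1, f2, f3, f4, f5, f6, symp_apply hx,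
        dot_J w u, dot_J ((x : M4) *ᵥ u) u, dot_J ((x : M4) *ᵥ w) w, dot_J ((x : M4) *ᵥ w) u,
        dot_J ((x : M4) *ᵥ u) w]
  · rintro (l | l) <;> fin_cases l <;>
      simp [Fintype.sum_sum_type, Fin.sum_univ_two, Matrix.J, hxx]

theorem case_two {R : Subgroup (GL (Fin 2 ⊕ Fin 2) F)} (h : Minus R) (s : Frame R) (hRf : R ≤ Cfsg.spGL 2 F)
    {x : G4} (hx : x ∈ Cfsg.spGL 2 F) {z : F} (hz : ((x ^ 2 : G4) : M4) = z • 1)
    (hns : ∀ c : F, (x : M4) ≠ c • 1) :
    ∃ g ∈ Cfsg.spGL 2 F, g⁻¹ * x * g ∈ Subgroup.normalizer (R : Set G4) := by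
  have h2 := h.two_ne
  have hzz : z * z = 1 := (scalar_sp hz).1 (pow_mem hx 2)
  rw [Units.val_pow_eq_pow_val, _root_.sq] at hz
  have concl : ∀ (w : G4), w ∈ R → ∀ (X0 : M4),
      (∃ P : G4, P ∈ Cfsg.spGL 2 F ∧ (x : M4) * (P : M4) = (P : M4) * X0) →
      (∃ P : G4, P ∈ Cfsg.spGL 2 F ∧ (w : M4) * (P : M4) = (P : M4) * X0) →
      ∃ g ∈ Cfsg.spGL 2 F, g⁻¹ * x * g ∈ Subgroup.normalizer (R : Set G4) := by
    rintro w hw X0 ⟨P, hP, hxP⟩ ⟨Q, hQ, hwQ⟩
    refine ⟨P * Q⁻¹, mul_mem hP (inv_mem hQ), Subgroup.le_normalizer ?_⟩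
    suffices (P * Q⁻¹)⁻¹ * x * (P * Q⁻¹) = w by rw [this]; exact hw
    apply Units.ext
    simp only [_root_.mul_inv_rev, inv_inv, Units.val_mul]
    calc (Q : M4) * ((P⁻¹ : G4) : M4) * (x : M4) * ((P : M4) * ((Q⁻¹ : G4) : M4))
        = (Q : M4) * (((P⁻¹ : G4) : M4) * ((x : M4) * (P : M4))) * ((Q⁻¹ : G4) : M4) := by simp only [mul_assoc]
      _ = (Q : M4) * X0 * ((Q⁻¹ : G4) : M4) := by rw [hxP, ← mul_assoc ((P⁻¹ : G4) : M4), Units.inv_mul, one_mul]
      _ = (w : M4) := by rw [← hwQ, mul_assoc, Units.mul_inv, mul_one]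
  rcases mul_self_eq_one_iff.1 hzz with rfl | rfl
  · rw [one_smul] at hz
    refine concl s.a s.ha _ (frame_plus h2 hx hz hns) (frame_plus h2 (hRf s.ha)
      (by rw [← Units.val_mul, s.aa, Units.val_one]) fun c hc => ?_)
    have := congrArg (fun g : G4 => (g : M4)) s.ba
    simp only [Units.val_neg, Units.val_mul, hc, Matrix.mul_smul, Matrix.smul_mul, mul_one, one_mul] at this
    have e : ((s.a * s.b : G4) : M4) = ((-(s.a * s.b) : G4) : M4) := by
      simp only [Units.val_neg, Units.val_mul, hc, Matrix.smul_mul, one_mul]; exact this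
    exact ne_neg_self h2 _ (Units.ext e)
  · rw [neg_one_smul] at hz
    exact concl s.i s.hi _ (frame_minus h2 hx hz) (frame_minus h2 (hRf s.hi)
      (by rw [← Units.val_mul, s.ii, Units.val_neg, Units.val_one]))

end two

/-! ### Elements of order five -/

section five

variable [Fintype F] {R : Subgroup (GL (Fin 2 ⊕ Fin 2) F)}

/-- `1 + u` for `u² = -1`. -/
noncomputable def tr' (h2 : (2 : F) ≠ 0) (u : GL (Fin 2 ⊕ Fin 2) F) (hu : u * u = -1) :
    GL (Fin 2 ⊕ Fin 2) F where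
  val := 1 + (u : Matrix (Fin 2 ⊕ Fin 2) (Fin 2 ⊕ Fin 2) F)
  inv := (2⁻¹ : F) • (1 - (u : Matrix (Fin 2 ⊕ Fin 2) (Fin 2 ⊕ Fin 2) F))
  val_inv := by
    have e : (u : M4) * u = -1 := by rw [← Units.val_mul, hu, Units.val_neg, Units.val_one]
    rw [Matrix.mul_smul, show (1 + (u : M4)) * (1 - (u : M4)) = (2 : F) • (1 : M4) by
      rw [add_mul, one_mul, mul_sub, mul_one, e, two_smul]; abel, smul_smul, inv_mul_cancel₀ h2, one_smul]
  inv_val := by
    have e : (u : M4) * u = -1 := by rw [← Units.val_mul, hu, Units.val_neg, Units.val_one]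
    rw [Matrix.smul_mul, show (1 - (u : M4)) * (1 + (u : M4)) = (2 : F) • (1 : M4) by
      rw [sub_mul, one_mul, mul_add, mul_one, e, two_smul]; abel, smul_smul, inv_mul_cancel₀ h2, one_smul]

theorem tr'_comm (h2 : (2 : F) ≠ 0) {u w : G4} (hu : u * u = -1) (hc : u * w = w * u) :
    SemiconjBy (tr' h2 u hu) w w := by
  apply Units.ext
  show (1 + (u : M4)) * (w : M4) = (w : M4) * (1 + (u : M4))
  rw [add_mul, mul_add, one_mul, mul_one, ← Units.val_mul, hc, Units.val_mul]

theorem tr'_anti (h2 : (2 : F) ≠ 0) {u w w' : G4} (hu : u * u = -1) (hc : u * w = -(w * u))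
    (he : u * w = w') : SemiconjBy (tr' h2 u hu) w w' := by
  subst he
  apply Units.ext
  show (1 + (u : M4)) * (w : M4) = ((u * w : G4) : M4) * (1 + (u : M4))
  have e : (u : M4) * u = -1 := by rw [← Units.val_mul, hu, Units.val_neg, Units.val_one]
  have hc' : (w : M4) * u = -((u : M4) * w) := by
    rw [← Units.val_mul u w, hc, Units.val_neg, neg_neg, Units.val_mul]
  rw [add_mul, mul_add, one_mul, mul_one, Units.val_mul, mul_assoc (u : M4), hc', mul_neg, ← mul_assoc, e,
    neg_mul, one_mul, neg_neg, add_comm]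

theorem tr'_normal (h : Minus R) {u : G4} (huR : u ∈ R) (hu : u * u = -1) :
    tr' h.two_ne u hu ∈ Subgroup.normalizer (R : Set G4) := by
  haveI : Finite R := Nat.finite_of_card_ne_zero (by rw [h.card]; norm_num)
  have key : R.map (MulAut.conj (tr' h.two_ne u hu)).toMonoidHom ≤ R := by
    rintro _ ⟨w, hw, rfl⟩
    show tr' h.two_ne u hu * w * (tr' h.two_ne u hu)⁻¹ ∈ R
    rcases h.comm u huR w hw with hc | hc
    · rw [show tr' h.two_ne u hu * w = w * tr' h.two_ne u hu from tr'_comm h.two_ne hu hc, mul_inv_cancel_right]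
      exact hw
    · rw [show tr' h.two_ne u hu * w = u * w * tr' h.two_ne u hu from tr'_anti h.two_ne hu hc rfl,
        mul_inv_cancel_right]
      exact mul_mem huR hw
  have heq := Subgroup.eq_of_le_of_card_ge key (le_of_eq
    (Nat.card_congr (R.equivMapOfInjective _ (MulAut.conj (tr' h.two_ne u hu)).injective).toEquiv))
  rw [Subgroup.mem_normalizer_iff]
  intro w
  constructor
  · intro hw; exact (SetLike.ext_iff.1 heq _).1 ⟨w, hw, rfl⟩
  · intro hw
    obtain ⟨v, hv, e⟩ := (SetLike.ext_iff.1 heq _).2 hw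
    rw [← (MulAut.conj (tr' h.two_ne u hu)).injective e]; exact hv

theorem tr'_sim (h2 : (2 : F) ≠ 0) {u : G4} (hu : u * u = -1) (hsp : u ∈ Cfsg.spGL 2 F) :
    (tr' h2 u hu : M4)ᵀ * Jm * (tr' h2 u hu : M4) = (2 : F) • Jm := by
  show (1 + (u : M4))ᵀ * Jm * (1 + (u : M4)) = _
  have h1 := mem_sp.1 hsp
  have e : (u : M4) * u = -1 := by rw [← Units.val_mul, hu, Units.val_neg, Units.val_one]
  have h3 : (u : M4)ᵀ * Jm = -(Jm * (u : M4)) := by
    have h' := congrArg (fun M : M4 => M * (u : M4)) h1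
    simp only [mul_assoc, e, mul_neg, mul_one] at h'
    rw [← h', neg_neg]
  rw [Matrix.transpose_add, Matrix.transpose_one, add_mul, mul_add, mul_one, one_mul, add_mul, h1, h3,
    two_smul]
  abel

theorem exists_five (h : Minus R) (s : Frame R) (hRf : R ≤ Cfsg.spGL 2 F) :
    ∃ y ∈ Cfsg.spGL 2 F, y ∈ Subgroup.normalizer (R : Set G4) ∧ y ^ 5 = 1 ∧ y ≠ 1 := by
  classical
  have h2 := h.two_ne
  obtain ⟨r1, r2, r3, r4, r5, r6, r7, r8, r9, r10⟩ :
      (∀ x : G4, s.a * (s.a * x) = x) ∧ (∀ x : G4, s.b * (s.b * x) = x) ∧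
      (∀ x : G4, s.i * (s.i * x) = -x) ∧ (∀ x : G4, s.j * (s.j * x) = -x) ∧
      (∀ x : G4, s.b * (s.a * x) = -(s.a * (s.b * x))) ∧ (∀ x : G4, s.i * (s.a * x) = s.a * (s.i * x)) ∧
      (∀ x : G4, s.j * (s.a * x) = s.a * (s.j * x)) ∧ (∀ x : G4, s.i * (s.b * x) = s.b * (s.i * x)) ∧
      (∀ x : G4, s.j * (s.b * x) = s.b * (s.j * x)) ∧
      (∀ x : G4, s.j * (s.i * x) = -(s.i * (s.j * x))) := by
    refine ⟨?_, ?_, ?_, ?_, ?_, ?_, ?_, ?_, ?_, ?_⟩ <;> intro x <;>
      obtain ⟨h1, h2, h3, h4, h5, h6, h7, h8, h9, h10⟩ := s.rules x <;> assumption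
  have hai : s.a * s.i * (s.a * s.i) = -1 := by
    simp [mul_assoc, s.aa, s.ii, s.ia, r1, r6]
    all_goals first | exact s.aa | exact s.bb
  have hab : s.a * s.b * (s.a * s.b) = -1 := by
    simp [mul_assoc, s.bb, s.ba, r1, r5]
    all_goals first | exact s.aa | exact s.bb
  set T1 := tr' h2 s.i s.ii with hT1
  set T2 := tr' h2 s.j s.jj with hT2
  set T3 := tr' h2 (s.a * s.i) hai with hT3
  set T4 := tr' h2 (s.a * s.b) hab with hT4
  set g := T1 * T2 * T3 * T4 with hg
  have comp : ∀ {w w4 w3 w2 w1 : G4}, SemiconjBy T4 w w4 → SemiconjBy T3 w4 w3 → SemiconjBy T2 w3 w2 →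
      SemiconjBy T1 w2 w1 → MulAut.conj g w = w1 := by
    intro w w4 w3 w2 w1 e4 e3 e2 e1
    have := ((e1.mul_left e2).mul_left e3).mul_left e4
    rw [MulAut.conj_apply, mul_inv_eq_iff_eq_mul]
    exact this.eq
  have ga : MulAut.conj g s.a = -(s.a * s.b * s.j) := by
    refine comp (w4 := -s.b) (w3 := -(s.a * s.b * s.i)) (w2 := s.a * s.b * s.i * s.j)
      (tr'_anti h2 _ ?_ ?_) (tr'_anti h2 _ ?_ ?_) (tr'_anti h2 _ ?_ ?_) (tr'_anti h2 _ ?_ ?_) <;>
      simp [mul_assoc, s.aa, s.bb, s.ii, s.jj, s.ba, s.ia, s.ja, s.ib, s.jb, s.ji, r1, r2, r3, r4, r5, r6, r7,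
        r8, r9, r10]
  have gb : MulAut.conj g s.b = s.a := by
    refine comp (w4 := s.a) (w3 := s.a) (w2 := s.a)
      (tr'_anti h2 _ ?_ ?_) (tr'_comm h2 _ ?_) (tr'_comm h2 _ ?_) (tr'_comm h2 _ ?_) <;>
      simp [mul_assoc, s.aa, s.bb, s.ii, s.jj, s.ba, s.ia, s.ja, s.ib, s.jb, s.ji, r1, r2, r3, r4, r5, r6, r7,
        r8, r9, r10]
  have gi : MulAut.conj g s.i = s.j := by
    refine comp (w4 := s.i) (w3 := s.i) (w2 := -(s.i * s.j))
      (tr'_comm h2 _ ?_) (tr'_comm h2 _ ?_) (tr'_anti h2 _ ?_ ?_) (tr'_anti h2 _ ?_ ?_) <;>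
      simp [mul_assoc, s.aa, s.bb, s.ii, s.jj, s.ba, s.ia, s.ja, s.ib, s.jb, s.ji, r1, r2, r3, r4, r5, r6, r7,
        r8, r9, r10]
  have gj : MulAut.conj g s.j = s.a * s.i := by
    refine comp (w4 := s.j) (w3 := s.a * s.i * s.j) (w2 := s.a * s.i)
      (tr'_comm h2 _ ?_) (tr'_anti h2 _ ?_ ?_) (tr'_anti h2 _ ?_ ?_) (tr'_comm h2 _ ?_) <;>
      simp [mul_assoc, s.aa, s.bb, s.ii, s.jj, s.ba, s.ia, s.ja, s.ib, s.jb, s.ji, r1, r2, r3, r4, r5, r6, r7,
        r8, r9, r10]
  have gneg : ∀ w : G4, MulAut.conj g (-w) = -(MulAut.conj g w) := fun w => by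
    simp [MulAut.conj_apply]
  have g5 : ∀ w ∈ ({s.a, s.b, s.i, s.j} : Set G4),
      MulAut.conj g (MulAut.conj g (MulAut.conj g (MulAut.conj g (MulAut.conj g w)))) = w := by
    rintro w (rfl | rfl | rfl | rfl) <;>
      simp only [ga, gb, gi, gj, gneg, map_mul] <;>
      simp [mul_assoc, s.aa, s.bb, s.ii, s.jj, s.ba, s.ia, s.ja, s.ib, s.jb, s.ji, r1, r2, r3, r4, r5, r6, r7,
        r8, r9, r10]
  have hgN : g ∈ Subgroup.normalizer (R : Set G4) :=
    mul_mem (mul_mem (mul_mem (tr'_normal h s.hi _) (tr'_normal h s.hj _))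
      (tr'_normal h (mul_mem s.ha s.hi) _)) (tr'_normal h (mul_mem s.ha s.hb) _)
  have hsim : (g : M4)ᵀ * Jm * (g : M4) = (16 : F) • Jm := by
    have e1 := tr'_sim h2 s.ii (hRf s.hi)
    have e2 := tr'_sim h2 s.jj (hRf s.hj)
    have e3 := tr'_sim h2 hai (hRf (mul_mem s.ha s.hi))
    have e4 := tr'_sim h2 hab (hRf (mul_mem s.ha s.hb))
    have step : ∀ (A B : M4) (c d : F), Aᵀ * Jm * A = c • Jm → Bᵀ * Jm * B = d • Jm →
        (A * B)ᵀ * Jm * (A * B) = (c * d) • Jm := by
      intro A B c d hA hB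
      calc (A * B)ᵀ * Jm * (A * B) = Bᵀ * (Aᵀ * Jm * A) * B := by
            rw [Matrix.transpose_mul]; simp only [mul_assoc]
        _ = (c * d) • Jm := by rw [hA, Matrix.mul_smul, Matrix.smul_mul, hB, smul_smul]
    have := step _ _ _ _ (step _ _ _ _ (step _ _ _ _ e1 e2) e3) e4
    rw [← Units.val_mul, ← Units.val_mul, ← Units.val_mul] at this
    rw [this]; norm_num
  have h4 : (4 : F) ≠ 0 := by
    have := mul_ne_zero h2 h2
    norm_num at this
    exact this
  let z : G4 := Matrix.GeneralLinearGroup.mkOfDetNeZero ((4⁻¹ : F) • (1 : M4))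
    (by rw [Matrix.det_smul, Matrix.det_one, mul_one]; exact pow_ne_zero _ (inv_ne_zero h4))
  have hzc : ∀ w : G4, z * w = w * z := fun w => Units.ext (by
    show ((4⁻¹ : F) • (1 : M4)) * (w : M4) = (w : M4) * ((4⁻¹ : F) • (1 : M4))
    rw [Matrix.smul_mul, Matrix.mul_smul, one_mul, mul_one])
  set h0 := z * g with hh0
  have hh0v : (h0 : M4) = (4⁻¹ : F) • (g : M4) := by
    show ((4⁻¹ : F) • (1 : M4)) * (g : M4) = _
    rw [Matrix.smul_mul, one_mul]
  have hh0sp : h0 ∈ Cfsg.spGL 2 F := by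
    rw [mem_sp, hh0v, Matrix.transpose_smul, Matrix.smul_mul, Matrix.smul_mul, Matrix.mul_smul, hsim,
      smul_smul, smul_smul]
    convert one_smul F _
    field_simp
    norm_num
  have hh0N : h0 ∈ Subgroup.normalizer (R : Set G4) := by
    refine mul_mem ?_ hgN
    rw [Subgroup.mem_normalizer_iff]
    intro w
    rw [hzc, mul_inv_cancel_right]
  have hconj : ∀ w, MulAut.conj h0 w = MulAut.conj g w := fun w => by
    rw [hh0, map_mul, MulAut.mul_apply, MulAut.conj_apply z, hzc, mul_inv_cancel_right]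
  have hcomm : ∀ w ∈ ({s.a, s.b, s.i, s.j} : Set G4), h0 ^ 5 * w = w * h0 ^ 5 := by
    intro w hw
    rw [← mul_inv_eq_iff_eq_mul, ← MulAut.conj_apply, map_pow]
    simp only [pow_succ, pow_zero, one_mul, MulAut.mul_apply, hconj]
    exact g5 w hw
  obtain ⟨c, hc⟩ := s.commute_all h ((h0 ^ 5 : G4) : M4)
    (congrArg Units.val (hcomm s.a (by simp))) (congrArg Units.val (hcomm s.b (by simp)))
    (congrArg Units.val (hcomm s.i (by simp))) (congrArg Units.val (hcomm s.j (by simp)))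
  have hcc : c * c = 1 := (scalar_sp hc).1 (pow_mem hh0sp 5)
  set t := h0 ^ 5 with ht
  have htt : t * t = 1 := Units.ext (by
    rw [Units.val_mul, hc, Matrix.smul_mul, Matrix.mul_smul, mul_one, smul_smul, hcc, one_smul, Units.val_one])
  refine ⟨t * h0, mul_mem (pow_mem hh0sp 5) hh0sp, mul_mem (pow_mem hh0N 5) hh0N, ?_, ?_⟩
  · rw [(Commute.pow_self h0 5).mul_pow, ← ht,
      show t ^ 5 = t * t * (t * t) * t by simp only [pow_succ, pow_zero, one_mul, mul_assoc], htt, one_mul,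
      one_mul, htt]
  · intro e
    have hh : h0 = t := by
      have := congrArg (t * ·) e
      simpa [← mul_assoc, htt] using this
    have h1 : MulAut.conj h0 s.b = s.b := by
      rw [MulAut.conj_apply, mul_inv_eq_iff_eq_mul, hh]
      apply Units.ext
      rw [Units.val_mul, Units.val_mul, hc, Matrix.smul_mul, Matrix.mul_smul, one_mul, mul_one]
    rw [hconj, gb] at h1
    have := s.ba
    rw [h1] at this
    exact ne_neg_self h2 _ this

theorem irreducible_cyclotomic_five {p : ℕ} [Fact p.Prime] [CharP F p] (hF : Fintype.card F = p)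
    (hord : orderOf (p : ZMod 5) = 4) : Irreducible (Polynomial.cyclotomic 5 F) := by
  classical
  have hcop : p.Coprime 5 := by
    refine (Nat.coprime_primes Fact.out Nat.prime_five).2 ?_
    rintro rfl
    rw [show ((5 : ℕ) : ZMod 5) = 0 from rfl] at hord
    haveI : Fact (Nat.Prime 5) := ⟨Nat.prime_five⟩
    rw [orderOf_eq_zero_iff'.2 (fun n hn => by rw [zero_pow hn.ne']; exact zero_ne_one)] at hord
    norm_num at hord
  obtain ⟨P, hPirr, hPdvd⟩ := WfDvdMonoid.exists_irreducible_factor (a := Polynomial.cyclotomic 5 F)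
    (fun hu => by
      have := Polynomial.degree_cyclotomic_pos 5 F (by norm_num)
      rw [Polynomial.degree_eq_zero_of_isUnit hu] at this
      exact lt_irrefl _ this)
    (Polynomial.cyclotomic_ne_zero 5 F)
  have hdeg := Polynomial.natDegree_of_dvd_cyclotomic_of_irreducible (n := 5) (p := p) (f := 1)
    (by rw [pow_one]; exact hF) hcop hPdvd hPirr
  rw [← orderOf_units, ZMod.coe_unitOfCoprime, pow_one, hord] at hdeg
  refine (Associated.irreducible ?_ hPirr)
  exact Polynomial.associated_of_dvd_of_natDegree_le hPdvd (Polynomial.cyclotomic_ne_zero 5 F)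
    (by rw [hdeg, Polynomial.natDegree_cyclotomic]; rfl)

theorem power_of_commute (hirr : Irreducible (Polynomial.cyclotomic 5 F)) {y x : G4}
    (hy : y ^ 5 = 1) (hy1 : y ≠ 1) (hx : x ^ 5 = 1) (hc : x * y = y * x) : ∃ k : ℕ, x = y ^ k := by
  classical
  open Polynomial in
  have hpy : aeval (y : M4) (cyclotomic 5 F) = 0 := by
    have hm1 : minpoly F (y : M4) ∣ cyclotomic 5 F * (X - 1) := by
      haveI : Fact (Nat.Prime 5) := ⟨Nat.prime_five⟩
      rw [cyclotomic_prime_mul_X_sub_one F 5]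
      apply minpoly.dvd
      rw [map_sub, map_pow, aeval_X, map_one, ← Units.val_pow_eq_pow_val, hy, Units.val_one, sub_self]
    have hint : IsIntegral F (y : M4) := IsIntegral.of_finite F _
    rcases (dvd_or_isCoprime (cyclotomic 5 F) (minpoly F (y : M4)) hirr) with h | h
    · have hle : (minpoly F (y : M4)).natDegree ≤ 4 := by
        refine (natDegree_le_of_dvd (Matrix.minpoly_dvd_charpoly _) (Matrix.charpoly_monic _).ne_zero).trans ?_
        rw [Matrix.charpoly_natDegree_eq_dim]; rfl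
      have := Polynomial.associated_of_dvd_of_natDegree_le h (minpoly.ne_zero hint)
        (by rw [natDegree_cyclotomic]; exact hle)
      obtain ⟨u, hu⟩ := this.symm
      rw [← hu, map_mul, minpoly.aeval, zero_mul]
    · exfalso
      apply hy1
      have hdvd : minpoly F (y : M4) ∣ X - 1 := h.symm.dvd_of_dvd_mul_left hm1
      obtain ⟨q, hq⟩ := hdvd
      have := congrArg (aeval (y : M4)) hq
      rw [map_sub, aeval_X, map_one, map_mul, minpoly.aeval, zero_mul, sub_eq_zero] at this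
      exact Units.ext (by simpa using this)
  haveI : Fact (Irreducible (Polynomial.cyclotomic 5 F)) := ⟨hirr⟩
  let K := AdjoinRoot (Polynomial.cyclotomic 5 F)
  let pb := AdjoinRoot.powerBasis' (Polynomial.cyclotomic.monic 5 F)
  haveI : FiniteDimensional F K := pb.finite
  let φ : K →ₐ[F] M4 := Ideal.Quotient.liftₐ (Ideal.span {Polynomial.cyclotomic 5 F})
    (Polynomial.aeval (y : M4)) (fun q hq => by
      obtain ⟨m, rfl⟩ := Ideal.mem_span_singleton.1 hq
      rw [map_mul, hpy, zero_mul])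
  let v : V4 := Pi.single e₀ 1
  have hv : v ≠ 0 := fun e => by simpa [v] using congrFun e e₀
  let ψ : K →ₗ[F] V4 :=
    { toFun := fun k => φ k *ᵥ v
      map_add' := fun a b => by rw [map_add, Matrix.add_mulVec]
      map_smul' := fun c a => by rw [map_smul, Matrix.smul_mulVec]; rfl }
  have hψinj : Function.Injective ψ := by
    rw [← LinearMap.ker_eq_bot, Submodule.eq_bot_iff]
    intro k hk
    by_contra hk0
    apply hv
    have h1 : φ k⁻¹ *ᵥ (φ k *ᵥ v) = 0 := by
      rw [show φ k *ᵥ v = 0 from hk, Matrix.mulVec_zero]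
    rwa [Matrix.mulVec_mulVec, ← map_mul, inv_mul_cancel₀ hk0, map_one, Matrix.one_mulVec] at h1
  have hψsurj : Function.Surjective ψ := by
    refine (LinearMap.injective_iff_surjective_of_finrank_eq_finrank ?_).1 hψinj
    rw [pb.finrank, AdjoinRoot.powerBasis'_dim, Polynomial.natDegree_cyclotomic,
      Module.finrank_fintype_fun_eq_card]
    rfl
  obtain ⟨k, hk⟩ := hψsurj ((x : M4) *ᵥ v)
  change φ k *ᵥ v = (x : M4) *ᵥ v at hk
  have hxcomm : ∀ l, (x : M4) * φ l = φ l * (x : M4) := by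
    intro l
    induction l using AdjoinRoot.induction_on with
    | ih q =>
      rw [show φ (AdjoinRoot.mk _ q) = Polynomial.aeval (y : M4) q from rfl]
      induction q using Polynomial.induction_on' with
      | add a b ha hb => rw [map_add, mul_add, add_mul, ha, hb]
      | monomial n a =>
        rw [Polynomial.aeval_monomial, ← mul_assoc, ← Algebra.commutes a (x : M4), mul_assoc, mul_assoc]
        congr 1
        exact ((show Commute (x : M4) (y : M4) from congrArg Units.val hc).pow_right n).eq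
  have hxk : (x : M4) = φ k := by
    refine Matrix.toLin'.injective (LinearMap.ext fun w => ?_)
    obtain ⟨l, rfl⟩ := hψsurj w
    show (x : M4) *ᵥ (φ l *ᵥ v) = φ k *ᵥ (φ l *ᵥ v)
    rw [Matrix.mulVec_mulVec, hxcomm, ← Matrix.mulVec_mulVec, ← hk, Matrix.mulVec_mulVec,
      Matrix.mulVec_mulVec, ← map_mul, ← map_mul, mul_comm]
  have hφinj : Function.Injective φ := φ.toRingHom.injective
  set ζ : K := AdjoinRoot.root _ with hζ
  have hφζ : φ ζ = (y : M4) :=
    (show φ ζ = Polynomial.aeval (y : M4) (Polynomial.X : Polynomial F) from rfl).trans (Polynomial.aeval_X _)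
  have hζ5 : ζ ^ 5 = 1 := hφinj (by
    rw [map_pow, hφζ, ← Units.val_pow_eq_pow_val, hy, Units.val_one, map_one])
  have hζ1 : ζ ≠ 1 := fun e => hy1 (Units.ext (by rw [← hφζ, e, map_one, Units.val_one]))
  have hk5 : k ^ 5 = 1 := hφinj (by
    rw [map_pow, ← hxk, ← Units.val_pow_eq_pow_val, hx, Units.val_one, map_one])
  haveI : Fact (Nat.Prime 5) := ⟨Nat.prime_five⟩
  have hprim : IsPrimitiveRoot ζ 5 := by
    have hp' := IsPrimitiveRoot.orderOf ζ
    rwa [orderOf_eq_prime hζ5 hζ1] at hp'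
  obtain ⟨i, -, hi⟩ := hprim.eq_pow_of_pow_eq_one hk5
  exact ⟨i, Units.ext (by rw [hxk, ← hi, map_pow, hφζ, Units.val_pow_eq_pow_val])⟩

theorem case_five {p : ℕ} [Fact p.Prime] [CharP F p] (hF : Fintype.card F = p)
    (hord : orderOf (p : ZMod 5) = 4) (h : Minus R) (s : Frame R) (hRf : R ≤ Cfsg.spGL 2 F)
    {x : G4} (hx : x ∈ Cfsg.spGL 2 F) {z : F} (hz : ((x ^ 5 : G4) : M4) = z • 1)
    (hns : ∀ c : F, (x : M4) ≠ c • 1) :
    ∃ g ∈ Cfsg.spGL 2 F, g⁻¹ * x * g ∈ Subgroup.normalizer (R : Set G4) := by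
  classical
  haveI : Fact (Nat.Prime 5) := ⟨Nat.prime_five⟩
  have hirr := irreducible_cyclotomic_five hF hord
  obtain ⟨y, hy, hyN, hy5, hy1⟩ := exists_five h s hRf
  set t := x ^ 5 with ht
  have hzz : z * z = 1 := (scalar_sp hz).1 (pow_mem hx 5)
  have htt : t * t = 1 := Units.ext (by
    rw [Units.val_mul, hz, Matrix.smul_mul, Matrix.mul_smul, mul_one, smul_smul, hzz, one_smul, Units.val_one])
  set x' := t * x with hx'
  have hx'5 : x' ^ 5 = 1 := by
    rw [hx', (Commute.pow_self x 5).mul_pow, ← ht,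
      show t ^ 5 = t * t * (t * t) * t by simp only [pow_succ, pow_zero, one_mul, mul_assoc], htt, one_mul,
      one_mul, htt]
  have hx'1 : x' ≠ 1 := fun e => hns z (by
    have : x = t := by
      have := congrArg (t * ·) e
      simpa [hx', ← mul_assoc, htt] using this
    rw [this, hz])
  let X : Cfsg.spGL 2 F := ⟨x', mul_mem (pow_mem hx 5) hx⟩
  let Y : Cfsg.spGL 2 F := ⟨y, hy⟩
  have hXo : orderOf X = 5 := orderOf_eq_prime (Subtype.ext hx'5) fun e => hx'1 (congrArg Subtype.val e)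
  have hYo : orderOf Y = 5 := orderOf_eq_prime (Subtype.ext hy5) fun e => hy1 (congrArg Subtype.val e)
  have hXp : IsPGroup 5 (Subgroup.zpowers X) := IsPGroup.of_card (n := 1) (by rw [Nat.card_zpowers, hXo, pow_one])
  have hYp : IsPGroup 5 (Subgroup.zpowers Y) := IsPGroup.of_card (n := 1) (by rw [Nat.card_zpowers, hYo, pow_one])
  obtain ⟨S, hS⟩ := hXp.exists_le_sylow
  obtain ⟨S', hS'⟩ := hYp.exists_le_sylow
  obtain ⟨c, hc⟩ := MulAction.exists_smul_eq (Cfsg.spGL 2 F) S' S
  have hYS : c * Y * c⁻¹ ∈ (S : Subgroup (Cfsg.spGL 2 F)) := by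
    rw [← hc, Sylow.coe_subgroup_smul]
    exact ⟨Y, hS' (Subgroup.mem_zpowers Y), rfl⟩
  haveI : Nontrivial S := ⟨⟨X, hS (Subgroup.mem_zpowers X)⟩, 1, fun e => hx'1
    (congrArg (fun w : S => ((w : Cfsg.spGL 2 F) : G4)) e)⟩
  haveI := S.isPGroup'.center_nontrivial
  obtain ⟨n, hn⟩ := (S.isPGroup'.to_subgroup (Subgroup.center S)).exists_card_eq
  have hd : 5 ∣ Nat.card (Subgroup.center S) := by
    rw [hn]
    refine dvd_pow_self 5 fun e => ?_
    rw [e, pow_zero] at hn
    exact absurd hn (Finite.one_lt_card.ne')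
  obtain ⟨Z, hZ⟩ := exists_prime_orderOf_dvd_card' (G := Subgroup.center S) 5 hd
  set ζ : G4 := (((Z : S) : Cfsg.spGL 2 F) : G4) with hζ
  have hζ5 : ζ ^ 5 = 1 := by
    have := pow_orderOf_eq_one Z
    rw [hZ] at this
    exact congrArg (fun w : Subgroup.center S => (((w : S) : Cfsg.spGL 2 F) : G4)) this
  have hζ1 : ζ ≠ 1 := fun e => by
    rw [show Z = 1 from Subtype.ext (Subtype.ext (Subtype.ext e)), orderOf_one] at hZ
    norm_num at hZ
  have hcen : ∀ w : S, ((w : Cfsg.spGL 2 F) : G4) * ζ = ζ * ((w : Cfsg.spGL 2 F) : G4) := fun w =>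
    congrArg (fun u : S => ((u : Cfsg.spGL 2 F) : G4)) (Subgroup.mem_center_iff.1 Z.2 w)
  obtain ⟨i, hi⟩ := power_of_commute hirr hζ5 hζ1 hx'5 (hcen ⟨X, hS (Subgroup.mem_zpowers X)⟩)
  obtain ⟨j, hj⟩ := power_of_commute hirr hζ5 hζ1
    (x := ((c * Y * c⁻¹ : Cfsg.spGL 2 F) : G4))
    (by rw [← Subgroup.coe_pow, conj_pow, show Y ^ 5 = 1 from Subtype.ext hy5]; simp) (hcen ⟨_, hYS⟩)
  have hyconj : (c : G4)⁻¹ * ζ ^ j * (c : G4) = y := by
    rw [← hj]
    simp [Y, mul_assoc]
  -- `ζ` is a power of `ζ ^ j`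
  have hj0 : ¬ 5 ∣ j := by
    rintro ⟨m, rfl⟩
    apply hy1
    rw [← hyconj, pow_mul, hζ5, one_pow]; simp
  obtain ⟨m, hm⟩ : ∃ m : ℕ, (ζ ^ j) ^ m = ζ := by
    have hcop : Nat.Coprime j (orderOf ζ) := by
      rw [orderOf_eq_prime hζ5 hζ1]
      exact ((Nat.prime_five.coprime_iff_not_dvd).2 hj0).symm
    exact (exists_pow_eq_self_of_coprime hcop)
  refine ⟨c, c.2, ?_⟩
  have key : (c : G4)⁻¹ * x' * c = y ^ (m * i) := by
    rw [hi, ← hm, ← pow_mul, ← hyconj, show (c : G4)⁻¹ * ζ ^ j * c = (c : G4)⁻¹ * ζ ^ j * ((c : G4)⁻¹)⁻¹ by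
      rw [inv_inv], conj_pow, inv_inv]
  have hxx' : x = t * x' := by rw [hx', ← mul_assoc, htt, one_mul]
  have hscal : (c : G4)⁻¹ * x * c = t * y ^ (m * i) := by
    rw [← key, hxx', ← mul_assoc, show (c : G4)⁻¹ * t = t * (c : G4)⁻¹ from Units.ext (by
      rw [Units.val_mul, Units.val_mul, hz, Matrix.mul_smul, Matrix.smul_mul, mul_one, one_mul])]
    simp only [mul_assoc]
  rw [hscal]
  refine mul_mem ?_ (pow_mem hyN _)
  rw [Subgroup.mem_normalizer_iff]
  intro w
  rw [show t * w = w * t from Units.ext (by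
    rw [Units.val_mul, Units.val_mul, hz, Matrix.mul_smul, Matrix.smul_mul, mul_one, one_mul]),
    mul_inv_cancel_right]

end five

/-- Elements of prime order of PSp_4(p), p odd, and the normalizer of an extraspecial 2-group of order 2⁵ of minus type. Here `T = PSp_4(F)` for the field `F` with `p` elements, `p` an odd prime, realised through the matrices preserving the standard alternating form `f`; `R` is an absolutely irreducible subgroup of `T` (it preserves `f`) that is a 2-group of symplectic type of exponent 4, order 2⁵ and centre of order 2, of minus type (no elementary abelian subgroup of order 2³), and `H` is the subgroup of `T` normalizing `R` — a subgroup of type 2^{1+4}.O₄⁻(2) (maximality is not assumed). Ω is the set of cosets of `H` in `T`, so an element of `T` of prime order `r` (`x ∈ T` with `x^r` scalar, `x` not scalar) fixes a point of Ω exactly when some `T`-conjugate of `x` normalizes `R`. Let `r` be a prime dividing the index of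 `H`. Then every element of `T` of order `r` fixes a point of Ω if and only if `r = 2`, or `r = 5` and `p` has multiplicative order 4 modulo 5. -/
theorem result {F : Type*} [Field F] [Fintype F] {p : ℕ} [Fact p.Prime] [CharP F p] (hF : Fintype.card F = p) (hodd : Odd p)
    (R : Subgroup (GL (Fin 2 ⊕ Fin 2) F)) (hRs : Cfsg.Geo.IsSymplecticTypeGroup 2 R) (hRi : Cfsg.Geo.ActsAbsolutelyIrreducibly (Cfsg.Geo.matrixSet R))
    (hRf : R ≤ Cfsg.spGL 2 F) (hR5 : Nat.card R = 2 ^ 5) (hRZ : Nat.card (Subgroup.center R) = 2) (hRm : Cfsg.Geo.IsOfMinusType 2 R)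
    (r : ℕ) [Fact r.Prime]
    (hΩ : r ∣ (Cfsg.Geo.subgroupNormalizer R).relIndex (Cfsg.spGL 2 F)) :
    (∀ x ∈ Cfsg.spGL 2 F, (∃ z : F, ((x ^ r : GL (Fin 2 ⊕ Fin 2) F) : Matrix (Fin 2 ⊕ Fin 2) (Fin 2 ⊕ Fin 2) F) = z • (1 : Matrix (Fin 2 ⊕ Fin 2) (Fin 2 ⊕ Fin 2) F)) →
      (∀ z : F, (x : Matrix (Fin 2 ⊕ Fin 2) (Fin 2 ⊕ Fin 2) F) ≠ z • (1 : Matrix (Fin 2 ⊕ Fin 2) (Fin 2 ⊕ Fin 2) F)) →
      ∃ g ∈ Cfsg.spGL 2 F, g⁻¹ * x * g ∈ Cfsg.Geo.subgroupNormalizer R) ↔ (r = 2 ∨ (r = 5 ∧ orderOf (p : ZMod 5) = 4)) := by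
  classical
  have h := Minus.of_group (p := p) hodd R hRs hRi hR5 hRZ hRm
  obtain ⟨s⟩ := h.exists_frame
  constructor
  · intro H
    by_cases hr2 : r = 2
    · exact Or.inl hr2
    by_cases hr5 : r = 5 ∧ orderOf (p : ZMod 5) = 4
    · exact Or.inr hr5
    exfalso
    refine odd_case hF h s hr2 (fun e e' => hr5 ⟨e, e'⟩) (hΩ.trans (Subgroup.index_dvd_card _)) ?_
    intro x hx hxr hns
    exact H x hx ⟨1, by rw [hxr, Units.val_one, one_smul]⟩ hns
  · rintro (rfl | ⟨rfl, hord⟩) x hx ⟨z, hz⟩ hns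
    · exact case_two h s hRf hx hz hns
    · exact case_five hF hord h s hRf hx hz hns

end Cfsg.Agent.S6002
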